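import Cfsg.Agent.H6.S4.G2
import Cfsg.Agent.H2.SP14

/-! Centralisers of elements of odd order in the generic case. -/

set_option autoImplicit false
set_option linter.unusedSimpArgs false
set_option linter.unusedSectionVars false
set_option linter.unusedVariables false

namespace Cfsg.Agent.H6.S4

open Module Cfsg.Agent.H9.Sp Cfsg.Agent.H8.M3 Subgroup

universe u

variable {k V W : Type*} [Field k] [AddCommGroup V] [Module k V] [FiniteDimensional k V]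
  [AddCommGroup W] [Module k W] [FiniteDimensional k W]
  {B : V →ₗ[k] V →ₗ[k] k} {Q : QuadraticForm k W} {ι : W →ₗ[k] End k V}
  {G : Type u} [Group G] {P : Subgroup (End k V)ˣ} {π : P →* G} {p n : ℕ}
  {g a x y d : (End k V)ˣ} {u : W}

theorem inverts_pow {M : Type*} [Group M] {d κ : M} (e : d * κ * d⁻¹ = κ⁻¹) (j : ℕ) :
    (Even j → d ^ j * κ * (d ^ j)⁻¹ = κ) ∧ (Odd j → d ^ j * κ * (d ^ j)⁻¹ = κ⁻¹) := by
  have e' : d * κ⁻¹ * d⁻¹ = κ := by rw [← conj_inv, e, inv_inv]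
  induction j with
  | zero => simp
  | succ j ih =>
    have f : d ^ (j + 1) * κ * (d ^ (j + 1))⁻¹ = d * (d ^ j * κ * (d ^ j)⁻¹) * d⁻¹ := by
      rw [pow_succ']; group
    rw [f, Nat.even_add_one, Nat.not_even_iff_odd, Nat.odd_add_one, Nat.not_odd_iff_even]
    exact ⟨fun o => by rw [ih.2 o, e'], fun o => by rw [ih.1 o, e]⟩

theorem Dih.inverter [Finite G] (hD : Dih G) {d κ : G} (e : d * κ * d⁻¹ = κ⁻¹) (k2 : κ * κ ≠ 1) :
    ∃ j : ℕ, IsInv (d ^ j) ∧ d ^ j * κ * (d ^ j)⁻¹ = κ⁻¹ := by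
  have ne : κ ≠ κ⁻¹ := fun f => k2 (by nth_rw 1 [f]; simp)
  obtain ⟨j, hj⟩ : Even (orderOf d) := by
    by_contra o
    exact ne (by simpa using (inverts_pow e _).2 (Nat.not_even_iff_odd.1 o))
  have pos := orderOf_pos d
  have i : IsInv (d ^ j) := ⟨by rw [← pow_add, ← hj, pow_orderOf_eq_one],
    pow_ne_one_of_lt_orderOf (by omega) (by omega)⟩
  refine ⟨j, i, (inverts_pow e j).2 (Nat.not_even_iff_odd.1 fun o => ?_)⟩
  obtain ⟨m, -, h1, -⟩ := hD _ i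
  have a1 : κ ∈ zpowers m := by
    by_contra f
    exact k2 (h1 κ (mem_Cen.2 (mul_inv_eq_iff_eq_mul.1 ((inverts_pow e j).1 o))) f)
  have a2 : d ∈ zpowers m := by
    by_contra f
    have := orderOf_le_of_pow_eq_one two_pos
      ((pow_two d).trans (h1 d (mem_Cen.2 (Commute.self_pow d j).symm) f))
    obtain ⟨i, rfl⟩ := o
    omega
  obtain ⟨s, rfl⟩ := a1
  obtain ⟨t, rfl⟩ := a2
  exact ne (by rw [← e]; group)

theorem fix_of_scal (h : Cl B Q ι) (hu : Q u = 1) (sg : IsSp B g) (hn : n % 2 = 1) (e : g ^ n = 1)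
    (s : ∃ c : k, ∀ v ∈ Vu ι u, g.1 v = c • v) : ∀ v ∈ Vu ι u, g.1 v = v :=
  let ⟨_, hc⟩ := s
  H2.SP.scal_E h hu sg hn e hc

theorem K1.ns (h : St B Q ι P π) (hu : Q u = 1) (hx : K1 ι P u x) (hn : n % 2 = 1) (e : x ^ n = 1)
    (x1 : x ≠ 1) : ¬ ∃ c : k, ∀ v ∈ Vu ι u, x.1 v = c • v := fun s =>
  x1 (Units.ext (Vu_ext h.cl hu (fix_of_scal h.cl hu (h.sp x hx.1) hn e s) hx.2.2))

theorem K1.wa_eq (h : St B Q ι P π) (hβ : Beta P) (hu : Q u = 1) (hx : K1 ι P u x) (x1 : x ≠ 1)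
    (hg : g ∈ P) (e : T (g * x * g⁻¹) = T x) : wa ι g u = u := by
  have cl := h.cl
  obtain ⟨s, c, f⟩ := T_of_comm cl (h.sp x hx.1) (by rintro rfl; simp at hu) hx.2.1
  have f' := T_conj' cl (h.sp g hg) (x := x) (s := s) (m := c • u) (by simp [f])
  rw [e, f, ← map_smul] at f'
  have f2 := (sm_uniq cl f').2
  rw [map_smul] at f2
  refine (smul_right_injective W (fun c0 => ?_) f2).symm
  obtain ⟨v, hv, v0⟩ := ne2 (finrank_eig cl (u := -u) (by simpa using hu))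
  have := Tr.of_fix hx.2.2 v hv
  rw [f, c0] at this
  obtain rfl : s = 2 := smul_left_injective k v0 (by simpa using this)
  exact x1 (hβ.ns cl x hx.1 (by simp [f, c0]))

theorem comm_on (h : St B Q ι P π) (hu : Q u = 1) (ha : a ∈ P) (hx : x ∈ P) (hy : y ∈ P)
    (wa1 : wa ι a u = u) (wx : wa ι x u = u) (wy : wa ι y u = u) (cx : x * a = a * x)
    (cy : y * a = a * y) (ns : ¬ ∃ c : k, ∀ v ∈ Vu ι u, a.1 v = c • v) :
    ∀ v ∈ Vu ι u, (x * y).1 v = (y * x).1 v :=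
  comm2 (finrank_eig h.cl hu) (fun v => Vu_stab h.cl (h.sp a ha) wa1)
    (fun v => Vu_stab h.cl (h.sp x hx) wx) (fun v => Vu_stab h.cl (h.sp y hy) wy)
    (congrArg Units.val cx) (congrArg Units.val cy) ns

variable [IsAlgClosed k] [Fact p.Prime] [CharP k p]

theorem S2.no_inverter (h : S2 p B Q ι P π) (hβ : Beta P) (hu : Q u = 1) {κ : (End k V)ˣ} {r : ℕ}
    (ha : K1 ι P u a) (hn : n % 2 = 1) (an : a ^ n = 1) (a1 : a ≠ 1) (hκ : K1 ι P (-u) κ)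
    (hr : r.Prime) (ho : r % 2 = 1) (κr : κ ^ r = 1) (κ1 : κ ≠ 1) (hd : d ∈ P) (da : d * a = a * d)
    (dκ : d * κ * d⁻¹ = κ⁻¹) : False := by
  have cl := h.cl
  have := h.finG
  have h3 : H2.SP.S3 p B Q ι P π := ⟨h, hβ.1, hβ.2⟩
  have hu' : Q (-u) = 1 := by simpa using hu
  have sq : ∀ {x : P} {n : ℕ}, n % 2 = 1 → x.1 ^ n = 1 → x.1 ≠ 1 → π x * π x ≠ 1 := fun {x n} hn xn x1 e => by
    have e2 : x.1 ^ 2 = 1 := H2.SP.pm_odd cl hn (by rw [← pow_mul, mul_comm, pow_mul, xn, one_pow])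
      (one_pow n) (by simpa [pow_two] using (h.ker (x * x)).1 (by rw [map_mul, e]))
    exact x1 (by rw [← Nat.div_add_mod n 2, pow_add, pow_mul, e2, hn] at xn; simpa using xn)
  lift a to P using ha.1
  lift κ to P using hκ.1
  lift d to P using hd
  obtain ⟨j, ti, tκ⟩ := (h.dih hβ).inverter (d := π d) (κ := π κ) (by
    rw [← map_inv, ← map_inv, ← map_mul, ← map_mul]; exact congrArg π (Subtype.ext dκ)) (sq ho κr κ1)
  have ta : (d ^ j).1 * a.1 = a.1 * (d ^ j).1 := Commute.pow_left da j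
  rw [← map_pow] at ti tκ
  generalize d ^ j = t at *
  have tκ' := h3.conj_eq (y := κ⁻¹) ho κr (by simp [κr]) (by rw [tκ, map_inv])
  obtain ⟨w, wt, wa', i1, i2, H⟩ := H2.SP.inv_pack h.sn h3.dih ti
    (mem_Cen_comm.1 (h3.mem_cen ta)) (sq hn an a1)
  obtain ⟨w, rfl⟩ := h.surj w
  have wa2 := h3.conj_eq (y := a⁻¹) hn an (by simp [an]) (by rw [wa', map_inv])
  have wu := ha.wa_eq h.toSt hβ hu a1 w.2 (by rw [wa2]; exact T_inv _)
  obtain ⟨g, g1, g2⟩ : ∃ g, g * π κ * g⁻¹ ∈ Cen (π t) ∧ g * π κ * g⁻¹ ∈ Cen (π a) := by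
    rcases h.K1_conj hβ hu' hκ w.2 (by rw [map_neg, wu]) with e | e
    · exact H _ _ i1 (h3.mem_cen (mul_inv_eq_iff_eq_mul.1 e).symm) (sq ho κr κ1)
    · refine H _ _ i2 (map_mul π t w ▸ h3.mem_cen (mul_inv_eq_iff_eq_mul.1 ?_).symm) (sq ho κr κ1)
      have : t.1 * κ.1⁻¹ * t.1⁻¹ = κ := by rw [← conj_inv, tκ']; simp
      rw [Subgroup.coe_mul, mul_inv_rev, show t.1 * w.1 * κ.1 * (w.1⁻¹ * t.1⁻¹) =
        t.1 * (w.1 * κ.1 * w.1⁻¹) * t.1⁻¹ by group, e, this]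
  obtain ⟨g, rfl⟩ := h.surj g
  rw [← map_inv, ← map_mul, ← map_mul] at g1 g2
  have yr : (g * κ * g⁻¹).1 ^ r = 1 := H2.SP.cpow κr _
  have y1 : (g * κ * g⁻¹).1 ≠ 1 := fun e => κ1 (by simpa [mul_inv_eq_one] using e)
  generalize g * κ * g⁻¹ = y at *
  have ya := h3.comm hn an g2
  have ty := h3.comm ho yr (mem_Cen_comm.1 g1)
  have fx : ∀ x : P, x.1 * a.1 = a.1 * x.1 → wa ι x.1 (-u) = -u := fun x e => by
    rw [map_neg, ha.wa_eq h.toSt hβ hu a1 x.2 (by rw [e, mul_inv_cancel_right])]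
  have yκ : κ.1 * y.1 = y.1 * κ.1 := by
    rcases h.K1_conj hβ hu' hκ y.2 (fx y ya) with e | e
    · exact (mul_inv_eq_iff_eq_mul.1 e).symm
    · have := (inverts_pow e r).2 (Nat.odd_iff.2 ho)
      rw [yr, one_mul, inv_one, mul_one] at this
      exact absurd (by rw [← map_mul, h.ker]; left; nth_rw 1 [Subgroup.coe_mul, this]; simp)
        (sq ho κr κ1)
  by_cases s : ∃ c : k, ∀ v ∈ Vu ι (-u), y.1.1 v = c • v
  · exact noYY h.toSt hβ hu ⟨y.2, by simpa using fx y ya, fix_of_scal cl hu' (h.sp _ y.2) ho yr s⟩ hκ hr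
      (Nat.odd_iff.2 ho) yr κr y1 κ1
  have c := comm_on h.toSt hu' y.2 κ.2 t.2 (fx y ya) hκ.2.1 (fx t ta) yκ ty s
  refine sq ho κr κ1 (by
    rw [← map_mul, h.ker]; left
    refine Units.ext (Vu_ext cl hu' (fun v hv => ?_) fun v hv => ?_)
    · have c' := c _ (Vu_stab cl ((SpU B).inv_mem (h.sp _ t.2))
        (wa_inv_fix cl (h.sp _ t.2) (fx t ta)) hv)
      rw [um, iu, ← um, tκ'] at c'
      rw [Subgroup.coe_mul, um, c']; simp
    · rw [Subgroup.coe_mul, um, hκ.2.2 v hv, hκ.2.2 v hv]; rfl)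

theorem S2.K1_ab (h : S2 p B Q ι P π) (hβ : Beta P) (hu : Q u = 1) (ha : K1 ι P u a) (hn : n % 2 = 1)
    (an : a ^ n = 1) (a1 : a ≠ 1) (hx : x ∈ P) (hy : y ∈ P) (cx : x * a = a * x) (cy : y * a = a * y) :
    x * y = y * x := by
  have cl := h.cl
  have := h.fin
  have hu' : Q (-u) = 1 := by simpa using hu
  have fx : ∀ x ∈ P, x * a = a * x → wa ι x u = u := fun x hx e =>
    ha.wa_eq h.toSt hβ hu a1 hx (by rw [e, mul_inv_cancel_right])
  have c1 := comm_on h.toSt hu ha.1 hx hy ha.2.1 (fx x hx cx) (fx y hy cy) cx cy (ha.ns h.toSt hu hn an a1)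
  have cP : (y * x)⁻¹ * (x * y) ∈ P := P.mul_mem (P.inv_mem (P.mul_mem hy hx)) (P.mul_mem hx hy)
  have ca : Commute ((y * x)⁻¹ * (x * y)) a :=
    (Commute.mul_left cy cx).inv_left.mul_left (Commute.mul_left cx cy)
  have hc : K1 ι P (-u) ((y * x)⁻¹ * (x * y)) := ⟨cP, by rw [map_neg, fx _ cP ca], fun v hv => by
    rw [um, c1 v (by simpa using hv), ui]⟩
  by_contra ne
  have c0 : (y * x)⁻¹ * (x * y) ≠ 1 := fun e => ne (inv_mul_eq_one.1 e).symm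
  generalize (y * x)⁻¹ * (x * y) = c at *
  have fo := finOrd cP
  obtain ⟨r, hr, j, hj⟩ := Nat.exists_prime_and_dvd (orderOf_eq_one_iff.not.2 c0)
  have pos := fo.orderOf_pos
  have j0 : j ≠ 0 := by rintro rfl; omega
  have κr : (c ^ j) ^ r = 1 := by rw [← pow_mul, mul_comm, ← hj, pow_orderOf_eq_one]
  have κ1 : c ^ j ≠ 1 := pow_ne_one_of_lt_orderOf j0 (by
    have := hr.two_le; rw [hj]; nlinarith [Nat.pos_of_ne_zero j0])
  have hκ := hc.pow h.toSt j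
  generalize c ^ j = κ at *
  have ho : r % 2 = 1 := hr.eq_two_or_odd.resolve_left fun e => by
    subst e
    rcases hβ.1 κ hκ.1 (by rw [← pow_two, κr]) with e | rfl
    · exact κ1 e
    obtain ⟨v, hv, v0⟩ := ne2 (finrank_eig cl (u := - -u) (by simpa using hu))
    have : -v = v := hκ.2.2 v hv
    exact cl.two (smul_left_injective k v0 (by simp only; linear_combination (norm := module) -this))
  have cm : ∀ d ∈ P, d * a = a * d → d * κ = κ * d := fun d hd e =>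
    mul_inv_eq_iff_eq_mul.1 ((h.K1_conj hβ hu' hκ hd (by rw [map_neg, fx d hd e])).resolve_right
      (h.no_inverter hβ hu ha hn an a1 hκ hr ho κr κ1 hd e))
  exact ne (Units.ext (Vu_ext cl hu c1 (comm_on h.toSt hu' hκ.1 hx hy hκ.2.1 (by rw [map_neg, fx x hx cx])
    (by rw [map_neg, fx y hy cy]) (cm x hx cx) (cm y hy cy) (hκ.ns h.toSt hu' ho κr κ1))))

theorem S2.oddAb (h : S2 p B Q ι P π) (hβ : Beta P) : OddAb G := fun a a1 ho x hx y hy => by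
  have cl := h.cl
  have h3 : H2.SP.S3 p B Q ι P π := ⟨h, hβ.1, hβ.2⟩
  have hn := Nat.odd_iff.1 ho
  obtain ⟨a, rfl, an⟩ := h3.lift a hn (pow_orderOf_eq_one a)
  obtain ⟨x, rfl⟩ := h.surj x
  obtain ⟨y, rfl⟩ := h.surj y
  have cx := h3.comm hn an hx
  have cy := h3.comm hn an hy
  have a1' : a.1 ≠ 1 := fun e => a1 ((h.ker a).2 (Or.inl e))
  rw [← map_mul, ← map_mul]
  refine congrArg π (Subtype.ext ?_)
  rcases h3.types a.2 hn an a1' with e | ⟨u, s, r, hu, r0, e⟩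
  · obtain ⟨-, e1, e2, e3, e4, f⟩ := h3.reg a.2 (un_of_pow cl (a := 1) (by rw [pow_one, e])) a1'
    exact Units.ext (f.comm (H2.SP.comm_sub cx) (H2.SP.comm_sub cy))
  have hu' : Q (-u) = 1 := by simpa using hu
  have fx : ∀ x : P, x.1 * a.1 = a.1 * x.1 → wa ι x.1 u = u := fun x c =>
    H2.SP.wa_of_comm cl (h.sp _ a.2) r0 e c.symm (h.sp _ x.2)
  by_cases s1 : ∃ c : k, ∀ v ∈ Vu ι (-u), a.1.1 v = c • v
  · exact h.K1_ab hβ hu ⟨a.2, fx a rfl, fix_of_scal cl hu' (h.sp _ a.2) hn an s1⟩ hn an a1' x.2 y.2 cx cy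
  by_cases s2 : ∃ c : k, ∀ v ∈ Vu ι u, a.1.1 v = c • v
  · exact h.K1_ab hβ hu' ⟨a.2, by rw [map_neg, fx a rfl], by
      simpa using fix_of_scal cl hu (h.sp _ a.2) hn an s2⟩ hn an a1' x.2 y.2 cx cy
  exact Units.ext (Vu_ext cl hu (comm_on h.toSt hu a.2 x.2 y.2 (fx a rfl) (fx x cx) (fx y cy) cx cy s2)
    (comm_on h.toSt hu' a.2 x.2 y.2 (by rw [map_neg, fx a rfl]) (by rw [map_neg, fx x cx])
      (by rw [map_neg, fx y cy]) cx cy s1))

end Cfsg.Agent.H6.S4
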