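import Cfsg.Agent.H6.S4.B1

/-! Pairs of quadratic elements: the pair lemma. -/

set_option autoImplicit false
set_option linter.unusedSimpArgs false
set_option linter.unusedSectionVars false
set_option linter.unusedVariables false

namespace Cfsg.Agent.H6.S4

open Module Cfsg.Agent.H9.Sp Cfsg.Agent.H8.M3 Matrix

universe u

variable {k V W : Type*} [Field k] [AddCommGroup V] [Module k V] [FiniteDimensional k V]
  [AddCommGroup W] [Module k W] [FiniteDimensional k W]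
  {B : V →ₗ[k] V →ₗ[k] k} {Q : QuadraticForm k W} {ι : W →ₗ[k] End k V}
  {G : Type u} [Group G] {P : Subgroup (End k V)ˣ} {π : P →* G} {p : ℕ}
  {g g' a b d x y : (End k V)ˣ} {θ s t r ρ : k} {m : W} {U : Submodule k V}

theorem exists_root [IsAlgClosed k] (θ : k) : ∃ l : k, l ≠ 0 ∧ l + l⁻¹ = θ := by
  obtain ⟨l, hl⟩ := IsAlgClosed.exists_root (Polynomial.X ^ 2 - Polynomial.C θ * Polynomial.X + 1)
    (by
      have : (Polynomial.X ^ 2 - Polynomial.C θ * Polynomial.X + 1 : Polynomial k).degree = 2 := by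
        compute_degree!
      rw [this]; decide)
  simp at hl
  have l0 : l ≠ 0 := by rintro rfl; simp at hl
  exact ⟨l, l0, by field_simp; linear_combination hl⟩

theorem exists_eigv [IsAlgClosed k] (hU : g ∈ sU U) (e : Tr U g θ) {v : V} (hv : v ∈ U) (h0 : v ≠ 0) :
    ∃ (l : k) (w : V), w ∈ U ∧ w ≠ 0 ∧ g.1 w = l • w := by
  obtain ⟨l, l0, hl⟩ := exists_root θ
  by_cases h : g.1 v - l⁻¹ • v = 0
  · exact ⟨_, v, hv, h0, sub_eq_zero.1 h⟩
  · refine ⟨l, _, U.sub_mem (hU v hv).1 (U.smul_mem _ hv), h, ?_⟩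
    have := e _ (hU v hv).1
    simp only [T, LinearMap.add_apply, ui, ← hl] at this
    rw [map_sub, map_smul, smul_sub, smul_smul, mul_inv_cancel₀ l0]
    linear_combination (norm := module) this

theorem card3 {k0 : Subfield k} (h : Nat.card k0 = 3) {a : k} (ha : a ∈ k0) : a ^ 3 = a := by
  have : Finite k0 := Nat.finite_of_card_ne_zero (by omega)
  have := Fintype.ofFinite k0
  have e := FiniteField.pow_card (⟨a, ha⟩ : k0)
  rw [← Nat.card_eq_fintype_card, h] at e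
  exact congrArg Subtype.val e

theorem card_eq3 [CharP k 3] {k0 : Subfield k} (h : 3 ≤ Nat.card k0) {n : ℕ} (hd : Nat.card k0 ∣ n)
    (h9 : ¬ 9 ∣ n) : Nat.card k0 = 3 := by
  have : Finite k0 := Nat.finite_of_card_ne_zero (by omega)
  have := Fintype.ofFinite k0
  obtain ⟨e, -, he⟩ := FiniteField.card k0 3
  rw [Nat.card_eq_fintype_card, he] at h hd ⊢
  obtain ⟨_ | _ | e, h0⟩ := e
  · omega
  · rfl
  · exact absurd ((pow_dvd_pow 3 (show 2 ≤ e + 1 + 1 by omega)).trans hd) h9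

theorem eig_pow {v : V} {c : k} (e : g.1 v = c • v) (n : ℕ) : (g ^ n).1 v = c ^ n • v := by
  induction n with
  | zero => simp
  | succ n ih => rw [pow_succ, um, e, map_smul, ih, smul_smul, pow_succ']

theorem tv_pow {v z : V} {c : k} (e : g.1 v = v) (e' : g.1 z = z + c • v) (n : ℕ) :
    (g ^ n).1 z = z + ((n : k) * c) • v := by
  induction n with
  | zero => simp
  | succ n ih =>
    rw [pow_succ', um, ih, map_add, map_smul, e, e']; push_cast; module

theorem wa_pow (h : Cl B Q ι) (hg : IsSp B g) (e : wa ι g m = m) (n : ℕ) : wa ι (g ^ n) m = m := by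
  induction n with
  | zero => rw [pow_zero, wa_one h]
  | succ n ih => rw [pow_succ, wa_mul h ((SpU B).pow_mem hg n) hg, e, ih]

variable [Fact p.Prime] [CharP k p] [IsAlgClosed k]

set_option maxHeartbeats 1000000 in
theorem S2.pair_ex (h : S2 p B Q ι P π) (hg : g ∈ P) (hg' : g' ∈ P) (e : T g = θ • 1)
    (e' : T g' = θ • 1) (θ0 : θ ≠ 0) (hx : T (g * g') = s • 1 + ι m) {v0 : V} (hv0 : v0 ≠ 0)
    (hρ : T (g * g') v0 = ρ • v0) (r1 : ρ ≠ 2) (r2 : ρ ≠ θ ^ 2 - 2) :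
    ∃ κ, Ex κ θ ∧ Ex κ ρ ∧ Ex κ (θ ^ 2 - ρ) ∧ Ex κ (θ * ρ - θ) ∧
      Ex κ (2 * θ ^ 2 + ρ ^ 2 - θ ^ 2 * ρ - 2) := by
  have c := h.cl
  have := h.fin
  obtain ⟨c1, c2⟩ := xi_comm e e'
  set U := (T (g * g')).eigenspace ρ
  have hU : ∀ v, v ∈ U ↔ T (g * g') v = ρ • v := fun v => End.mem_eigenspace_iff
  have u1 : g ∈ sU U := mem_sU_eig c1 ρ
  have u2 : g' ∈ sU U := mem_sU_eig c2 ρ
  have t1 := Tr.of e U
  have t2 := Tr.of e' U
  have t3 : Tr U (g * g') ρ := fun v hv => (hU v).1 hv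
  have t4 : Tr U (g⁻¹ * g') (θ ^ 2 - ρ) := fun v hv => by
    simp [T_inv_mul e e', (hU v).1 hv, sub_smul, sq]
  have t5 : Tr U (g * (g * g')) (θ * ρ - θ) := Tr.mul u1 t1 t3 ((t2.inv.conj u1).congr (by group) rfl)
  have t6 := (Tr.comm u1 u2 t1 t2 t3).congr rfl
    (show _ = 2 * θ ^ 2 + ρ ^ 2 - θ ^ 2 * ρ - 2 by ring)
  have γ2 : 2 * θ ^ 2 + ρ ^ 2 - θ ^ 2 * ρ - 2 ≠ 2 := fun e => by
    rcases mul_eq_zero.1 (show (ρ - 2) * (ρ - (θ ^ 2 - 2)) = 0 by linear_combination e) with e | e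
    exacts [r1 (sub_eq_zero.1 e), r2 (sub_eq_zero.1 e)]
  have noc : ∀ x ∈ U, x ≠ 0 → ∀ α β : k, g.1 x = α • x → g'.1 x = β • x → False :=
    fun x hx x0 α β a1 a2 => γ2 (smul_left_injective k x0 (by
      obtain ⟨α0, a3⟩ := inv_eig x0 a1
      obtain ⟨β0, a4⟩ := inv_eig x0 a2
      have : (g * g' * g⁻¹ * g'⁻¹).1 x = (1 : k) • x := by
        simp only [um, a1, a2, a3, a4, map_smul, smul_smul]; congr 1; field_simp
      simp only
      rw [← t6 x hx, T_eig x0 this]; norm_num))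
  obtain ⟨l, v, hv, v0, gv⟩ := exists_eigv u1 t1 ((hU _).2 hρ) hv0
  obtain ⟨l0, gv'⟩ := inv_eig v0 gv
  have hl : l + l⁻¹ = θ := smul_left_injective k v0 ((T_eig v0 gv).symm.trans (t1 v hv))
  set w := g'.1 v with hw0
  have hw : ∀ c : k, w ≠ c • v := fun c e => noc v hv v0 _ _ gv e
  have coU : ∀ c, co v w c ∈ U := fun c => U.add_mem (U.smul_mem _ hv) (U.smul_mem _ (u2 v hv).1)
  have co0 : ∀ c : Fin 2 → k, c ≠ 0 → co v w c ≠ 0 := fun c h0 e => h0 (co_inj v0 hw (by simpa using e))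
  obtain ⟨D, hD⟩ : ∃ D : Subgroup (End k V)ˣ, ∀ d, d ∈ D ↔ d ∈ P ∧
      Act v w d.1 ∧ wa ι d m = m ∧ (m = 0 → ∀ X ∈ A4 g g', d.1 * X ∈ A4 g g') := ⟨finSub P _
    ⟨Act.one v w, wa_one c m, fun _ X hX => by simpa using hX⟩
    fun a ha b hb h1 h2 => ⟨h1.1.mul h2.1, by rw [wa_mul c (h.sp a ha) (h.sp b hb), h2.2.1, h1.2.1],
      fun m0 X hX => by rw [Units.val_mul, mul_assoc]; exact h1.2.2 m0 _ (h2.2.2 m0 X hX)⟩,
      fun _ => Iff.rfl⟩
  have hDP : D ≤ P := fun d hd => ((hD d).1 hd).1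
  have : Finite D := Finite.of_injective _ (Subgroup.inclusion_injective hDP)
  have gD : g ∈ D := (hD _).2 ⟨hg, act_of (a := l) (b := 0) (c := ρ + θ * l - θ * θ) (d := l⁻¹) (by simp [gv])
    (by
      have := LinearMap.congr_fun (swap_eq e e') v
      simp only [End.mul_apply, LinearMap.add_apply, LinearMap.sub_apply, LinearMap.smul_apply,
        End.one_apply, (hU v).1 hv, gv, map_smul, ← hw0] at this
      linear_combination (norm := module) this - hl • w) (by simp [l0]),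
    fix_of_comm c (h.sp g hg) hx c1, fun m0 => (A4_mul e e' (s := s) (by simp [hx, m0])).1⟩
  have gD' : g' ∈ D := (hD _).2 ⟨hg', act_of (a := 0) (b := 1) (c := -1) (d := θ) (by simp [hw0])
    (by
      have := LinearMap.congr_fun (sq_of_T e') v
      simp only [End.mul_apply, LinearMap.sub_apply, LinearMap.smul_apply, End.one_apply, ← hw0] at this
      linear_combination (norm := module) this) (by simp),
    fix_of_comm c (h.sp g' hg') hx c2, fun m0 => (A4_mul e e' (s := s) (by simp [hx, m0])).2⟩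
  have negD : ∀ d ∈ D, -d ∈ D := fun d hd => have hd := (hD d).1 hd; (hD _).2 ⟨h.neg hd.1, hd.2.1.neg,
    by rw [wa_neg c (h.sp d hd.1), hd.2.2.1], fun m0 X hX => by
      simpa using (A4 g g').neg_mem (hd.2.2.2 m0 X hX)⟩
  obtain ⟨φ, hdet, hφ⟩ := exists_phi ((Units.coeHom _).comp D.subtype) v0 hw fun d => ((hD _).1 d.2).2.1
  replace hφ : ∀ (d : D) c, d.1.1 (co v w c) = co v w ((φ d : M2 k) *ᵥ c) := hφ
  have tr : ∀ (d : D) (t : k), Tr U d.1 t → (φ d : M2 k).trace = t := fun d t ht => by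
    have a := ht _ (coU ![1, 0])
    have b := congrArg (fun M : M2 k => co v w (M *ᵥ ![1, 0])) (inv_add (hdet d))
    simp only [add_mulVec, map_add, ← map_inv, ← hφ, smul_mulVec, one_mulVec, map_smul] at b
    exact smul_left_injective k (co0 ![1, 0] (by simp)) (b.symm.trans a)
  set G0 := φ ⟨g, gD⟩ with hG0
  set G1 := φ ⟨g', gD'⟩ with hG1
  have tc := tr (⟨g, gD⟩ * ⟨g', gD'⟩ * ⟨g, gD⟩⁻¹ * ⟨g', gD'⟩⁻¹) _ t6
  simp only [map_mul, map_inv, ← hG0, ← hG1] at tc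
  have ncm : G0 * G1 ≠ G1 * G0 := fun e => γ2 (by
    rw [← tc, e]; simp [trace_one])
  have fin : ∀ κ, (∀ d, (φ d : M2 k) = 1 ∨ (φ d : M2 k) = -1 ∨ Ex κ (φ d : M2 k).trace) →
      Ex κ θ ∧ Ex κ ρ ∧ Ex κ (θ ^ 2 - ρ) ∧ Ex κ (θ * ρ - θ) ∧
        Ex κ (2 * θ ^ 2 + ρ ^ 2 - θ ^ 2 * ρ - 2) := fun κ H => by
    have cen : ∀ (d : D) (t : k), Tr U d.1 t → (∀ y, φ d * y = y * φ d) ∨ Ex κ t := fun d t ht => by
      rcases H d with e | e | e
      · exact Or.inl fun y => Units.ext (by simp [e])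
      · exact Or.inl fun y => Units.ext (by simp [e])
      · exact Or.inr (tr d t ht ▸ e)
    refine ⟨(cen ⟨g, gD⟩ _ t1).resolve_left fun e => ncm (e _),
      (cen (⟨g, gD⟩ * ⟨g', gD'⟩) _ t3).resolve_left fun e => ncm ?_,
      (cen (⟨g, gD⟩⁻¹ * ⟨g', gD'⟩) _ t4).resolve_left fun e => ncm ?_,
      (cen (⟨g, gD⟩ * (⟨g, gD⟩ * ⟨g', gD'⟩)) _ t5).resolve_left fun e => ncm ?_, ?_⟩
    · have := e G0
      simp only [map_mul, ← hG0, ← hG1, mul_assoc, mul_right_inj] at this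
      exact this.symm
    · have := e G0
      simp only [map_mul, map_inv, ← hG0, ← hG1, mul_assoc, mul_inv_cancel_left,
        inv_mul_eq_iff_eq_mul] at this
      exact this.symm
    · have := e G0
      simp only [map_mul, ← hG0, ← hG1, mul_assoc, mul_right_inj] at this
      exact this.symm
    · rcases H (⟨g, gD⟩ * ⟨g', gD'⟩ * ⟨g, gD⟩⁻¹ * ⟨g', gD'⟩⁻¹) with e | e | e <;>
        simp only [map_mul, map_inv, ← hG0, ← hG1] at e
      · exact absurd (by rw [← tc, e]; simp [trace_one]) γ2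
      · have a : G0 * G1 * G0⁻¹ = -G1 := by
          rw [← neg_one_mul G1, ← mul_inv_eq_iff_eq_mul]; exact Units.ext e
        have b := tr (⟨g, gD⟩ * ⟨g', gD'⟩ * ⟨g, gD⟩⁻¹) _ (t2.conj u1)
        have b' := tr ⟨g', gD'⟩ _ t2
        simp only [map_mul, map_inv, ← hG0, ← hG1, a, Units.val_neg, trace_neg] at b b'
        rw [b'] at b
        exact absurd ((mul_eq_zero.1 (show 2 * θ = 0 by linear_combination -b)).resolve_left c.two) θ0
      · exact tc ▸ e
  have eig : ∀ (d : D) (x y : Fin 2 → k) (α : k), (φ d : M2 k) *ᵥ x = α • y →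
      d.1.1 (co v w x) = α • co v w y := fun d x y α e => by rw [hφ, e, map_smul]
  rcases dickM p c.two φ hdet with ⟨x, x0, hx⟩ | ⟨x, y, x0, xy, hx⟩ | ⟨-, -, κ, H, -⟩ |
    ⟨k0, R, N, N', H⟩
  · obtain ⟨α, a1⟩ := hx ⟨g, gD⟩
    obtain ⟨β, a2⟩ := hx ⟨g', gD'⟩
    exact (noc _ (coU x) (co0 x x0) _ _ (eig _ _ _ _ a1) (eig _ _ _ _ a2)).elim
  · have key : ∀ d : D, Tr U d.1 θ → ∃ α : k, d.1.1 (co v w x) = α • co v w x := fun d ht => by
      rcases hx d with ⟨⟨α, a1⟩, -⟩ | ⟨⟨α, a1⟩, β, a2⟩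
      · exact ⟨α, eig _ _ _ _ a1⟩
      · exfalso
        have b := congrArg (fun M : M2 k => M *ᵥ x) (ch2 (hdet d))
        simp only [← mulVec_mulVec, a1, a2, mulVec_smul, sub_mulVec, smul_mulVec, one_mulVec,
          tr d θ ht] at b
        have := (indep2 x0 xy (c := α * β) (d := 0) (c' := -1) (d' := θ * α)
          (by linear_combination (norm := module) b))
        rw [(mul_eq_zero.1 this.2.symm).resolve_left θ0] at this
        simp at this
    obtain ⟨α, a1⟩ := key ⟨g, gD⟩ t1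
    obtain ⟨β, a2⟩ := key ⟨g', gD'⟩ t2
    exact (noc _ (coU x) (co0 x x0) _ _ a1 a2).elim
  · exact ⟨κ, fin κ H⟩
  rcases h.un with ⟨p5, ns⟩ | ⟨rfl, h9⟩
  swap
  · have h3 := card_eq3 H.three (H.dvd.trans (Subgroup.card_dvd_of_le hDP)) h9
    refine ⟨4, fin 4 fun d => Or.inr (Or.inr ?_)⟩
    have a := card3 h3 (H.sq_mem hdet d)
    have b := three_eq (k := k) (p := 3) rfl
    unfold Ex
    grind
  have ex : ∀ M ∈ R, M.det = 1 → ∃ d : D, (φ d : M2 k) = M := fun M hM h1 => by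
    obtain ⟨d, e | e⟩ := H.ex M hM h1
    · exact ⟨d, e⟩
    · refine ⟨⟨-d, negD _ d.2⟩, toLin'.injective (LinearMap.ext fun x => co_inj v0 hw ?_)⟩
      simp only [toLin'_apply, ← hφ, Units.val_neg, LinearMap.neg_apply]
      rw [hφ, e, neg_mulVec, map_neg, neg_neg]
  obtain ⟨x, x0, n1, n2⟩ := nil_vec H.sq H.ac
  obtain ⟨u, hu⟩ := ex (1 + (1 : k) • N) (R.add_mem R.one_mem (H.smul _ k0.one_mem _ H.hN))
    (det_one_add H.sq 1)
  obtain ⟨n, a, hn, hna⟩ := h.ppart (p := p) (hDP u.2)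
  have uv : u.1.1 (co v w x) = co v w x := by simp [hφ, hu, add_mulVec, n1]
  have uz : u.1.1 (co v w (N' *ᵥ x)) = co v w (N' *ᵥ x) + (1 : k) • co v w x := by
    simp only [hφ, hu, add_mulVec, one_smul, one_mulVec, n2, map_add]
  have yz := tv_pow uv uz n
  have yv := eig_pow (c := (1 : k)) (g := u.1) (v := co v w x) (by rw [uv, one_smul]) n
  rw [one_pow, one_smul] at yv
  have n0 : (n : k) * 1 ≠ 0 := by simpa using cast_ne hn
  have yD := (hD _).1 (D.pow_mem u.2 n)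
  have yu : Un (u.1 ^ n) := un_of_pow c (a := a) (by rw [← pow_mul, hna])
  set y := u.1 ^ n
  have y1 : ¬ T y = (2 : k) • 1 := fun e => by
    rw [ns y yD.1 e] at yz
    simp [n0, co0 x x0] at yz
    exact n0 (by simpa using yz)
  have m0 : m ≠ 0 := fun m0 => by
    obtain ⟨t, ht⟩ := A4_T c (h.sp g hg) (h.sp g' hg') e e' (s := s) (by simp [hx, m0]) (h.sp y yD.1)
      (by simpa using yD.2.2.2 m0 1 (Submodule.subset_span (by simp)))
    exact y1 (by rw [ht, (un_T c yu (s := t) (m := 0) (by simp [ht])).1])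
  have hm : Q m = 0 := by
    obtain ⟨s', t, ht⟩ := T_of_comm c (h.sp y yD.1) m0 yD.2.2.1
    obtain ⟨rfl, a⟩ := un_T c yu (s := s') (m := t • m) (by simp [ht])
    rw [Orth.Q_smul, mul_eq_zero, mul_self_eq_zero] at a
    exact a.resolve_left fun t0 => y1 (by simp [ht, t0])
  have UL : ∀ z ∈ U, ι m z = 0 := fun z hz => by
    by_cases z0 : z = 0
    · simp [z0]
    have a : ι m z = (ρ - s) • z := by
      have := (hU z).1 hz
      simp only [hx, LinearMap.add_apply, LinearMap.smul_apply, End.one_apply] at this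
      linear_combination (norm := module) this
    have b := congrArg (ι m) a
    rw [c.sq, hm, map_smul, a, smul_smul, zero_smul, eq_comm, smul_eq_zero, mul_self_eq_zero] at b
    rw [a, b.resolve_right z0, zero_smul]
  have rn : ∀ (d : D) (τ : k), (φ d : M2 k) *ᵥ x = τ • x → τ ^ 4 = 1 := fun d τ e =>
    h.regnorm ns m0 hm yD.1 (hDP d.2) yD.2.2.1 ((hD _).1 d.2).2.2.1 (co0 x x0) (UL _ (coU _)) (UL _ (coU _)) n0 yv yz
      (eig _ _ _ _ e)
  have dg : ∀ a b : k, (a • (N * N') + b • (N' * N)) *ᵥ x = a • x := fun a b => by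
    simp only [add_mulVec, smul_mulVec, ← mulVec_mulVec, n1, n2, mulVec_zero, smul_zero, add_zero]
  have dR : ∀ a ∈ k0, ∀ b ∈ k0, a • (N * N') + b • (N' * N) ∈ R := fun a ha b hb =>
    R.add_mem (H.smul _ ha _ (R.mul_mem H.hN H.hN')) (H.smul _ hb _ (R.mul_mem H.hN' H.hN))
  have f4 : ∀ τ ∈ k0, τ ≠ 0 → τ ^ 4 = 1 := fun τ hτ τ0 => by
    obtain ⟨d, hd⟩ := ex _ (dR τ hτ τ⁻¹ (k0.inv_mem hτ)) (by rw [det_dg H.sq H.sq' H.ac, mul_inv_cancel₀ τ0])
    exact rn d τ (by rw [hd, dg])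
  have k2 : (2 : k) ∈ k0 := by exact_mod_cast natCast_mem k0 2
  have h3 : (3 : k) ≠ 0 := fun e => by
    have := eq_of_cast (k := k) (p := p) (n := 3) (by decide) (by exact_mod_cast e); omega
  have h5 : (5 : k) = 0 := (mul_eq_zero.1 (show 3 * (5 : k) = 0 by
    linear_combination f4 2 k2 c.two)).resolve_left h3
  refine ⟨5, fin 5 fun d => Or.inr (Or.inr ?_)⟩
  rcases H.ps with ps | ps
  · have := f4 _ (H.tr _ (ps d))
    unfold Ex
    grind
  · obtain ⟨d, t, hd⟩ := ps _ (dR 2 k2 1 k0.one_mem) (by rw [det_dg H.sq H.sq' H.ac]; simpa using c.two)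
    have a := hdet d
    rw [hd, det_smul, det_dg H.sq H.sq' H.ac, Fintype.card_fin] at a
    have b := rn d (t * 2) (by rw [hd, smul_mulVec, dg, smul_smul])
    exact absurd (by linear_combination b - (8 * t ^ 2 + 4) * a) h3

end Cfsg.Agent.H6.S4
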