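import Cfsg.Agent.H6.S4.B1

/-! Subgroups of `Sp_4`: interface definitions. -/

set_option autoImplicit false
set_option linter.unusedSimpArgs false
set_option linter.unusedSectionVars false
set_option linter.unusedVariables false

namespace Cfsg.Agent.H6.S4

open Module Cfsg.Agent.H9.Sp Cfsg.Agent.H8.M3

universe u

variable {k V W : Type*} [Field k] [AddCommGroup V] [Module k V] [FiniteDimensional k V]
  [AddCommGroup W] [Module k W] [FiniteDimensional k W]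
  {B : V →ₗ[k] V →ₗ[k] k} {Q : QuadraticForm k W} {ι : W →ₗ[k] End k V}
  {G : Type u} [Group G] {P : Subgroup (End k V)ˣ} {π : P →* G} {p : ℕ}
  {g g' : (End k V)ˣ} {u v : W}

/-- no non-central involution of `Sp(V)` -/
def NoI1 (P : Subgroup (End k V)ˣ) : Prop := ∀ g ∈ P, g * g = 1 → g = 1 ∨ g = -1

/-- roots: the involution `ι u` (minus a reflection of `W`) lies in `P` -/
def Rt (Q : QuadraticForm k W) (ι : W →ₗ[k] End k V) (P : Subgroup (End k V)ˣ) (u : W) : Prop :=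
  Q u = 1 ∧ ∃ g ∈ P, g.1 = ι u

/-- quadratic elements of order three -/
def X3 (P : Subgroup (End k V)ˣ) (g : (End k V)ˣ) : Prop :=
  g ∈ P ∧ T g = (-1 : k) • 1 ∧ g ≠ 1

/-- the possible pairs of quadratic elements of order three -/
def Pair3 (P : Subgroup (End k V)ˣ) : Prop :=
  ∀ g g', X3 P g → X3 P g' → g * g' = g' * g ∨ T (g * g') = 0 ∨ T (g * g') = 1 ∨
    (T (g * g') * T (g * g') = T (g * g') + 1 ∧ ∀ c : k, T (g * g') ≠ c • 1)

/-- the values of quadratic elements -/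
def Quad (P : Subgroup (End k V)ˣ) : Prop :=
  ∀ g ∈ P, ∀ θ : k, T g = θ • 1 → θ = 0 ∨ θ ^ 2 = 1 ∨ θ ^ 2 = 4

/-- the generic case -/
def Beta (P : Subgroup (End k V)ˣ) : Prop :=
  NoI1 P ∧ ∀ g ∈ P, ∀ θ : k, T g = θ • 1 → g = 1 ∨ g = -1 ∨ θ = 0

theorem St.rt_of_inv (h : St B Q ι P π) (hg : g ∈ P) (e : g * g = 1) (h1 : g ≠ 1) (h2 : g ≠ -1) :
    ∃ u, Q u = 1 ∧ g.1 = ι u := by
  have hi : g⁻¹ = g := inv_eq_of_mul_eq_one_right e
  obtain ⟨s, m, hs⟩ := exists_sm h.cl (X := g.1) fun a b => by rw [(h.sp g hg).left, hi]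
  have m0 : m ≠ 0 := fun m0 => by
    rcases pm_of_scal h.cl (h.sp g hg) (c := s) (by simp [hs, m0]) with e | e <;> contradiction
  have e2 : (s * s + Q m) • (1 : End k V) + ι ((2 * s) • m) = (1 : k) • 1 + ι 0 := by
    have := congrArg Units.val e
    simp only [hs, nc k V, sq' h.cl] at this
    simp only [map_smul, map_zero]
    linear_combination (norm := module) this
  obtain ⟨e3, e4⟩ := sm_uniq h.cl e2
  have s0 : s = 0 := by simpa [h.cl.two, m0] using e4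
  exact ⟨m, by simpa [s0] using e3, by simp [hs, s0]⟩

theorem Rt.inv (h : St B Q ι P π) (hu : Q u = 1) (e : g.1 = ι u) : g * g = 1 ∧ g ≠ 1 ∧ g ≠ -1 := by
  have u0 : u ≠ 0 := by rintro rfl; simp at hu
  refine ⟨Units.ext (by simp only [nc k V, e, sq' h.cl, hu, one_smul]), ?_, ?_⟩ <;> rintro rfl
  · exact u0 (scal h.cl (c := 1) (by simp [← e])).1
  · exact u0 (scal h.cl (c := -1) (by simp [← e])).1

theorem St.noI1_iff (h : St B Q ι P π) : NoI1 P ↔ ∀ u, ¬ Rt Q ι P u := by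
  constructor
  · rintro n u ⟨hu, g, hg, e⟩
    obtain ⟨a, b, c⟩ := Rt.inv h hu e
    exact (n g hg a).elim b c
  · intro n g hg e
    by_contra! hh
    obtain ⟨u, hu, e'⟩ := h.rt_of_inv hg e hh.1 hh.2
    exact n u ⟨hu, g, hg, e'⟩

theorem Rt.neg (h : St B Q ι P π) (hu : Rt Q ι P u) : Rt Q ι P (-u) :=
  let ⟨a, g, hg, e⟩ := hu
  ⟨by simpa using a, -g, h.neg hg, by simp [e]⟩

theorem Rt.wa (h : St B Q ι P π) (hu : Rt Q ι P u) (hg : g ∈ P) : Rt Q ι P (wa ι g u) :=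
  let ⟨a, x, hx, e⟩ := hu
  ⟨by rw [Q_wa h.cl (h.sp g hg), a], g * x * g⁻¹, P.mul_mem (P.mul_mem hg hx) (P.inv_mem hg), by
    rw [ι_wa h.cl (h.sp g hg), ← e]; rfl⟩

/-- the action of a root involution on `W` -/
theorem wa_rt (h : Cl B Q ι) (sg : IsSp B g) (hu : Q u = 1) (e : g.1 = ι u) (x : W) :
    wa ι g x = Orth.B Q u x • u - x := (wa_eq h sg).2 (by
  rw [e, anti' h]; simp only [map_sub, map_smul, nc k V, sq' h, hu, one_smul])

theorem Rt.refl (h : St B Q ι P π) (hu : Rt Q ι P u) (hv : Rt Q ι P v) :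
    Rt Q ι P (Orth.B Q u v • u - v) :=
  let ⟨a, x, hx, e⟩ := hu
  wa_rt h.cl (h.sp x hx) a e v ▸ hv.wa h hx

/-- the product of two root involutions is quadratic -/
theorem Rt.pair (h : St B Q ι P π) (hu : Rt Q ι P u) (hv : Rt Q ι P v) :
    ∃ g ∈ P, g.1 = ι u * ι v ∧ T g = Orth.B Q u v • 1 :=
  let ⟨a, x, hx, e⟩ := hu
  let ⟨b, y, hy, e'⟩ := hv
  ⟨x * y, P.mul_mem hx hy, by rw [← e, ← e']; rfl,
    T_pair h.cl (by rw [← e, ← e']; rfl) (by rw [a, b, one_mul])⟩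

theorem X3.conj (hx : X3 P g') (hg : g ∈ P) : X3 P (g * g' * g⁻¹) :=
  ⟨P.mul_mem (P.mul_mem hg hx.1) (P.inv_mem hg), by rw [T_conj, hx.2.1]; simp only [nc k V],
    fun e => hx.2.2 (by simpa [mul_inv_eq_one] using e)⟩

theorem X3.inv (hx : X3 P g) : X3 P g⁻¹ :=
  ⟨P.inv_mem hx.1, by rw [T_inv, hx.2.1], fun e => hx.2.2 (inv_eq_one.1 e)⟩

theorem X3.cube (hx : X3 P g) : g ^ 3 = 1 := Units.ext (by
  simp only [pow_succ, pow_zero, nc k V, sq_of_T hx.2.1, sqm_of_T hx.2.1]; module)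

theorem X3.ne_neg (h : Cl B Q ι) (hx : X3 P g) : g ≠ -1 := by
  rintro rfl
  exact neg_ne_one h (by simpa [pow_succ] using hx.cube)

end Cfsg.Agent.H6.S4
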