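import Cfsg.Agent.H6.S4.F0

/-! Dihedral centralisers of involutions. -/

set_option autoImplicit false
set_option linter.unusedSectionVars false
set_option linter.unusedVariables false

namespace Cfsg.Agent.H6.S4

open Subgroup Cfsg.Agent.H8.M3

universe u

variable {G : Type u} [Group G] [Finite G] {t m x y : G} {k : ℕ}

/-- dihedral centraliser, the four-group included -/
structure DD (t m : G) (k : ℕ) : Prop where
  inv : IsInv t
  odd : (Cen t).index % 2 = 1
  ord : orderOf m = 2 * k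
  pos : 1 ≤ k
  mem : m ∈ Cen t
  tmem : t ∈ zpowers m
  card : Nat.card (Cen t) = 4 * k
  out : ∀ y ∈ Cen t, y ∉ zpowers m → y * y = 1

theorem DD.le (h : DD t m k) : zpowers m ≤ Cen t := zpowers_le.2 h.mem

theorem DD.inverts (h : DD t m k) (hy : y ∈ Cen t) (hy' : y ∉ zpowers m) (hx : x ∈ zpowers m) :
    y * x * y⁻¹ = x⁻¹ := by
  have e := h.out _ (mul_mem (h.le hx) hy) (by rwa [mul_mem_cancel_left hx])
  rw [inv_eq_of_mul_eq_one_right (h.out y hy hy'), eq_inv_iff_mul_eq_one,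
    show y * x * y * x = x⁻¹ * (x * y * (x * y)) * x by group, e]; group

theorem DD.conj (hG : SN G) (h : DD t m k) : ∀ r, IsInv r → ∃ g, g * t * g⁻¹ = r :=
  hG.cyc_thompson (index_mod4 h.le (j := 1) (by rw [h.card, Nat.card_zpowers, h.ord]; ring) rfl h.odd)
    h.inv h.tmem

theorem DD.exists_out (h : DD t m k) : ∃ w ∈ Cen t, w ∉ zpowers m := by
  by_contra! e
  have := card_le_of_le (show Cen t ≤ zpowers m from e)
  rw [h.card, Nat.card_zpowers, h.ord] at this
  have := h.pos; omega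

theorem DD.mem_of_sq (h : DD t m k) (hy : y ∈ Cen t) (e : y * y ≠ 1) : y ∈ zpowers m := by
  by_contra e'; exact e (h.out y hy e')

theorem not_cyc (hG : SN G) (ht : IsInv t) (ho : (Cen t).index % 2 = 1) (hc : IsCyclic (Cen t)) :
    False := by
  have : Fact (Nat.Prime 2) := ⟨Nat.prime_two⟩
  obtain ⟨S⟩ : Nonempty (Sylow 2 (Cen t)) := inferInstance
  have hS : IsPGroup 2 (S.1.map (Cen t).subtype) := S.2.map _
  have hi : ¬ 2 ∣ (S.1.map (Cen t).subtype).index := by
    rw [index_map_subtype]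
    exact fun h => ((Nat.prime_two.dvd_mul).1 h).elim S.not_dvd_index (by omega)
  let T := hS.toSylow hi
  have c : IsCyclic T := isCyclic_of_surjective _ (S.1.equivMapOfInjective _ (Cen t).subtype_injective).surjective
  have d : 2 ∣ Nat.card G := ht.orderOf ▸ orderOf_dvd_natCard t
  have e := hG.burnside T (c.normalizer_le_centralizer (by
    exact (Nat.minFac_eq_two_iff _).2 d))
  exact T.not_dvd_index (by rw [e, index_bot]; exact d)

theorem exists_DD (hG : SN G) (hd : Dih G) (ht : IsInv t) : ∃ (t m : G) (k : ℕ), DD t m k := by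
  obtain ⟨t, ht, ho⟩ := exists_central_inv ht
  obtain ⟨m, hm, h1, h2⟩ := hd t ht
  have le : zpowers m ≤ Cen t := zpowers_le.2 hm
  have cyc : ∀ z ∈ Cen t, ¬ Cen t ≤ zpowers z := fun z hz e => not_cyc hG ht ho (by
    rw [le_antisymm e (zpowers_le.2 hz)]; infer_instance)
  obtain ⟨w, w1, w2⟩ := SetLike.not_le_iff_exists.1 (cyc m hm)
  have hi : (zpowers m).relIndex (Cen t) = 2 := by
    rw [relIndex, index_eq_two_iff']
    refine ⟨⟨w, w1⟩, fun y => ?_⟩
    simp only [mem_subgroupOf, coe_mul]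
    by_cases e : y.1 ∈ zpowers m
    · exact Or.inr ⟨e, by rwa [mul_mem_cancel_right e]⟩
    · exact Or.inl ⟨h2 w w1 _ y.2 w2 e, e⟩
  have hc : Nat.card (Cen t) = 2 * orderOf m := by
    rw [card_of_relIndex le, hi, Nat.card_zpowers, mul_comm]
  by_cases tm : t ∈ zpowers m
  · obtain ⟨k, hk⟩ : 2 ∣ orderOf m := ht.orderOf ▸ orderOf_dvd_of_mem_zpowers tm
    exact ⟨t, m, k, ht, ho, hk, by have := orderOf_pos m; omega, hm, tm, by rw [hc, hk]; ring, h1⟩
  have sq : ∀ y ∈ Cen t, y * y = 1 := fun y hy => by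
    by_cases e : y ∈ zpowers m
    · have := h1 _ (mul_mem hy (self_mem_Cen t)) (by rwa [mul_mem_cancel_left e])
      rwa [show y * t * (y * t) = y * (t * y) * t by group, mem_Cen.1 hy,
        show y * (y * t) * t = y * y * (t * t) by group, ht.1, mul_one] at this
    · exact h1 y hy e
  have m1 : m ≠ 1 := by
    rintro rfl
    refine cyc t (self_mem_Cen t) (le_of_eq (eq_of_le_of_card_ge (zpowers_le.2 (self_mem_Cen t)) ?_).symm)
    rw [hc, Nat.card_zpowers, ht.orderOf, orderOf_one]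
  exact ⟨t, t, 1, ht, ho, ht.orderOf, le_rfl, self_mem_Cen t, mem_zpowers t,
    by rw [hc, IsInv.orderOf ⟨sq m hm, m1⟩], fun y hy _ => sq y hy⟩

theorem DD.ni (h : DD t m k) (hab : OddAb G) (hx : x ∈ Cen t) (x2 : x * x ≠ 1) : ni x = 1 :=
  ni_eq_one h.inv (mem_Cen_comm.1 hx) fun r hr hrx => by
    have xm := h.mem_of_sq hx x2
    have hr' : r ∈ Cen t := by
      rcases Nat.even_or_odd' (orderOf x) with ⟨j, e | e⟩
      · have j0 : j ≠ 0 := by rintro rfl; exact (orderOf_pos x).ne' e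
        have : x ^ j = t := cyc_inv_unique (pow_mem xm j) h.tmem
          ⟨by rw [← pow_add, ← two_mul, ← e, pow_orderOf_eq_one], fun f => by
            have := orderOf_le_of_pow_eq_one (Nat.pos_of_ne_zero j0) f; omega⟩ h.inv
        rw [← this, mem_Cen_comm]; exact pow_mem (mem_Cen_comm.1 hrx) j
      · exact mem_Cen.2 (hab x (by rintro rfl; simp at x2) ⟨j, e⟩ _ (mem_Cen_comm.1 hx) _ hrx)
    refine cyc_inv_unique ?_ h.tmem hr h.inv
    by_contra e
    have := h.inverts hr' e xm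
    rw [← mem_Cen.1 hrx, mul_inv_cancel_right] at this
    exact x2 (mul_eq_one_iff_eq_inv.2 this)

theorem DD.class_eq (hG : SN G) (h : DD t m k) (hab : OddAb G) : 1 - 1 / (Nat.card G : ℚ) =
    (2 * k - 1) / (4 * k) + {x : G | x ≠ 1 ∧ NI x}.ncard / Nat.card G := by
  have ht := h.inv
  have n1 : ∀ x ∈ Cen t, x ≠ 1 → ¬ IsInv x → H8.M3.ni x = 1 := fun x hx h1 hi =>
    h.ni hab hx fun e => hi ⟨e, h1⟩
  have ce := H8.M3.class_eq ht (h.conj hG) (fun x hx h1 h2 => Or.inl (n1 x hx h1 h2))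
  have z3 : ZZ G 3 ∩ Cen t = ∅ := Set.eq_empty_iff_forall_notMem.2 fun x hx => by
    have := n1 x hx.2 hx.1.1 hx.1.2.1
    have := hx.1.2.2
    omega
  have z1 : (ZZ G 1 ∩ Cen t).ncard + 2 = 2 * k := by
    rw [← h.ord, ← Nat.card_zpowers, card_eq_ncard, ← Set.ncard_pair ht.2.symm, ← Set.ncard_union_eq]
    · congr 1
      refine Set.ext fun x => ⟨?_, fun hx => ?_⟩
      · rintro (hx | rfl | rfl)
        exacts [h.mem_of_sq hx.2 fun e => hx.1.2.1 ⟨e, hx.1.1⟩, one_mem _, h.tmem]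
      · by_cases h1 : x = 1
        · exact Or.inr (Or.inl h1)
        by_cases h2 : IsInv x
        · exact Or.inr (Or.inr (cyc_inv_unique hx h.tmem h2 ht))
        · exact Or.inl ⟨⟨h1, h2, n1 x (h.le hx) h1 h2⟩, h.le hx⟩
    · refine Set.disjoint_left.2 ?_
      rintro x hx (rfl | rfl)
      exacts [hx.1.1 rfl, hx.1.2.1 ht]
  rw [z3, Set.ncard_empty, h.card] at ce
  have : ((ZZ G 1 ∩ Cen t).ncard : ℚ) = 2 * k - 2 := by
    have := congrArg (Nat.cast : ℕ → ℚ) z1; push_cast at this; linarith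
  rw [ce, this]; push_cast; ring

theorem DD.three (hG : SN G) (h : DD t m 1) : 3 ∣ Nat.card G := by
  have ht := h.inv
  have hI := h.conj hG
  have sq : ∀ y ∈ Cen t, y * y = 1 := fun y hy => by
    by_contra e
    have := orderOf_dvd_of_mem_zpowers (h.mem_of_sq hy e)
    rw [h.ord, orderOf_dvd_iff_pow_eq_one] at this
    exact e (by simpa [pow_succ] using this)
  have cen : ∀ r ∈ Cen t, r ≠ 1 → Cen r = Cen t := fun r hr r1 => by
    obtain ⟨g, rfl⟩ := hI r ⟨sq r hr, r1⟩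
    refine (eq_of_le_of_card_ge (fun y hy => mem_Cen.2 ?_) (card_Cen_conj g t).le).symm
    have := sq _ (mul_mem hr hy)
    rw [mul_eq_one_iff_eq_inv, mul_inv_rev, inv_eq_of_mul_eq_one_right (sq y hy),
      inv_eq_of_mul_eq_one_right (sq _ hr)] at this
    exact this
  have cc : CC t := ⟨ht.2, cen⟩
  have a := cc.nu_dvd
  have b := cc.two_le_nu hG
  rw [h.card] at a
  have : nu t = 3 := ((Nat.dvd_prime Nat.prime_three).1 a).resolve_left (by omega)
  exact (Dvd.intro_left _ (by rw [this])).trans (mul_nu_dvd t)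

theorem card_inv_sq : (Invs G).ncard * (Invs G).ncard ≤ Nat.card (ConjClasses G) * Nat.card G := by
  classical
  rw [← card_comm_eq_card_conjClasses_mul_card, ← Nat.card_coe_set_eq, ← Nat.card_prod]
  have ex : ∀ x : G, ∃ c : G, (∃ c : G, c * x * c⁻¹ = x⁻¹) → c * x * c⁻¹ = x⁻¹ := fun x => by
    by_cases e : ∃ c : G, c * x * c⁻¹ = x⁻¹
    · exact ⟨e.choose, fun _ => e.choose_spec⟩
    · exact ⟨1, fun e' => absurd e' e⟩
  choose c hc using ex
  refine Nat.card_le_card_of_injective (fun p : Invs G × Invs G =>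
    (⟨(p.1.1 * p.2.1, p.1.1 * c (p.1.1 * p.2.1)), ?_⟩ : {p : G × G // Commute p.1 p.2})) ?_
  · obtain ⟨⟨s, hs⟩, r, hr⟩ := p
    have e : s * (s * r) * s⁻¹ = (s * r)⁻¹ := by
      rw [← mul_assoc, hs.1, one_mul, mul_inv_rev, IsInv.inv_eq hr]
    have f := hc _ ⟨s, e⟩
    simp only
    generalize c (s * r) = d at f
    generalize s * r = x at e f
    have : s * d * x * (s * d)⁻¹ = x := by
      rw [show s * d * x * (s * d)⁻¹ = s * (d * x * d⁻¹) * s⁻¹ by group, f,
        show s * x⁻¹ * s⁻¹ = (s * x * s⁻¹)⁻¹ by group, e, inv_inv]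
    exact (mul_inv_eq_iff_eq_mul.1 this).symm
  · rintro ⟨⟨s, hs⟩, r, hr⟩ ⟨⟨s', hs'⟩, r', hr'⟩ e
    simp only [Subtype.mk.injEq, Prod.mk.injEq] at e ⊢
    obtain ⟨e1, e2⟩ := e
    rw [e1, mul_left_inj] at e2
    exact ⟨e2, by rwa [e2, mul_right_inj] at e1⟩

theorem card_classes (A : Subgroup G) (R : Finset G)
    (h : ∀ x : G, ∃ g, g * x * g⁻¹ ∈ A ∨ ∃ r ∈ R, g * x * g⁻¹ ∈ Cen r) :
    Nat.card (ConjClasses G) ≤ Nat.card A + ∑ r ∈ R, Nat.card (Cen r) := by
  classical
  have := Fintype.ofFinite G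
  have := Fintype.ofFinite (ConjClasses G)
  have e : ∀ A : Subgroup G, Nat.card A = (Finset.univ.filter (· ∈ A)).card := fun A => by
    rw [Nat.card_eq_fintype_card, Fintype.card_subtype]
  simp only [e]
  rw [Nat.card_eq_fintype_card, ← Finset.card_univ]
  refine le_trans (Finset.card_le_card_of_surjOn ConjClasses.mk (s := Finset.univ.filter (· ∈ A) ∪
    R.biUnion fun r => Finset.univ.filter (· ∈ Cen r)) ?_)
    ((Finset.card_union_le _ _).trans (Nat.add_le_add_left Finset.card_biUnion_le _))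
  intro c _
  obtain ⟨x, rfl⟩ := ConjClasses.mk_surjective c
  obtain ⟨g, hg⟩ := h x
  exact ⟨g * x * g⁻¹, by simpa using hg, (ConjClasses.mk_eq_mk_iff_isConj.2 (isConj_iff.2 ⟨g, rfl⟩)).symm⟩

end Cfsg.Agent.H6.S4
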