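import Cfsg.Agent.H6.S4.F1
import Cfsg.Agent.H6.S4.F2

/-! The class equation in the generic case. -/

set_option autoImplicit false
set_option linter.unusedSectionVars false
set_option linter.unusedVariables false

namespace Cfsg.Agent.H6.S4

open Subgroup Cfsg.Agent.H8.M3

universe u

variable {G : Type u} [Group G] [Finite G] {t m x y u w : G} {k p : ℕ}

theorem cc_of (hab : OddAb G) (h1 : x ≠ 1) (hn : NI x) : CC x := ⟨h1, fun y hy y1 => by
  have o : ∀ y ∈ Cen x, Odd (orderOf y) := fun y hy =>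
    (Nat.odd_iff.2 hn.card_odd).of_dvd_nat ((Cen x).orderOf_dvd_natCard hy)
  exact le_antisymm (fun z hz => mem_Cen.2 (hab y y1 (o y hy) _ (mem_Cen_comm.1 hy) _ hz))
    fun z hz => mem_Cen.2 (hab x h1 (o x (self_mem_Cen x)) _ hy _ hz)⟩

theorem cc_inverts (h : CC x) (hw : w ∈ normalizer (Cen x : Set G)) (hn : w ∉ Cen x)
    (h2 : w * w ∈ Cen x) (hy : y ∈ Cen x) : w * y * w⁻¹ = y⁻¹ := by
  have h1 := (mem_normalizer_iff.1 hw y).1 hy
  by_contra e
  apply hn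
  rw [← h.2 _ (mul_mem hy h1) (fun e' => e (eq_inv_of_mul_eq_one_right e')), mem_Cen, eq_comm,
    ← mul_inv_eq_iff_eq_mul]
  nth_rw 2 [h.comm hy h1]
  calc w * (y * (w * y * w⁻¹)) * w⁻¹ = w * y * w⁻¹ * (w * w * y * (w * w)⁻¹) := by group
    _ = _ := by rw [h.comm h2 hy, mul_inv_cancel_right]

theorem cc_four (h : CC x) (h4 : nu x = 4) : ∃ n ∈ normalizer (Cen x : Set G), n * n ∉ Cen x ∧
    n * n * (n * n) ∈ Cen x := by
  have nm := normal_in_normalizer (H := Cen x)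
  by_contra! hh
  have sq : ∀ n ∈ normalizer (Cen x : Set G), n * n ∈ Cen x := fun n hn => by
    by_contra e
    have := pow_index_mem ((Cen x).subgroupOf (normalizer (Cen x : Set G))) ⟨n, hn⟩
    rw [← relIndex, ← nu, h4] at this
    exact hh n hn e (by simpa [mem_subgroupOf, pow_succ, mul_assoc] using this)
  have : nu x ∣ 2 := by
    rw [nu, relIndex, index_dvd_two_iff']
    by_cases e : ∀ n ∈ normalizer (Cen x : Set G), n ∈ Cen x
    · exact ⟨1, fun b => Or.inr (e _ b.2)⟩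
    push Not at e
    obtain ⟨a, ha, ha'⟩ := e
    refine ⟨⟨a, ha⟩, fun b => or_iff_not_imp_right.2 fun hb => mem_Cen.2 ?_⟩
    have e1 := cc_inverts h ha ha' (sq a ha) (self_mem_Cen x)
    have e2 := cc_inverts h b.2 hb (sq _ b.2) (self_mem_Cen x)
    change x * (a * b) = a * b * x
    rw [eq_comm, ← mul_inv_eq_iff_eq_mul, show a * b * x * (a * b)⁻¹ = a * (b * x * b.1⁻¹) * a⁻¹ by group,
      e2, show a * x⁻¹ * a⁻¹ = (a * x * a⁻¹)⁻¹ by group, e1, inv_inv]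
  rw [h4] at this
  omega

theorem DD.even (hG : SN G) (h : DD t m k) (hx : CC x) (hn : NI x) (h4 : nu x = 4) : k % 2 = 0 := by
  obtain ⟨n, h1, h2, h3⟩ := cc_four hx h4
  obtain ⟨j, hj⟩ := Nat.odd_iff.2 hn.card_odd
  have ha : IsInv (n ^ Nat.card (Cen x) * n ^ Nat.card (Cen x)) := by
    rw [← (Commute.refl n).mul_pow]
    constructor
    · rw [← (Commute.refl _).mul_pow]
      exact congrArg Subtype.val (pow_card_eq_one' (x := (⟨_, h3⟩ : Cen x)))
    · intro e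
      rw [hj, pow_succ, pow_mul, mul_eq_one_iff_eq_inv', sq] at e
      exact h2 (by rw [e]; exact inv_mem (pow_mem h3 j))
  obtain ⟨g, e1⟩ := ord4_conj (h.conj hG) ha
  have := orderOf_dvd_of_mem_zpowers (h.mem_of_sq (e1 ▸ mem_cen_sq) (e1 ▸ h.inv.2))
  rw [h.ord, orderOf_eq_prime_pow (p := 2) (n := 1) (by rw [pow_one, sq, e1]; exact h.inv.2)
    (by rw [show 2 ^ (1 + 1) = 2 + 2 from rfl, pow_add, sq, e1, h.inv.1])] at this
  omega

variable [hp : Fact p.Prime]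

theorem un_dvd (h : H8.M3.Un p x) : p ∣ Nat.card (Cen x) := by
  have := orderOf_dvd_natCard (⟨x, self_mem_Cen x⟩ : Cen x)
  rwa [← orderOf_coe, orderOf_eq_prime h.2 h.1] at this

theorem FD.un_ni (h : FD p G) (p2 : p ≠ 2) (hu : H8.M3.Un p u) : NI u := fun r hr e => by
  have := orderOf_dvd_of_pow_eq_one ((h.un u hu.1 hu.2).1 r e)
  rw [hr.orderOf] at this
  exact p2 ((Nat.prime_dvd_prime_iff_eq Nat.prime_two hp.out).1 this).symm

theorem FD.tau (h : FD p G) (p2 : p ≠ 2) (hu : H8.M3.Un p u) (h4 : 4 ≤ nu u) : ∃ τ : G,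
    orderOf τ = nu u ∧ Cen τ = zpowers τ ∧ τ ^ p ≠ 1 ∧
      ∀ (n : G) (j : ℕ), n * τ * n⁻¹ = τ ^ j → Odd (nu u) → τ ^ (j * j) = τ⁻¹ → nu u = 5 := by
  obtain ⟨h1, τ, h2, h3, h5⟩ := h.un u hu.1 hu.2
  obtain ⟨h5, h6⟩ := h5 h4
  have cc := cc_of h.ab hu.1 (h.un_ni p2 hu)
  have τp : τ ^ p ≠ 1 := fun e => by
    have a := orderOf_eq_prime e (by rintro rfl; rw [orderOf_one] at h3; omega)
    have := (Nat.dvd_sub_iff_right Nat.card_pos (un_dvd hu)).1 (a ▸ h3 ▸ cc.nu_dvd)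
    exact hp.out.one_lt.ne' (Nat.dvd_one.1 this)
  refine ⟨τ, h3, (eq_of_le_of_card_ge (zpowers_le.2 (self_mem_Cen τ)) ?_).symm, τp, h6⟩
  have a : (Cen u).subgroupOf (Cen τ) = ⊥ := eq_bot_iff.2 fun y hy => by
    by_contra y1
    exact τp (h1 τ (cc.2 y hy (fun e => y1 (Subtype.ext e)) ▸ mem_Cen_comm.1 y.2))
  have b := relIndex_le_of_le_right (H := Cen u) (show Cen τ ≤ _ from h5) index_ne_zero_of_finite
  rw [relIndex, a, index_bot] at b
  rwa [Nat.card_zpowers, h3]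

theorem FD.base (h : FD p G) (p2 : p ≠ 2) : ∃ R : Finset G, (∀ x ∈ R, x ≠ 1 ∧ NI x) ∧
    (∀ y, y ≠ 1 → NI y → ∃ x ∈ R, ∃ g, g * y * g⁻¹ ∈ Cen x) ∧
    (∀ x ∈ R, ∀ y ∈ R, x ≠ y → (Nat.card (Cen x)).Coprime (Nat.card (Cen y))) ∧
    (({x : G | x ≠ 1 ∧ NI x}.ncard : ℚ) / Nat.card G = ∑ x ∈ R, tm (Nat.card (Cen x)) (nu x)) ∧
    (∀ x ∈ R, 3 ≤ Nat.card (Cen x)) ∧ (∀ x ∈ R, ¬ H8.M3.Un p x → nu x = 2 ∨ nu x = 4) ∧
    (∀ x ∈ R, ∀ y ∈ R, H8.M3.Un p x → H8.M3.Un p y → x = y) ∧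
    ∀ x ∈ R, H8.M3.Un p x → 4 ≤ nu x → nu x % 2 = 1 → ∃ y ∈ R, Nat.card (Cen y) = nu x ∧
      (nu y = 2 ∨ nu y = 4 ∧ Nat.card (Cen y) = 5) := by
  have cc : ∀ x ∈ {x : G | x ≠ 1 ∧ NI x}, CC x := fun x hx => cc_of h.ab hx.1 hx.2
  obtain ⟨R, h1, h2, h3, h4⟩ := cc_count _ cc (fun x hx g => ⟨conj_ne_one hx.1, hx.2.conj g⟩)
    (fun x hx y hy y1 => ⟨y1, fun r hr e => hx.2 r hr ((cc x hx).2 y hy y1 ▸ e)⟩)
  have ss : ∀ x : G, x ≠ 1 → NI x → x ^ p ≠ 1 → nu x = 2 ∨ nu x = 4 := fun x x1 hn e => by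
    have a := (h.ss x x1 hn e).1
    have b := (cc x ⟨x1, hn⟩).two_le_nu h.sn
    have c := Nat.le_of_dvd (by decide) a
    interval_cases nu x <;> omega
  have g0 : (Nat.card G : ℚ) ≠ 0 := by exact_mod_cast Nat.card_pos.ne'
  refine ⟨R, h1, fun y y1 hn => h2 y ⟨y1, hn⟩, h3, by rw [h4, mul_div_cancel_left₀ _ g0]; rfl,
    fun x hx => ?_, fun x hx e => ss x (h1 x hx).1 (h1 x hx).2 fun e' => e ⟨(h1 x hx).1, e'⟩,
    fun x hx y hy ux uy => ?_, fun x hx ux n4 no => ?_⟩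
  · have := (h1 x hx).2.card_odd
    have : Nontrivial (Cen x) := ⟨⟨⟨x, self_mem_Cen x⟩, 1, fun e => (h1 x hx).1 (congrArg Subtype.val e)⟩⟩
    have := Finite.one_lt_card (α := Cen x)
    omega
  · by_contra hne
    have := Nat.dvd_gcd (un_dvd ux) (un_dvd uy)
    rw [h3 x hx y hy hne] at this
    exact hp.out.one_lt.ne' (Nat.dvd_one.1 this)
  · obtain ⟨y, ho, hC, yp, h5⟩ := h.tau p2 ux n4
    have y1 : y ≠ 1 := by rintro rfl; simp at yp
    have yn := ni_zpowers hC (ho ▸ no)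
    obtain ⟨z, hz, g, hg⟩ := h2 y ⟨y1, yn⟩
    have e := (cc z (h1 z hz)).2 _ hg (conj_ne_one y1)
    have e1 : Nat.card (Cen z) = nu x := by rw [← e, card_Cen_conj, hC, Nat.card_zpowers, ho]
    refine ⟨z, hz, e1, ?_⟩
    rw [← nu_congr e, nu_conj, e1]
    refine (ss y y1 yn yp).imp_right fun f => ⟨f, ?_⟩
    obtain ⟨n, a, b, c⟩ := cc_four (cc y ⟨y1, yn⟩) f
    have d := cc_inverts (cc y ⟨y1, yn⟩) (mul_mem a a) b c (self_mem_Cen y)
    obtain ⟨j, hj⟩ := mem_powers_iff_mem_zpowers.2 (hC ▸ (mem_normalizer_iff.1 a y).1 (self_mem_Cen y))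
    simp only at hj
    refine h5 n j hj.symm (Nat.odd_iff.2 no) ?_
    rw [← d, pow_mul, show n * n * y * (n * n)⁻¹ = n * (n * y * n⁻¹) * n⁻¹ by group, ← hj, ← conj_pow, ← hj]

theorem FD.exists_inv (h : FD p G) (p2 : p ≠ 2) : ∃ t : G, IsInv t := by
  classical
  by_contra! hh
  have ni : ∀ x : G, NI x := fun x r hr => absurd hr (hh r)
  have od : Nat.card G % 2 = 1 := by
    by_contra e
    obtain ⟨w, e⟩ := exists_prime_orderOf_dvd_card' (G := G) 2 (by omega)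
    exact hh w ⟨by rw [← sq, ← e, pow_orderOf_eq_one], fun e' => by simp [e'] at e⟩
  have no : ∀ x : G, nu x % 2 = 1 := fun x =>
    Nat.odd_iff.1 ((Nat.odd_iff.2 od).of_dvd_nat ((dvd_mul_left _ _).trans (mul_nu_dvd x)))
  obtain ⟨R, h1, h2, h3, h4, h5, h6, h7, h8⟩ := h.base p2
  have cc := fun x hx => cc_of h.ab (h1 x hx).1 (h1 x hx).2
  have : Nontrivial G := h.sn.simple.toNontrivial
  refine Fam.odd_case (R := R) (a := fun x => Nat.card (Cen x)) (ν := nu) (U := H8.M3.Un p)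
    ⟨fun x hx => (h1 x hx).2.card_odd, h5, fun x hx => (cc x hx).nu_dvd,
      fun x hx => (cc x hx).two_le_nu h.sn, fun x _ => mul_nu_dvd x, one_dvd _, Nat.card_pos, h3,
      fun _ _ => Nat.coprime_one_right _, fun x hx => Or.inr (Or.inr ?_), h7, fun x hx a b c => ?_⟩
    od Finite.one_lt_card ?_
  · by_contra e
    have := h6 x hx e
    have := no x
    omega
  · obtain ⟨y, -, -, e⟩ := h8 x hx a b c
    have := no y
    omega
  · have e : {x : G | x ≠ 1 ∧ NI x} = ((⊤ : Subgroup G) : Set G) \ {1} := Set.ext fun x => by simp [ni]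
    have g0 : (Nat.card G : ℚ) ≠ 0 := by exact_mod_cast Nat.card_pos.ne'
    rw [← h4, e, ncard_diff_one, card_top, Nat.cast_sub Nat.card_pos]
    field_simp; simp

theorem FD.sylow (h : FD p G) (p2 : p ≠ 2) (hu : H8.M3.Un p u)
    (e : Nat.card G = Nat.card (Cen u) * nu u * (Nat.card (Cen u) + 1)) :
    p ∣ Nat.card G ∧ ∀ S : Sylow p G, Nat.card (Sylow p G) ≤ Nat.card S + 1 := by
  have cc := cc_of h.ab hu.1 (h.un_ni p2 hu)
  have pg : IsPGroup p (Cen u) := fun y => ⟨1, Subtype.ext (by simpa using (h.un u hu.1 hu.2).1 y y.2)⟩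
  let T := pg.toSylow (cc.not_dvd_index hp.out (un_dvd hu))
  refine ⟨(un_dvd hu).trans (card_subgroup_dvd_card _), fun S => ?_⟩
  have a : Nat.card S = Nat.card (Cen u) := Nat.card_congr (S.equiv T).toEquiv
  have b := (normalizer (Cen u : Set G)).card_mul_index
  rw [card_normalizer_eq, e, Nat.mul_right_inj (Nat.mul_pos Nat.card_pos (by have := cc.two_le_nu h.sn; omega)).ne'] at b
  rw [T.card_eq_index_normalizer, a, ← b]
  rfl

theorem FD.main (h : FD p G) (p2 : p ≠ 2) : Nonempty (G ≃* alternatingGroup (Fin 5)) ∨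
    (p ∣ Nat.card G ∧ ∀ S : Sylow p G, Nat.card (Sylow p G) ≤ Nat.card S + 1) := by
  classical
  obtain ⟨t, ht⟩ := h.exists_inv p2
  obtain ⟨t, m, k, hD⟩ := exists_DD h.sn h.dih ht
  have hI := hD.conj h.sn
  obtain ⟨R, h1, h2, h3, h4, h5, h6, h7, h8⟩ := h.base p2
  have cc := fun x hx => cc_of h.ab (h1 x hx).1 (h1 x hx).2
  have pr : ∀ r : ℕ, r.Prime → r ∣ Nat.card G → ¬ r ∣ 4 * k → ∃ x ∈ R, r ∣ Nat.card (Cen x) :=
    fun r hr a b => by
      have := Fact.mk hr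
      obtain ⟨y, hy⟩ := exists_prime_orderOf_dvd_card' r a
      have o : ∀ (g : G) (A : Subgroup G), g * y * g⁻¹ ∈ A → r ∣ Nat.card A := fun g A e => by
        have := A.orderOf_dvd_natCard e
        rwa [← MulAut.conj_apply, MulEquiv.orderOf_eq, hy] at this
      obtain ⟨x, hx, g, e⟩ := h2 y (fun e => hr.one_lt.ne (by simpa [e] using hy)) (by
        by_contra hn
        obtain ⟨g, hg⟩ := not_ni_conj hI hn
        exact b (hD.card ▸ o g _ hg))
      exact ⟨x, hx, o g _ e⟩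
  have copc : ∀ x ∈ R, (Nat.card (Cen x)).Coprime (4 * k) := fun x hx =>
    Nat.coprime_of_dvd fun r hr a b => by
      obtain ⟨y, hy, hn⟩ := exists_not_ni hD.inv r hr (hD.card ▸ b)
      obtain ⟨g, hg⟩ := (cc x hx).exists_conj hr a hy
      have y1 : y ≠ 1 := fun e => hr.one_lt.ne (by simpa [e] using hy)
      refine hn (by simpa [mul_assoc] using NI.conj (x := g * y * g⁻¹) (fun r hr e => (h1 x hx).2 r hr
        ((cc x hx).2 _ hg (conj_ne_one y1) ▸ e)) g⁻¹)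
  have uev : ∀ x ∈ R, H8.M3.Un p x → 4 ≤ nu x → nu x % 2 = 0 → nu x = 2 * k := fun x hx hu n4 he => by
    obtain ⟨y, ho, hC, -⟩ := h.tau p2 hu n4
    obtain ⟨j, hj⟩ : ∃ j, nu x = j + j := ⟨nu x / 2, by omega⟩
    obtain ⟨g, hg⟩ := hI (y ^ j) ⟨by rw [← pow_add, ← hj, ← ho, pow_orderOf_eq_one], fun e => by
      have := orderOf_le_of_pow_eq_one (by omega) e; omega⟩
    have a : g⁻¹ * y * g⁻¹⁻¹ ∈ Cen t := by
      rw [inv_inv, ← mem_Cen_conj, hg, mem_Cen_comm]; exact pow_mem (self_mem_Cen y) j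
    have b : orderOf (g⁻¹ * y * g⁻¹⁻¹) = nu x := by rw [← MulAut.conj_apply, MulEquiv.orderOf_eq, ho]
    have c : Cen (g⁻¹ * y * g⁻¹⁻¹) = zpowers (g⁻¹ * y * g⁻¹⁻¹) := by
      rw [Cen_conj, hC, MonoidHom.map_zpowers]; rfl
    generalize g⁻¹ * y * g⁻¹⁻¹ = z at a b c
    have y2 := hD.mem_of_sq a fun e => by
      have := orderOf_le_of_pow_eq_one two_pos (show z ^ 2 = 1 by rw [sq, e]); omega
    rw [← b, ← hD.ord]
    exact Nat.dvd_antisymm (orderOf_dvd_of_mem_zpowers y2) (orderOf_dvd_of_mem_zpowers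
      (c ▸ mem_Cen.2 (zpowers_comm y2 (mem_zpowers m))))
  have f3 : 3 ∣ Nat.card G → ¬ 3 ∣ k → ∃ x ∈ R, 3 ∣ Nat.card (Cen x) := fun a b =>
    pr 3 Nat.prime_three a (by omega)
  have he := hD.class_eq h.sn h.ab
  rw [h4] at he
  have F4 : Fam4 R (fun x => Nat.card (Cen x)) nu (H8.M3.Un p) (Nat.card G) k := by
    refine ⟨fun x hx => (h1 x hx).2.card_odd, h5, fun x hx => (cc x hx).nu_dvd,
      fun x hx => (cc x hx).two_le_nu h.sn, fun x _ => mul_nu_dvd x,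
      hD.card ▸ card_subgroup_dvd_card _, Nat.card_pos, h3, copc, fun x hx => ?_, h7, h8, uev, f3, he, ?_⟩
    · by_cases e : H8.M3.Un p x
      · exact Or.inr (Or.inr e)
      refine (h6 x hx e).imp_right fun f => Or.inl ⟨f, ?_, hD.even h.sn (cc x hx) (h1 x hx).2 f⟩
      exact (h.ss x (h1 x hx).1 (h1 x hx).2 fun e' => e ⟨(h1 x hx).1, e'⟩).2 f
    · have a := card_inv_sq (G := G)
      have b := ncard_Inv_mul hI hD.inv
      have c := card_classes (zpowers m) R fun x => by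
        by_cases x1 : x = 1
        · exact ⟨1, Or.inl (by simp [x1])⟩
        by_cases hn : NI x
        · obtain ⟨r, hr, g, e⟩ := h2 x x1 hn
          exact ⟨g, Or.inr ⟨r, hr, e⟩⟩
        obtain ⟨g, hg⟩ := not_ni_conj hI hn
        by_cases e : g * x * g⁻¹ ∈ zpowers m
        · exact ⟨g, Or.inl e⟩
        obtain ⟨g', e'⟩ := hI _ ⟨hD.out _ hg e, conj_ne_one x1⟩
        exact ⟨g'⁻¹ * g, Or.inl (by
          rw [show g'⁻¹ * g * x * (g'⁻¹ * g)⁻¹ = g'⁻¹ * (g * x * g⁻¹) * g' by group, ← e']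
          simpa [mul_assoc] using hD.tmem)⟩
      rw [Nat.card_zpowers, hD.ord] at c
      rw [hD.card] at b
      refine Nat.le_of_mul_le_mul_right ?_ (Nat.card_pos (α := G))
      calc Nat.card G * Nat.card G = 16 * k ^ 2 * ((Invs G).ncard * (Invs G).ncard) := by rw [← b]; ring
        _ ≤ 16 * k ^ 2 * ((2 * k + ∑ r ∈ R, Nat.card (Cen r)) * Nat.card G) :=
          Nat.mul_le_mul_left _ (a.trans (Nat.mul_le_mul_right _ c))
        _ = _ := by ring
  have n4 := fun x hx => F4.no4 hD.pos (i := x) hx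
  have F : Fam R (fun x => Nat.card (Cen x)) nu (H8.M3.Un p) (Nat.card G) (4 * k) := by
    refine ⟨F4.odd, F4.three_le, F4.nu_dvd, F4.two_le, F4.dvd, F4.cdvd, F4.gpos, F4.cop, F4.copc,
      fun x hx => ?_, h7, fun x hx a b c => ?_⟩
    · by_cases e : H8.M3.Un p x
      · exact Or.inr (Or.inr e)
      · exact Or.inl (by rw [n4 x hx e]; omega)
    · obtain ⟨y, hy, e, f⟩ := h8 x hx a b c
      refine ⟨y, hy, n4 y hy fun uy => ?_, e⟩
      obtain rfl := h7 x hx y hy a uy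
      omega
  rcases (show k = 1 ∨ 2 ≤ k by have := hD.pos; omega) with rfl | k2
  · obtain ⟨-, e1, e2⟩ := F.Ab one_pos (by rw [he]; norm_num) (f3 (hD.three h.sn) (by decide))
      fun x hx a => by
        by_contra b
        by_cases e : H8.M3.Un p x
        · have := uev x hx e a (by omega); omega
        · have := n4 x hx e; omega
    refine Or.inl (H3.iso_A5 e1 fun x => ?_)
    have key : ∀ (g : G) (A : Subgroup G), g * x * g⁻¹ ∈ A → x ^ Nat.card A = 1 := fun g A e => by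
      have := A.orderOf_dvd_natCard e
      rwa [← MulAut.conj_apply, MulEquiv.orderOf_eq, orderOf_dvd_iff_pow_eq_one] at this
    by_cases x1 : x = 1
    · simp [x1]
    by_cases hn : NI x
    · obtain ⟨r, hr, g, e⟩ := h2 x x1 hn
      have := key g _ e
      rcases e2 r hr with f | f <;> simp only [f] at this <;> simp [this]
    obtain ⟨g, hg⟩ := not_ni_conj hI hn
    by_cases e : g * x * g⁻¹ ∈ zpowers m
    · have := key g _ e
      rw [Nat.card_zpowers, hD.ord] at this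
      exact Or.inl this
    · have := hD.out _ hg e
      rw [conj_mul, conj_eq_one_iff] at this
      exact Or.inl (by rw [sq, this])
  right
  rcases F.D k2 he f3 (fun x hx _ a b => by have := n4 x hx b; omega) uev with
    ⟨rfl, e1, e2⟩ | ⟨-, -, -, ⟨x, hx, -, a, b⟩, -⟩ | ⟨x, -, a, -, -, e⟩
  · obtain ⟨x, hx, e⟩ := pr 7 (by decide) (by rw [e1]; decide) (by decide)
    have a7 : Nat.card (Cen x) = 7 := (e2 x hx).resolve_left fun f => by simp only [f] at e; omega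
    have a := (cc x hx).index_mod (r := 7) (by decide) e
    have b := (normalizer (Cen x : Set G)).card_mul_index
    have c := (cc x hx).nu_dvd
    have d := (cc x hx).two_le_nu h.sn
    rw [card_normalizer_eq, e1, a7] at b
    rw [a7] at c
    have n3 : nu x = 3 := by
      have := Nat.le_of_dvd (by decide) c
      interval_cases nu x <;> omega
    refine h.sylow p2 (u := x) ?_ (by rw [e1, a7, n3])
    by_contra f
    have := n4 x hx f; omega
  · have := n4 x hx b; omega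
  · exact h.sylow p2 a e

end Cfsg.Agent.H6.S4
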