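import Cfsg.Agent.H8.M3M

/-! The abstract data of the generic case. -/

set_option autoImplicit false

namespace Cfsg.Agent.H6.S4

open Subgroup Cfsg.Agent.H8.M3

universe u

/-- centralisers of involutions are cyclic or dihedral -/
def Dih (G : Type u) [Group G] : Prop :=
  ∀ t : G, IsInv t → ∃ m ∈ Cen t, (∀ y ∈ Cen t, y ∉ zpowers m → y * y = 1) ∧
    ∀ y ∈ Cen t, ∀ z ∈ Cen t, y ∉ zpowers m → z ∉ zpowers m → y * z ∈ zpowers m

/-- centralisers of elements of odd order are abelian -/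
def OddAb (G : Type u) [Group G] : Prop :=
  ∀ h : G, h ≠ 1 → Odd (orderOf h) → ∀ x ∈ Cen h, ∀ y ∈ Cen h, x * y = y * x

/-- automizers of tori -/
def SsNu (p : ℕ) (G : Type u) [Group G] : Prop :=
  ∀ x : G, x ≠ 1 → NI x → x ^ p ≠ 1 → nu x ∣ 4 ∧ (nu x = 4 → ¬ 3 ∣ Nat.card (Cen x))

/-- automizers of Sylow `p`-subgroups -/
def UnNu (p : ℕ) (G : Type u) [Group G] : Prop :=
  ∀ u : G, u ≠ 1 → u ^ p = 1 → (∀ y ∈ Cen u, y ^ p = 1) ∧
    ∃ τ ∈ normalizer (Cen u : Set G), orderOf τ = nu u ∧ (4 ≤ nu u →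
      (∀ y ∈ Cen τ, y ∈ normalizer (Cen u : Set G)) ∧
      ∀ (n : G) (j : ℕ), n * τ * n⁻¹ = τ ^ j → Odd (nu u) → τ ^ (j * j) = τ⁻¹ → nu u = 5)

/-- the data of the generic case -/
structure FD (p : ℕ) (G : Type u) [Group G] : Prop where
  sn : SN G
  dih : Dih G
  ab : OddAb G
  ss : SsNu p G
  un : UnNu p G

end Cfsg.Agent.H6.S4
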