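import Cfsg.Agent.H6.S4.B4

/-! Quadratic elements have order at most three modulo the centre. -/

set_option autoImplicit false
set_option linter.unusedSimpArgs false
set_option linter.unusedSectionVars false
set_option linter.unusedVariables false

namespace Cfsg.Agent.H6.S4

open Module Cfsg.Agent.H9.Sp Cfsg.Agent.H8.M3

universe u

variable {k V W : Type*} [Field k] [AddCommGroup V] [Module k V] [FiniteDimensional k V]
  [AddCommGroup W] [Module k W] [FiniteDimensional k W]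
  {B : V →ₗ[k] V →ₗ[k] k} {Q : QuadraticForm k W} {ι : W →ₗ[k] End k V}
  {G : Type u} [Group G] {P : Subgroup (End k V)ˣ} {π : P →* G} {p : ℕ}
  {g g' a b d x y : (End k V)ˣ} {θ s t r ρ ρ' : k} {m u v w : W} {U U' : Submodule k V}

theorem Tr.rec (n : ℕ) (h : Tr U a t) (h0 : Tr U (a ^ n) r) (h1 : Tr U (a ^ (n + 1)) s) :
    Tr U (a ^ (n + 2)) (s * t - r) := fun v hv => by
  simp only [T_rec, LinearMap.sub_apply, End.mul_apply, h0 v hv, h1 v hv, map_smul, h v hv, smul_smul,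
    sub_smul]

theorem Tr.p2 (h : Tr U a t) : Tr U (a ^ 2) (t ^ 2 - 2) :=
  (Tr.rec 0 h (Tr.one.congr (pow_zero a).symm rfl) (h.congr (pow_one a).symm rfl)).congr rfl (by ring)

theorem Tr.p3 (h : Tr U a t) : Tr U (a ^ 3) (t ^ 3 - 3 * t) :=
  (Tr.rec 1 h (h.congr (pow_one a).symm rfl) h.p2).congr rfl (by ring)

theorem Tr.p5 (h : Tr U a t) : Tr U (a ^ 5) (t ^ 5 - 5 * t ^ 3 + 5 * t) :=
  (Tr.rec 3 h h.p3 (Tr.rec 2 h h.p2 h.p3)).congr rfl (by ring)

theorem Tr.step (ha : a ∈ sU U) (h : Tr U a t) (h0 : Tr U (a⁻¹ * y) r) (h1 : Tr U y s) :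
    Tr U (a * y) (t * s - r) := Tr.mul ha h h1 ((h0.inv.conj ha).congr (by group) rfl)

/-- a pair acting on an eigenspace of `T (g g')` -/
structure PU (U : Submodule k V) (g g' : (End k V)ˣ) (θ ρ : k) : Prop where
  u1 : g ∈ sU U
  u2 : g' ∈ sU U
  t1 : Tr U g θ
  t2 : Tr U g' θ
  t3 : Tr U (g * g') ρ

theorem PU.of (e : T g = θ • 1) (e' : T g' = θ • 1) (ρ : k) :
    PU ((T (g * g')).eigenspace ρ) g g' θ ρ :=
  ⟨mem_sU_eig (xi_comm e e').1 ρ, mem_sU_eig (xi_comm e e').2 ρ, Tr.of e _, Tr.of e' _,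
    fun v hv => End.mem_eigenspace_iff.1 hv⟩

/-- the commutator -/
abbrev cm (g g' : (End k V)ˣ) : (End k V)ˣ := g * g' * g⁻¹ * g'⁻¹

/-- the commutator trace -/
def ga (θ ρ : k) : k := 2 * θ ^ 2 + ρ ^ 2 - θ ^ 2 * ρ - 2

theorem ga_red (h : ρ = 2 ∨ ρ = θ ^ 2 - 2) : ga θ ρ = 2 := by
  rcases h with rfl | rfl <;> simp only [ga] <;> ring

namespace PU

variable (h : PU U g g' θ ρ)
include h

theorem ti : Tr U (g⁻¹ * g') (θ ^ 2 - ρ) :=
  (Tr.mul ((sU U).inv_mem h.u1) h.t1.inv h.t2 (h.t3.inv.conj ((sU U).inv_mem h.u1) |>.congr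
    (by group) rfl)).congr rfl (by ring)

theorem uc : cm g g' ∈ sU U :=
  (sU U).mul_mem ((sU U).mul_mem ((sU U).mul_mem h.u1 h.u2) ((sU U).inv_mem h.u1)) ((sU U).inv_mem h.u2)

theorem tc : Tr U (cm g g') (ga θ ρ) := (Tr.comm h.u1 h.u2 h.t1 h.t2 h.t3).congr rfl (by rw [ga]; ring)

theorem td : Tr U (cm g g' * (g * cm g g' * g⁻¹)) (2 - θ ^ 2 * (2 - ga θ ρ)) :=
  (Tr.acon h.uc h.u1 h.tc h.t1 (Tr.mul h.uc h.tc h.t1
    ((h.t1.inv.conj ((sU U).mul_mem h.u1 h.u2)).congr (by rw [cm]; group) rfl))).congr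
    rfl (by ring)

theorem te : Tr U (cm g g' * (cm g g' * (g * cm g g' * g⁻¹)))
    (ga θ ρ * (1 - θ ^ 2 * (2 - ga θ ρ))) :=
  (Tr.step h.uc h.tc ((h.tc.conj h.u1).congr (by group) rfl) h.td).congr rfl (by ring)

theorem ty : ∃ s r : k, s = -(ρ ^ 5 - 5 * ρ ^ 3 + 5 * ρ) ∧
    r = (ρ ^ 4 - 3 * ρ ^ 2 + 1) * (θ ^ 2 - ρ) - (ρ ^ 5 - 4 * ρ ^ 3 + 3 * ρ) * (θ ^ 2 - 2) ∧
    Tr U (-(g * g') ^ 5 * (g ^ 2 * -(g * g') ^ 5 * (g ^ 2)⁻¹))
      (2 - (θ ^ 2 - 2) ^ 2 - r ^ 2 + s * (θ ^ 2 - 2) * r) := by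
  have u := (sU U).mul_mem h.u1 h.u2
  have z0 := h.t1.p2
  have z1 := Tr.step u h.t3 (h.ti.inv.congr (by group) rfl) z0
  have z2 := Tr.step u h.t3 (z0.congr (by group) rfl) z1
  have z3 := Tr.step u h.t3 (z1.congr (by group) rfl) z2
  have z4 := Tr.step u h.t3 (z2.congr (by group) rfl) z3
  have z5 := Tr.step u h.t3 (z3.congr (by group) rfl) z4
  exact ⟨_, _, rfl, rfl, Tr.acon (neg_mem_sU ((sU U).pow_mem u 5)) ((sU U).pow_mem h.u1 2) h.t3.p5.neg z0
    (z5.neg.congr (by simp only [neg_mul, pow_succ, pow_zero, one_mul, mul_assoc]) (by ring))⟩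

end PU

/-- a decomposition into two planes -/
def Sp2 (Q : QuadraticForm k W) (ι : W →ₗ[k] End k V) (U U' : Submodule k V) : Prop :=
  ∃ u, Q u = 1 ∧ ∀ d t t', Tr U d t → Tr U' d t' → T d = ((t + t') / 2) • 1 + ((t - t') / 2) • ι u

theorem Sp2.symm (h : Sp2 Q ι U U') : Sp2 Q ι U' U :=
  let ⟨u, a, b⟩ := h
  ⟨-u, by simpa using a, fun d t t' h1 h2 => by rw [b d _ _ h2 h1, map_neg]; module⟩

theorem sp2 (h : Cl B Q ι) {X : End k V} (e : X = s • 1 + ι m) (hr : r * r = Q m) (r0 : s + r ≠ s - r) :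
    Sp2 Q ι (X.eigenspace (s + r)) (X.eigenspace (s - r)) := by
  have r0 : r ≠ 0 := by rintro rfl; simp at r0
  have h2 := h.two
  refine ⟨r⁻¹ • m, by rw [Orth.Q_smul, ← hr]; field_simp, fun d t t' h1 h3 => LinearMap.ext fun v => ?_⟩
  have a := h1 (r • v + ι m v) (End.mem_eigenspace_iff.2 (by simp [e, h.sq, ← hr]; module))
  have b := h3 (r • v - ι m v) (End.mem_eigenspace_iff.2 (by simp [e, h.sq, ← hr]; module))
  refine smul_right_injective _ (mul_ne_zero h2 r0) ?_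
  simp only [map_add, map_sub, map_smul, LinearMap.add_apply, LinearMap.smul_apply, End.one_apply,
    smul_add, smul_smul] at a b ⊢
  rw [show 2 * r * ((t + t') / 2) = r * (t + t') by field_simp,
    show 2 * r * ((t - t') / 2 * r⁻¹) = t - t' by field_simp]
  linear_combination (norm := module) a + b

variable [IsAlgClosed k] [Fact p.Prime] [CharP k p]

theorem S2.noY (h : S2 p B Q ι P π) (hs : Sp2 Q ι U U') (hd : d ∈ P) (h1 : Tr U d 0) (h2 : Tr U' d 2) :
    False := by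
  obtain ⟨u, a, b⟩ := hs.symm
  have := h.cl.two
  exact h.noY4 hd a (by rw [b d _ _ h2 h1]; simp [this])

theorem S2.noI (h : S2 p B Q ι P π) (n : NoI1 P) (hs : Sp2 Q ι U U') (hd : d ∈ P) (h1 : Tr U d (-2))
    (h2 : Tr U' d 2) : False := by
  have cl := h.cl
  have := nontriv cl
  obtain ⟨u, a, b⟩ := hs.symm
  have h2' := cl.two
  have e : T d = (2 : k) • ι u := by
    rw [b d _ _ h2 h1, show (2 - -2 : k) / 2 = 2 by field_simp; norm_num]; simp
  have e1 : (d ^ 2) ^ p = 1 := pow_p_of_T2 cl (by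
    simp only [T_sq, e, nc k V, sq' cl, a]; module)
  obtain ⟨j, hj⟩ := p_odd (p := p) cl
  have e2 : T (d ^ p) = ι ((2 : k) ^ p • u) := by
    rw [T_pow_char, e, smul_pow, map_smul, hj, pow_succ (ι u), pow_mul, sq (ι u), sq' cl, a]; simp
  have u0 : (2 : k) ^ p • u ≠ 0 := smul_ne_zero (pow_ne_zero _ h2') (by rintro rfl; simp at a)
  rcases n _ (P.pow_mem hd p) (by rw [← e1]; group) with f | f <;> rw [f] at e2
  · exact u0 (scal cl (e2.symm.trans T_one)).1
  · exact u0 (scal cl (c := -2) (by rw [← e2, T_neg, T_one, neg_smul])).1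

theorem comm_mem (hg : g ∈ P) (hg' : g' ∈ P) : cm g g' ∈ P :=
  P.mul_mem (P.mul_mem (P.mul_mem hg hg') (P.inv_mem hg)) (P.inv_mem hg')

theorem d_mem (hg : g ∈ P) (hg' : g' ∈ P) : cm g g' * (g * cm g g' * g⁻¹) ∈ P :=
  P.mul_mem (comm_mem hg hg') (P.mul_mem (P.mul_mem hg (comm_mem hg hg')) (P.inv_mem hg))

theorem eq_of_eig (h2 : (2 : k) ≠ 0) (hr : r * r = Q m) (e : s + r = s - r) : r = 0 ∧ Q m = 0 := by
  obtain rfl : r = 0 := mul_left_cancel₀ h2 (by linear_combination e)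
  exact ⟨rfl, by simpa using hr.symm⟩

theorem S2.n4 (h : S2 p B Q ι P π) (hg : g ∈ P) (e : T g = θ • 1) (h2 : θ ^ 2 = 2) : False := by
  have cl := h.cl
  have θ0 : θ ≠ 0 := by rintro rfl; exact cl.two (by simpa using h2.symm)
  have T0 : T (g ^ 2) = (0 : k) • 1 := by
    simp only [T_sq, e, nc k V]; linear_combination (norm := module) h2 • (1 : End k V)
  obtain ⟨n1, n2⟩ := ne_of_T cl (by simpa using (four_ne cl).symm) T0
  refine (h.comm_class (X := {j | ∃ x, (x ∈ P ∧ T x = θ • 1) ∧ j = x ^ 2}) ?_ ?_ ?_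
    ⟨g, ⟨hg, e⟩, rfl⟩).elim n1 n2
  · rintro _ ⟨x, hx, rfl⟩; exact P.pow_mem hx.1 2
  · rintro a ha _ ⟨x, hx, rfl⟩; exact ⟨_, T_conj_mem ha hx, by simp [sq, mul_assoc]⟩
  rintro _ ⟨x, ⟨hx, ex⟩, rfl⟩ _ ⟨y, ⟨hy, ey⟩, rfl⟩
  rcases h.pair_cases hx hy ex ey θ0 with c | ⟨s, r, m, a1, a2, a3, a4⟩
  · exact Or.inl (Commute.pow_pow c 2 2)
  have b1 := a3.four cl.two h2
  rcases a4 with a4 | a4
  · obtain ⟨rfl, a5⟩ := eq_of_eig cl.two a2 (b1.trans (a4.four cl.two h2).symm)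
    obtain rfl : s = 1 := by simpa using b1
    obtain rfl := h.unip1 (P.mul_mem hx hy) a1 a5
    right
    refine Units.ext ?_
    have := swap_eq ex ey
    have e1 : ∀ z : (End k V)ˣ, T z = θ • 1 → (z ^ 2).1 = θ • z.1 - 1 := fun z e => by
      rw [sq, Units.val_mul, sq_of_T e]
    simp only [nc k V, this, a1, map_zero, e1 x ex, e1 y ey]
    linear_combination (norm := module) h2 • (θ • x.1 + θ • y.1 - (θ ^ 2 + 1) • (1 : End k V))
  · exfalso
    refine h.noY (sp2 cl a1 a2 fun f => ?_) (d_mem hx hy) ((PU.of ex ey _).td.congr rfl ?_)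
      ((PU.of ex ey _).td.congr rfl ?_)
    · rcases a4 with a4 | a4
      exacts [a3.1 (f.trans a4), a3.2.1 (f.trans a4)]
    · rw [b1, ga]; linear_combination (θ ^ 2 - 1) * h2
    · rw [ga_red a4]; ring

theorem S2.n5 (h : S2 p B Q ι P π) (hg : g ∈ P) (e : T g = θ • 1) (h5 : θ ^ 2 = θ + 1)
    (h4 : θ ^ 2 ≠ 4) : False := by
  have cl := h.cl
  have θ0 : θ ≠ 0 := by rintro rfl; simp at h5
  have θ1 : θ ≠ 1 := by rintro rfl; simp at h5
  refine h.meet h.tv h4 (fun x hx y hy ex ey => ?_) hg e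
  rcases h.pair_cases hx hy ex ey θ0 with c | ⟨s, r, m, a1, a2, a3, a4⟩
  · exact Or.inl c
  have b1 := a3.five cl.two h5 h4
  have my := P.mul_mem (h.neg (P.pow_mem (P.mul_mem hx hy) 5)) (P.mul_mem (P.mul_mem (P.pow_mem hx 2)
    (h.neg (P.pow_mem (P.mul_mem hx hy) 5))) (P.inv_mem (P.pow_mem hx 2)))
  have key : ∀ U U', Sp2 Q ι U U' → PU U x y θ 1 → PU U' x y θ θ → False := fun U U' hs p1 p2 => by
    obtain ⟨_, _, rfl, rfl, c1⟩ := p1.ty
    obtain ⟨s, r, hs', hr, c2⟩ := p2.ty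
    refine h.noY hs my (c1.congr rfl ?_) (c2.congr rfl ?_)
    · linear_combination (-θ ^ 2 - θ + 1) * h5
    · rw [show s = 2 by rw [hs']; linear_combination (-θ ^ 3 - θ ^ 2 + 3 * θ + 2) * h5,
        show r = θ ^ 2 - 2 by
          rw [hr]; linear_combination (-θ ^ 5 + 4 * θ ^ 3 + θ ^ 2 - 3 * θ - 2) * h5]
      ring
  by_cases f : s + r = s - r
  · obtain ⟨rfl, a5⟩ := eq_of_eig cl.two a2 f
    rw [add_zero] at a3 b1
    obtain rfl : m = 0 := by
      rcases b1 with rfl | rfl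
      · exact h.unip1 (P.mul_mem hx hy) a1 a5
      · refine neg_eq_zero.1 (h.unip1 (P.mul_mem (P.inv_mem hx) hy) ?_ (by rw [Orth.Q_neg, a5]))
        rw [T_inv_mul ex ey, a1, map_neg]; linear_combination (norm := module) h5 • (1 : End k V)
    refine Or.inr ⟨s, by simpa using a1, a3.1, a3.2.1, fun f => θ1 ?_⟩
    rcases b1 with rfl | rfl
    · linear_combination -f - h5
    · linear_combination f + h5
  exfalso
  have hs := sp2 cl a1 a2 f
  have p1 := PU.of ex ey (s + r)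
  have p2 := PU.of ex ey (s - r)
  rcases a4 with a4 | a4
  · rcases b1 with b1 | b1 <;> rcases a4.five cl.two h5 h4 with b2 | b2
    · exact f (b1.trans b2.symm)
    · exact key _ _ hs (b1 ▸ p1) (b2 ▸ p2)
    · exact key _ _ hs.symm (b2 ▸ p2) (b1 ▸ p1)
    · exact f (b1.trans b2.symm)
  · refine h.noY hs (P.mul_mem (comm_mem hx hy) (d_mem hx hy)) (p1.te.congr rfl ?_) (p2.te.congr rfl ?_)
    · rw [show ga θ (s + r) = θ by
        rcases b1 with b1 | b1 <;> rw [b1, ga]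
        · linear_combination h5
        · linear_combination (2 - θ) * h5]
      linear_combination θ * (θ - 1) * h5
    · rw [ga_red a4]; ring

theorem S2.quad (h : S2 p B Q ι P π) : Quad P := fun g hg θ e => by
  rcases h.quad0 hg e with f | f | f | f | f
  · exact Or.inl f
  · exact Or.inr (Or.inr f)
  · exact Or.inr (Or.inl f)
  · exact (h.n4 hg e f).elim
  · by_contra! hh
    rcases mul_eq_zero.1 (show (θ ^ 2 - θ - 1) * (θ ^ 2 + θ - 1) = 0 by linear_combination f) with f | f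
    · exact h.n5 hg e (by linear_combination f) hh.2.2
    · exact h.n5 (θ := -θ) (h.neg hg) (by rw [T_neg, e, neg_smul]) (by linear_combination f)
        (by simpa using hh.2.2)

theorem S2.rt_val (h : S2 p B Q ι P π) (u v : W) (hu : Rt Q ι P u) (hv : Rt Q ι P v) :
    Orth.B Q u v = 0 ∨ Orth.B Q u v ^ 2 = 1 ∨ Orth.B Q u v ^ 2 = 4 :=
  let ⟨g, hg, _, e⟩ := hu.pair h.toSt hv
  h.quad g hg _ e

theorem S2.pair3 (h : S2 p B Q ι P π) (n : NoI1 P) : Pair3 P := by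
  rintro x y ⟨hx, ex, -⟩ ⟨hy, ey, -⟩
  have cl := h.cl
  have := nontriv cl
  have hxy := P.mul_mem hx hy
  have hxy' := P.mul_mem (P.inv_mem hx) hy
  rcases h.pair_cases hx hy ex ey (by simp) with c | ⟨s, r, m, a1, a2, a3, a4⟩
  · exact Or.inl c
  have b1 := a3.three cl.two
  have k1 : ∀ {U U' d}, Sp2 Q ι U U' → d ∈ P → Tr U d 0 → Tr U' d 1 → False := fun hs hd t1 t2 =>
    h.noI n hs (P.pow_mem (P.pow_mem hd 2) 3) (t1.p2.p3.congr rfl (by ring)) (t2.p2.p3.congr rfl (by ring))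
  have k2 : ∀ {U U' d} {ρ : k}, Sp2 Q ι U U' → d ∈ P → Tr U d 0 → Tr U' d ρ → ρ ^ 2 = ρ + 1 → False :=
    fun {U U' d ρ} hs hd t1 t2 e => h.noI n hs (P.pow_mem (P.pow_mem hd 5) 2)
      ((t1.p2.p5.congr (by group) (by ring))) (t2.p5.p2.congr rfl (by
        rw [show ρ ^ 5 - 5 * ρ ^ 3 + 5 * ρ = -2 by linear_combination (ρ ^ 3 + ρ ^ 2 - 3 * ρ - 2) * e]
        ring))
  have k3 : ∀ {U U'} {ρ : k}, Sp2 Q ι U U' → PU U x y (-1) 1 → PU U' x y (-1) ρ → ρ ^ 2 = ρ + 1 →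
      False := fun hs p1 p2 e =>
    k2 hs hxy' (p1.ti.congr rfl (by ring)) p2.ti (by linear_combination e)
  by_cases f : s + r = s - r
  · obtain ⟨rfl, a5⟩ := eq_of_eig cl.two a2 f
    rw [add_zero] at a3 b1
    rcases b1 with rfl | rfl | b1
    · obtain rfl : m = 0 := neg_eq_zero.1 (h.unip1 hxy' (by
        rw [T_inv_mul ex ey, a1, map_neg]; module) (by rw [Orth.Q_neg, a5]))
      exact Or.inr (Or.inl (by simpa using a1))
    · obtain rfl := h.unip1 hxy a1 a5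
      exact Or.inr (Or.inr (Or.inl (by simpa using a1)))
    have p2 : 2 ≤ p := (Fact.out : p.Prime).two_le
    have c1 : T ((x * y) ^ p) = s ^ p • 1 := by
      have := charE (p := p) cl
      obtain ⟨j, hj⟩ := Nat.exists_eq_add_of_le' p2
      rw [T_pow_char, a1, add_pow_char_of_commute _ (by simp [Commute, SemiconjBy]), smul_pow, one_pow,
        hj, pow_add (ι m), sq (ι m), sq' cl, a5]
      simp
    have c2 : (s ^ p) ^ 2 = s ^ p + 1 := by
      rw [← pow_mul, mul_comm, pow_mul, b1, add_pow_char, one_pow]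
    have h5 : (5 : k) = 0 := by
      rcases h.quad _ (P.pow_mem hxy p) _ c1 with c | c | c
      · simp [c] at c2
      · exact absurd (by linear_combination -gnorm c2 (a := 0) (b := 1) (by linear_combination c - c2))
          (one_ne_zero (α := k))
      · linear_combination gnorm c2 (a := -3) (b := 1) (by linear_combination c - c2)
    obtain rfl : s = -2 := eq_neg_of_add_eq_zero_left
      (pow_eq_zero_iff two_ne_zero |>.1 (by linear_combination b1 + (s + 1) * h5))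
    by_cases m0 : m = 0
    · left
      have p5 : p ≠ 3 := fun e => by
        have := eq_of_cast (k := k) (p := p) (n := 5) (by decide) (by exact_mod_cast h5); omega
      have : -(x * y) = 1 := by
        by_contra c
        exact p5 (h.p3 (h.neg hxy) (by rw [T_neg, a1, m0]; simp) c)
      rw [neg_eq_iff_eq_neg] at this
      rw [this, eq_mul_inv_of_mul_eq this]; simp
    · refine Or.inr (Or.inr (Or.inr ⟨?_, fun c e => m0 ?_⟩))
      · simp only [a1, nc k V, sq' cl, a5]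
        linear_combination (norm := module) h5 • ((1 : End k V) - ι m)
      · exact (sm_uniq cl (s' := c) (m' := 0) (by rw [← a1, e]; simp)).2
  have hs := sp2 cl a1 a2 f
  have p1 := PU.of ex ey (s + r)
  have p2 := PU.of ex ey (s - r)
  rcases a4 with a4 | a4
  · rcases b1 with b1 | b1 | b1 <;> rcases a4.three cl.two with b2 | b2 | b2
    · exact (f (b1.trans b2.symm)).elim
    · exact (k1 hs hxy (b1 ▸ p1.t3) (b2 ▸ p2.t3)).elim
    · exact (k2 hs hxy (b1 ▸ p1.t3) p2.t3 b2).elim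
    · exact (k1 hs.symm hxy (b2 ▸ p2.t3) (b1 ▸ p1.t3)).elim
    · exact (f (b1.trans b2.symm)).elim
    · exact (k3 hs (b1 ▸ p1) p2 b2).elim
    · exact (k2 hs.symm hxy (b2 ▸ p2.t3) p1.t3 b1).elim
    · exact (k3 hs.symm (b2 ▸ p2) p1 b1).elim
    have r0 : r ≠ 0 := by rintro rfl; simp at f
    have s1 : 2 * s = 1 := mul_left_cancel₀ (mul_ne_zero cl.two r0) (by linear_combination b1 - b2)
    refine Or.inr (Or.inr (Or.inr ⟨?_, fun c e => r0 ?_⟩))
    · simp only [a1, nc k V, sq' cl, ← a2]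
      linear_combination (norm := module) (b1 - r * s1) • (1 : End k V) + s1 • ι m
    · have := (sm_uniq cl (s' := c) (m' := 0) (by rw [← a1, e]; simp)).2
      simpa [this] using a2
  · exfalso
    have t2 := p2.tc
    rw [ga_red a4] at t2
    have hc := comm_mem hx hy
    by_cases b : (s + r) ^ 2 = s + r + 1
    · exact h.noI n hs (P.pow_mem hc 3) (p1.tc.p3.congr rfl (by
        rw [show ga (-1) (s + r) = 1 by rw [ga]; linear_combination b]; ring)) (t2.p3.congr rfl (by ring))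
    · exact h.noI n hs (P.pow_mem hc 2) (p1.tc.p2.congr rfl (by
        rcases b1 with b1 | b1 | b1
        · rw [b1, ga]; ring
        · rw [b1, ga]; ring
        · exact absurd b1 b)) (t2.p2.congr rfl (by ring))

theorem S2.exists_nat (h : S2 p B Q ι P π) (h3 : Pair3 P) (hg : X3 P g) :
    ∃ g g', X3 P g ∧ X3 P g' ∧ T (g * g') * T (g * g') = T (g * g') + 1 ∧
      ∀ c : k, T (g * g') ≠ c • 1 := by
  have cl := h.cl
  by_contra hn
  have hp : ∀ x y, X3 P x → X3 P y → x * y = y * x ∨ T (x * y) = (0 : k) • 1 ∨ T (x * y) = (1 : k) • 1 :=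
    fun x y hx hy => by
      rcases h3 x y hx hy with c | c | c | c
      · exact Or.inl c
      · exact Or.inr (Or.inl (by simpa using c))
      · exact Or.inr (Or.inr (by simpa using c))
      · exact (hn ⟨x, y, hx, hy, c⟩).elim
  have pr : ∀ x, X3 P x → ∃ a b, Pr B Q ι x a b (-1) := fun x hx =>
    h.exists_pr h.tv hx.1 hx.2.1 hx.2.2 (hx.ne_neg cl)
  rcases h.un with ⟨p5, -⟩ | ⟨rfl, -⟩
  · have h4 : (-1 : k) ^ 2 ≠ 4 := fun e => three_ne (k := k) p5 (by linear_combination -e)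
    have h2 := cl.two
    refine h.meet h.tv h4 (fun x hx y hy ex ey => ?_) hg.1 hg.2.1
    rcases hp x y ⟨hx, ex, (ne_of_T cl h4 ex).1⟩ ⟨hy, ey, (ne_of_T cl h4 ey).1⟩ with c | c | c
    · exact Or.inl c
    · exact Or.inr ⟨0, c, h2.symm, fun e => one_ne_zero (α := k) (by linear_combination e), by simp⟩
    · exact Or.inr ⟨1, c, fun e => one_ne_zero (α := k) (by linear_combination -e),
        fun e => h2 (by linear_combination e), fun e => one_ne_zero (α := k) (by linear_combination e)⟩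
  · have un : ∀ x, X3 P x → Un x := fun x hx => un_of_pow (p := 3) (a := 1) cl hx.cube
    refine h.family (X := {x | X3 P x}) (fun x hx => hx.1) (fun g hg x hx => hx.conj hg)
      (fun x hx => let ⟨a, b, q⟩ := pr x hx; q.finrank_Y) (fun x hx y hy => ?_) hg
    obtain ⟨a, b, q⟩ := pr x hx
    obtain ⟨c, d, q'⟩ := pr y hy
    rcases hp x y hx hy with e | e | e
    · rcases h.h9 rfl hx.1 hy.1 (un x hx) (un y hy) hx.2.2 e with f | rfl | rfl
      · exact absurd f hy.2.2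
      · exact ⟨a, q.a0, q.a_mem, q.a_mem⟩
      · exact ⟨a, q.a0, q.a_mem, q.inv.b_mem⟩
    · exact q.meet q' e
    · exact q.meet q' e

theorem S2.beta (h : S2 p B Q ι P π) (n : NoI1 P) (h3 : ∀ g, ¬ X3 P g) : Beta P := by
  refine ⟨n, fun g hg θ e => ?_⟩
  by_contra! hh
  have key : ∀ g ∈ P, g ≠ 1 → T g ≠ (-1 : k) • 1 ∧ T g ≠ (2 : k) • 1 := fun g hg g1 =>
    ⟨fun e => h3 g ⟨hg, e, g1⟩, fun e => h3 g ⟨hg, by
      rw [e]; congr 1; linear_combination three_eq (k := k) (h.p3 hg e g1), g1⟩⟩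
  have k1 := key g hg hh.1
  have k2 := key (-g) (h.neg hg) (fun e => hh.2.1 (neg_eq_iff_eq_neg.1 e))
  rw [T_neg, e, ← neg_smul] at k2
  rcases h.quad g hg θ e with f | f | f
  · exact hh.2.2 f
  · rcases sq_one f with rfl | rfl
    exacts [k2.1 rfl, k1.1 e]
  · rcases sq_eq_sq_iff_eq_or_eq_neg.1 (show θ ^ 2 = 2 ^ 2 by rw [f]; norm_num) with rfl | rfl
    exacts [k1.2 e, k2.2 (by rw [neg_neg])]

end Cfsg.Agent.H6.S4
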