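import Cfsg.Agent.H9.Sp.Cl1
import Cfsg.Agent.H8.M3B

/-! Subgroups of `Sp_4`: Clifford calculus. -/

set_option autoImplicit false
set_option linter.unusedSimpArgs false
set_option linter.unusedSectionVars false
set_option linter.unusedVariables false

namespace Cfsg.Agent.H6.S4

open Module Cfsg.Agent.H9.Sp Cfsg.Agent.H8.M3

theorem nc (k V : Type*) [Field k] [AddCommGroup V] [Module k V] :
    (∀ a b c : End k V, a * (b + c) = a * b + a * c) ∧ (∀ a b c : End k V, (a + b) * c = a * c + b * c) ∧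
    (∀ a b c : End k V, a * (b - c) = a * b - a * c) ∧ (∀ a b c : End k V, (a - b) * c = a * c - b * c) ∧
    (∀ a b : End k V, a * -b = -(a * b)) ∧ (∀ a b : End k V, -a * b = -(a * b)) ∧
    (∀ (c : k) (a b : End k V), c • a * b = c • (a * b)) ∧
    (∀ (c : k) (a b : End k V), a * c • b = c • (a * b)) ∧
    (∀ a b c : End k V, a * b * c = a * (b * c)) ∧ (∀ a : End k V, a * 1 = a) ∧
    (∀ a : End k V, 1 * a = a) ∧ (∀ a : End k V, a * 0 = 0) ∧ (∀ a : End k V, 0 * a = 0) ∧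
    (∀ g h : (End k V)ˣ, (g * h).1 = g.1 * h.1) ∧ (∀ g : (End k V)ˣ, (-g).1 = -g.1) ∧
    ((1 : (End k V)ˣ).1 = 1) ∧ (∀ g h : (End k V)ˣ, (g * h)⁻¹ = h⁻¹ * g⁻¹) ∧
    (∀ g : (End k V)ˣ, g⁻¹⁻¹ = g) ∧ (∀ g : (End k V)ˣ, (-g)⁻¹ = -g⁻¹) ∧
    (∀ g : (End k V)ˣ, g.1 * g⁻¹.1 = 1) ∧ (∀ g : (End k V)ˣ, g⁻¹.1 * g.1 = 1) ∧
    (∀ (g : (End k V)ˣ) (a : End k V), g.1 * (g⁻¹.1 * a) = a) ∧
    (∀ (g : (End k V)ˣ) (a : End k V), g⁻¹.1 * (g.1 * a) = a) :=
  ⟨mul_add, add_mul, mul_sub, sub_mul, mul_neg, neg_mul, smul_mul_assoc, mul_smul_comm, mul_assoc,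
    mul_one, one_mul, mul_zero, zero_mul, Units.val_mul, Units.val_neg, rfl, mul_inv_rev, inv_inv,
    fun g => inv_neg, Units.mul_inv, Units.inv_mul, Units.mul_inv_cancel_left,
    Units.inv_mul_cancel_left⟩

variable {k V W : Type*} [Field k] [AddCommGroup V] [Module k V] [FiniteDimensional k V]
  [AddCommGroup W] [Module k W] [FiniteDimensional k W]
  {B : V →ₗ[k] V →ₗ[k] k} {Q : QuadraticForm k W} {ι : W →ₗ[k] End k V}

@[simp] theorem ui (g : (End k V)ˣ) (v : V) : g⁻¹.1 (g.1 v) = v := by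
  rw [← End.mul_apply, Units.inv_mul, End.one_apply]

@[simp] theorem iu (g : (End k V)ˣ) (v : V) : g.1 (g⁻¹.1 v) = v := by
  rw [← End.mul_apply, Units.mul_inv, End.one_apply]

theorem u_inj (g : (End k V)ˣ) {u v : V} (e : g.1 u = g.1 v) : u = v := by
  rw [← ui g u, e, ui]

theorem u_ne (g : (End k V)ˣ) {v : V} (h : v ≠ 0) : g.1 v ≠ 0 := fun e =>
  h (u_inj g (by rw [e, map_zero]))

theorem um (g h : (End k V)ˣ) (v : V) : (g * h).1 v = g.1 (h.1 v) := rfl

/-- symplectic unit -/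
def IsSp (B : V →ₗ[k] V →ₗ[k] k) (g : (End k V)ˣ) : Prop := ∀ u v, B (g.1 u) (g.1 v) = B u v

theorem IsSp.left {g : (End k V)ˣ} (h : IsSp B g) (u v : V) : B (g.1 u) v = B u (g⁻¹.1 v) := by
  rw [← h u, iu]

theorem IsSp.right {g : (End k V)ˣ} (h : IsSp B g) (u v : V) : B u (g.1 v) = B (g⁻¹.1 u) v := by
  rw [← h _ v, iu]

/-- the symplectic group as units -/
def SpU (B : V →ₗ[k] V →ₗ[k] k) : Subgroup (End k V)ˣ where
  carrier := {g | IsSp B g}
  mul_mem' {a b} ha hb u v := by rw [um, um, ha, hb]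
  one_mem' u v := rfl
  inv_mem' {a} ha u v := by rw [← ha, iu, iu]

/-- `g + g⁻¹` -/
def T (g : (End k V)ˣ) : End k V := g.1 + g⁻¹.1

theorem T_inv (g : (End k V)ˣ) : T g⁻¹ = T g := by rw [T, T, inv_inv, add_comm]

theorem T_neg (g : (End k V)ˣ) : T (-g) = -T g := by simp only [T, nc k V]; abel

theorem T_conj (g h : (End k V)ˣ) : T (g * h * g⁻¹) = g.1 * T h * g⁻¹.1 := by
  simp only [T, nc k V]

theorem T_comm (g : (End k V)ˣ) : g.1 * T g = T g * g.1 := by simp only [T, nc k V]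

theorem T_comm_of {g : (End k V)ˣ} {X : End k V} (h : X * g.1 = g.1 * X) : X * T g = T g * X := by
  have : X * g⁻¹.1 = g⁻¹.1 * X := by
    calc X * g⁻¹.1 = g⁻¹.1 * (g.1 * X) * g⁻¹.1 := by simp only [nc k V]
      _ = g⁻¹.1 * X := by rw [← h]; simp only [nc k V]
  rw [T, mul_add, add_mul, h, this]

theorem T_one : T (1 : (End k V)ˣ) = (2 : k) • 1 := by rw [T, inv_one, two_smul]; rfl

theorem T_pow_char (p : ℕ) [Fact p.Prime] [CharP k p] [Nontrivial V] (g : (End k V)ˣ) :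
    T (g ^ p) = T g ^ p := by
  have : CharP (End k V) p := charP_of_injective_algebraMap (algebraMap k (End k V)).injective p
  rw [T, T, add_pow_char_of_commute, ← inv_pow, Units.val_pow_eq_pow_val, Units.val_pow_eq_pow_val]
  exact (Units.commute_coe_inv g)

/-- the action on the orthogonal space -/
noncomputable def wa (ι : W →ₗ[k] End k V) (g : (End k V)ˣ) : End k W :=
  ι.leftInverse ∘ₗ (LinearMap.mulLeft k g.1 ∘ₗ LinearMap.mulRight k g⁻¹.1) ∘ₗ ι

section Cl

variable (h : Cl B Q ι)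
include h

theorem nontriv : Nontrivial V := finrank_pos_iff.1 (show 0 < finrank k V by simp [h.dimV])

theorem sc' {a b : k} (e : a • (1 : End k V) = b • 1) : a = b :=
  h.sc fun v => by simpa using LinearMap.congr_fun e v

theorem sq' (x : W) : ι x * ι x = Q x • 1 := LinearMap.ext (h.sq x)

theorem sqm (x : W) (X : End k V) : ι x * (ι x * X) = Q x • X := by
  rw [← mul_assoc, sq' h, smul_mul_assoc, one_mul]

theorem anti' (x y : W) : ι x * ι y = Orth.B Q x y • 1 - ι y * ι x := LinearMap.ext (h.anti x y)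

theorem antim (x y : W) (X : End k V) :
    ι x * (ι y * X) = Orth.B Q x y • X - ι y * (ι x * X) := by
  rw [← mul_assoc, anti' h]; simp only [nc k V]

theorem inj' {x y : W} (e : ι x = ι y) : x = y := h.inj (LinearMap.congr_fun e)

theorem ι_eq_zero {x : W} : ι x = 0 ↔ x = 0 :=
  ⟨fun e => inj' h (by rw [e, map_zero]), fun e => by rw [e, map_zero]⟩

theorem four_ne : (4 : k) ≠ 0 := by
  have := h.two
  rw [show (4 : k) = 2 * 2 by norm_num]; exact mul_ne_zero this this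

theorem tr_sm (s : k) (m : W) : LinearMap.trace k V (s • 1 + ι m) = 4 * s := by
  simp [h.tr, h.dimV, mul_comm]

theorem sm_uniq {s s' : k} {m m' : W} (e : s • (1 : End k V) + ι m = s' • 1 + ι m') :
    s = s' ∧ m = m' := by
  have := congrArg (LinearMap.trace k V) e
  rw [tr_sm h, tr_sm h] at this
  obtain rfl := mul_left_cancel₀ (four_ne h) this
  exact ⟨rfl, inj' h (add_left_cancel e)⟩

theorem scal {c : k} {x : W} (e : ι x = c • 1) : x = 0 ∧ c = 0 := by
  have := sm_uniq h (s := 0) (m := x) (s' := c) (m' := 0) (by simp [e])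
  exact ⟨this.2, this.1.symm⟩

theorem exists_sm {X : End k V} (hX : ∀ u v, B (X u) v = B u (X v)) :
    ∃ (s : k) (m : W), X = s • 1 + ι m := by
  obtain ⟨m, hm⟩ := h.surj (X - (LinearMap.trace k V X / 4) • 1) (fun u v => by simp [hX])
    (by have := four_ne h; simp [h.dimV]; field_simp; ring)
  exact ⟨_, m, by rw [hm, add_sub_cancel]⟩

theorem exists_T {g : (End k V)ˣ} (hg : IsSp B g) : ∃ (s : k) (m : W), T g = s • 1 + ι m :=
  exists_sm h fun u v => by simp [T, hg.left, hg.right, add_comm]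

theorem ι3 (x y : W) : ι x * (ι y * ι x) = ι (Orth.B Q x y • x - Q x • y) := by
  rw [antim h, sq' h]; simp only [map_sub, map_smul, nc k V]

theorem br (z a b : W) : ι z * (ι a * ι b) - ι a * (ι b * ι z) =
    ι (Orth.B Q z a • b - Orth.B Q z b • a) := by
  rw [antim h, anti' h z b]; simp only [map_sub, map_smul, nc k V]; abel

theorem exists_b {x y : W} (e : ∀ c : k, y ≠ c • x) :
    ∃ z, Orth.B Q z x = 0 ∧ Orth.B Q z y = 1 := by
  obtain ⟨z, hz, hz'⟩ := Orth.Nd.exists_perp_B_ne h.nd (X := k ∙ x) (a := y) (fun hy => by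
    obtain ⟨c, hc⟩ := Submodule.mem_span_singleton.1 hy
    exact e c hc.symm)
  rw [Orth.mem_perp_span_singleton] at hz
  exact ⟨(Orth.B Q y z)⁻¹ • z, by simp [Orth.B_comm Q z, hz], by simp [Orth.B_comm Q z, hz']⟩

theorem dep_of_br {a b : W} (ha : a ≠ 0) (e : ∀ z, Orth.B Q z a • b = Orth.B Q z b • a) :
    ∃ c : k, b = c • a := by
  by_contra! hh
  obtain ⟨z, h1, h2⟩ := exists_b h hh
  have := e z
  rw [h1, h2, zero_smul, one_smul] at this
  exact ha this.symm

theorem dep_of_scal {a b : W} {c : k} (ha : a ≠ 0) (e : ι a * ι b = c • 1) : ∃ c : k, b = c • a :=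
  dep_of_br h ha fun z => sub_eq_zero.1 ((ι_eq_zero h).1 (by
    rw [← br h, ← mul_assoc (ι a), e]; simp only [nc k V, sub_self]))

theorem comm_ι {a b : W} (ha : a ≠ 0) (e : ι a * ι b = ι b * ι a) : ∃ c : k, b = c • a := by
  refine dep_of_scal h (c := Orth.B Q a b / 2) ha ?_
  have h2 := h.two
  have := anti' h a b
  rw [← e] at this
  refine smul_right_injective _ h2 ?_
  simp only [smul_smul, mul_div_cancel₀ _ h2]
  linear_combination (norm := module) this

theorem central {X : End k V} (hX : ∀ x, X * ι x = ι x * X) : ∃ c : k, X = c • 1 :=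
  let ⟨c, hc⟩ := h.comm (X := X) fun x => LinearMap.congr_fun (hX x)
  ⟨c, LinearMap.ext hc⟩

theorem ι_wa {g : (End k V)ˣ} (hg : IsSp B g) (x : W) : ι (wa ι g x) = g.1 * ι x * g⁻¹.1 := by
  obtain ⟨y, hy⟩ := h.surj (g.1 * ι x * g⁻¹.1) (fun u v => by
    simp only [End.mul_apply]
    rw [hg.left, h.adj, hg.right]) (by
    rw [LinearMap.trace_mul_comm, ← mul_assoc, Units.inv_mul, one_mul, h.tr])
  have hk : LinearMap.ker ι = ⊥ := LinearMap.ker_eq_bot'.2 fun x hx => (ι_eq_zero h).1 hx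
  have : wa ι g x = y := by
    simp only [wa, LinearMap.comp_apply, LinearMap.mulLeft_apply, LinearMap.mulRight_apply]
    rw [← mul_assoc, ← hy, LinearMap.leftInverse_apply_of_inj hk]
  rw [this, hy]

theorem wa_eq {g : (End k V)ˣ} (hg : IsSp B g) {x y : W} : wa ι g x = y ↔ g.1 * ι x = ι y * g.1 := by
  constructor
  · rintro rfl; rw [ι_wa h hg]; simp only [nc k V]
  · intro e; apply inj' h; rw [ι_wa h hg, e]; simp only [nc k V]

theorem mul_ι {g : (End k V)ˣ} (hg : IsSp B g) (x : W) : g.1 * ι x = ι (wa ι g x) * g.1 :=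
  (wa_eq h hg).1 rfl

theorem app_ι {g : (End k V)ˣ} (hg : IsSp B g) (x : W) (v : V) :
    g.1 (ι x v) = ι (wa ι g x) (g.1 v) := LinearMap.congr_fun (mul_ι h hg x) v

theorem wa_mul {g g' : (End k V)ˣ} (hg : IsSp B g) (hg' : IsSp B g') (x : W) :
    wa ι (g * g') x = wa ι g (wa ι g' x) := inj' h (by
  rw [ι_wa h ((SpU B).mul_mem hg hg'), ι_wa h hg, ι_wa h hg']; simp only [nc k V])

theorem wa_one (x : W) : wa ι 1 x = x := (wa_eq h (SpU B).one_mem).2 (by simp only [nc k V])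

theorem isSp_neg {g : (End k V)ˣ} (hg : IsSp B g) : IsSp B (-g) := fun u v => by simp [hg u v]

theorem wa_neg {g : (End k V)ˣ} (hg : IsSp B g) (x : W) : wa ι (-g) x = wa ι g x :=
  (wa_eq h (isSp_neg h hg)).2 (by simp only [nc k V, mul_ι h hg])

theorem wa_ui {g : (End k V)ˣ} (hg : IsSp B g) (x : W) : wa ι g⁻¹ (wa ι g x) = x := by
  rw [← wa_mul h ((SpU B).inv_mem hg) hg, inv_mul_cancel, wa_one h]

theorem wa_iu {g : (End k V)ˣ} (hg : IsSp B g) (x : W) : wa ι g (wa ι g⁻¹ x) = x := by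
  rw [← wa_mul h hg ((SpU B).inv_mem hg), mul_inv_cancel, wa_one h]

theorem wa_inj {g : (End k V)ˣ} (hg : IsSp B g) {x y : W} (e : wa ι g x = wa ι g y) : x = y := by
  rw [← wa_ui h hg x, e, wa_ui h hg]

theorem wa_ne {g : (End k V)ˣ} (hg : IsSp B g) {x : W} (e : x ≠ 0) : wa ι g x ≠ 0 := fun e' =>
  e (wa_inj h hg (by rw [e', map_zero]))

theorem Q_wa {g : (End k V)ˣ} (hg : IsSp B g) (x : W) : Q (wa ι g x) = Q x := sc' h (by
  rw [← sq' h, ι_wa h hg]; simp only [nc k V, sqm h])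

theorem b_wa {g : (End k V)ˣ} (hg : IsSp B g) (x y : W) :
    Orth.B Q (wa ι g x) (wa ι g y) = Orth.B Q x y := by
  have := Q_wa h hg (x + y)
  rw [map_add, Orth.Q_add, Orth.Q_add, Q_wa h hg, Q_wa h hg] at this
  exact add_left_cancel this

theorem b_wa_left {g : (End k V)ˣ} (hg : IsSp B g) (x y : W) :
    Orth.B Q (wa ι g x) y = Orth.B Q x (wa ι g⁻¹ y) := by rw [← b_wa h hg x, wa_iu h hg]

theorem pm_of_scal {g : (End k V)ˣ} (hg : IsSp B g) {c : k} (e : g.1 = c • 1) : g = 1 ∨ g = -1 := by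
  obtain ⟨v, hv⟩ := h.exists_ne
  obtain ⟨w, hw⟩ := h.symp.exists_one hv
  have := hg v w
  simp only [e, LinearMap.smul_apply, End.one_apply, map_smul, hw, smul_eq_mul, mul_one] at this
  exact (mul_self_eq_one_iff.1 this).imp (fun e' => Units.ext (by simp [e, e'])) fun e' =>
    Units.ext (by simp [e, e'])

theorem wa_ker {g : (End k V)ˣ} (hg : IsSp B g) (e : ∀ x, wa ι g x = x) : g = 1 ∨ g = -1 :=
  let ⟨c, hc⟩ := central h (X := g.1) fun x => (wa_eq h hg).1 (e x)
  pm_of_scal h hg hc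

theorem wa_T {g : (End k V)ˣ} (hg : IsSp B g) {s : k} {m : W} (e : T g = s • 1 + ι m) :
    wa ι g m = m := (wa_eq h hg).2 (by
  have := T_comm g
  rw [e] at this
  simp only [nc k V] at this
  exact add_left_cancel this)

theorem T_conj' {g x : (End k V)ˣ} (hg : IsSp B g) {s : k} {m : W} (e : T x = s • 1 + ι m) :
    T (g * x * g⁻¹) = s • 1 + ι (wa ι g m) := by
  rw [T_conj, e, ι_wa h hg]; simp only [nc k V]

theorem neg_ne_one : (-1 : (End k V)ˣ) ≠ 1 := fun e => by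
  have : ((-1 : k) • 1 : End k V) = (1 : k) • 1 := by simpa using congrArg Units.val e
  exact h.two (by linear_combination -(sc' h this))

/-- the unit attached to a pair of vectors -/
theorem inv_pair {g : (End k V)ˣ} {a b : W} (e : g.1 = ι a * ι b) (hab : Q a * Q b = 1) :
    g⁻¹.1 = ι b * ι a := Units.inv_eq_of_mul_eq_one_right (by
  rw [e]; simp only [nc k V, sqm h, sq' h, smul_smul, mul_comm (Q b), hab, one_smul])

theorem T_pair {g : (End k V)ˣ} {a b : W} (e : g.1 = ι a * ι b) (hab : Q a * Q b = 1) :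
    T g = Orth.B Q a b • 1 := by rw [T, inv_pair h e hab, e, anti' h a b, sub_add_cancel]

theorem exists_pair {a b : W} (hab : Q a * Q b = 1) :
    ∃ g : (End k V)ˣ, IsSp B g ∧ g.1 = ι a * ι b :=
  ⟨⟨ι a * ι b, ι b * ι a,
    by simp only [nc k V, sqm h, sq' h, smul_smul, mul_comm (Q b), hab, one_smul],
    by simp only [nc k V, sqm h, sq' h, smul_smul, hab, one_smul]⟩, fun u v => by
      simp only [End.mul_apply, h.adj, h.sq, map_smul, smul_smul, mul_comm (Q b), hab, one_smul,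
        smul_eq_mul, ← mul_assoc, one_mul], rfl⟩

theorem wa_pair {g : (End k V)ˣ} (hg : IsSp B g) {a b : W} (e : g.1 = ι a * ι b)
    (hab : Q a * Q b = 1) (x : W) :
    wa ι g x = x - (Orth.B Q a x * Q b + Orth.B Q a b * -Orth.B Q b x) • a - (Q a * Orth.B Q b x) • b := by
  apply inj' h
  rw [ι_wa h hg, inv_pair h e hab, e]
  have e1 : ι a * ι b * ι x * (ι b * ι a) = ι a * ((ι b * (ι x * ι b)) * ι a) := by
    simp only [nc k V]
  rw [e1, ι3 h, ι3 h]
  congr 1
  simp only [map_sub, map_smul, smul_eq_mul]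
  linear_combination (norm := module) hab • x

end Cl

end Cfsg.Agent.H6.S4
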