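import Cfsg.Agent.H6.S4.A0

/-! Subgroups of `Sp_4`: the setting, irreducibility, quadratic and unipotent elements. -/

set_option autoImplicit false
set_option linter.unusedSimpArgs false
set_option linter.unusedSectionVars false
set_option linter.unusedVariables false

namespace Cfsg.Agent.H6.S4

open Module Cfsg.Agent.H9.Sp Cfsg.Agent.H8.M3

universe u

variable {k V W : Type*} [Field k] [AddCommGroup V] [Module k V] [FiniteDimensional k V]
  [AddCommGroup W] [Module k W] [FiniteDimensional k W]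
  {B : V →ₗ[k] V →ₗ[k] k} {Q : QuadraticForm k W} {ι : W →ₗ[k] End k V}
  {G : Type u} [Group G] {P : Subgroup (End k V)ˣ} {π : P →* G}

/-- the setting -/
structure St (B : V →ₗ[k] V →ₗ[k] k) (Q : QuadraticForm k W) (ι : W →ₗ[k] End k V)
    (P : Subgroup (End k V)ˣ) {G : Type u} [Group G] (π : P →* G) : Prop where
  cl : Cl B Q ι
  fin : Finite P
  sp : ∀ g ∈ P, IsSp B g
  neg1 : -1 ∈ P
  irr : ∀ U : Submodule k V, (∀ g ∈ P, ∀ v ∈ U, g.1 v ∈ U) → U = ⊥ ∨ U = ⊤
  surj : Function.Surjective π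
  ker : ∀ g : P, π g = 1 ↔ g.1 = 1 ∨ g.1 = -1
  sn : SN G

theorem finOrd {M : Type*} [Group M] {P : Subgroup M} [Finite P] {g : M} (hg : g ∈ P) :
    IsOfFinOrder g := by
  have := isOfFinOrder_of_finite (⟨g, hg⟩ : P)
  exact (P.subtype.isOfFinOrder this)

/-- a multiplicatively closed subset of a finite group is a subgroup -/
def finSub {M : Type*} [Group M] (P : Subgroup M) [Finite P] (R : M → Prop) (h1 : R 1)
    (hm : ∀ a ∈ P, ∀ b ∈ P, R a → R b → R (a * b)) : Subgroup M where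
  carrier := {g | g ∈ P ∧ R g}
  one_mem' := ⟨P.one_mem, h1⟩
  mul_mem' ha hb := ⟨P.mul_mem ha.1 hb.1, hm _ ha.1 _ hb.1 ha.2 hb.2⟩
  inv_mem' {a} ha := by
    refine ⟨P.inv_mem ha.1, ?_⟩
    obtain ⟨n, hn⟩ := (finOrd ha.1).mem_powers_iff_mem_zpowers.2 (Subgroup.inv_mem _ (Subgroup.mem_zpowers a))
    simp only at hn
    rw [← hn]
    clear hn
    induction n with
    | zero => simpa using h1
    | succ n ih => rw [pow_succ]; exact hm _ (P.pow_mem ha.1 n) _ ha.1 ih ha.2

namespace St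

variable (h : St B Q ι P π)
include h

theorem neg {g : (End k V)ˣ} (hg : g ∈ P) : -g ∈ P := by
  simpa using P.mul_mem h.neg1 hg

theorem finG : Finite G := have := h.fin; Finite.of_surjective π h.surj

theorem eq_iff {a b : P} : π a = π b ↔ a.1 = b.1 ∨ a.1 = -b.1 := by
  rw [← mul_inv_eq_one, ← map_inv, ← map_mul, h.ker]
  simp only [Subgroup.coe_mul, Subgroup.coe_inv, mul_inv_eq_one, mul_inv_eq_iff_eq_mul, neg_mul, one_mul]

theorem normal (N : Subgroup (End k V)ˣ) (hn : ∀ g ∈ P, ∀ x ∈ P, x ∈ N → g * x * g⁻¹ ∈ N)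
    (h1 : -1 ∈ N) : (∀ x ∈ P, x ∈ N → x = 1 ∨ x = -1) ∨ P ≤ N := by
  have : (N.subgroupOf P).Normal := ⟨fun x hx g => hn g g.2 x x.2 hx⟩
  rcases h.sn.normal_cases ((N.subgroupOf P).map π) (this.map π h.surj) with e | e
  · exact Or.inl fun x hx hN => (h.ker ⟨x, hx⟩).1 (by
      rw [← Subgroup.mem_bot, ← e]; exact ⟨_, hN, rfl⟩)
  · refine Or.inr fun g hg => ?_
    obtain ⟨x, hx, e'⟩ : π ⟨g, hg⟩ ∈ (N.subgroupOf P).map π := e ▸ Subgroup.mem_top _
    rcases h.eq_iff.1 e'.symm with e | e <;> simp only at e <;> rw [e]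
    · exact hx
    · simpa using N.mul_mem h1 hx

theorem gen {X : Set (End k V)ˣ} (hX : ∀ x ∈ X, x ∈ P) (hc : ∀ g ∈ P, ∀ x ∈ X, g * x * g⁻¹ ∈ X)
    {x : (End k V)ˣ} (hx : x ∈ X) (h1 : x ≠ 1) (h2 : x ≠ -1) (M : Subgroup (End k V)ˣ)
    (hM : -1 ∈ M) (hXM : ∀ x ∈ X, x ∈ M) : P ≤ M := by
  have hle : Subgroup.closure (insert (-1) X) ≤ M := (Subgroup.closure_le _).2 (by
    rintro y (rfl | hy)
    exacts [hM, hXM y hy])
  refine le_trans ((h.normal _ (fun g hg y _ hy => ?_) (Subgroup.subset_closure (by simp))).resolve_left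
    fun e => ?_) hle
  · clear * - hy hc hg
    induction hy using Subgroup.closure_induction with
    | mem y hy =>
      rcases hy with rfl | hy
      · exact Subgroup.subset_closure (by simp)
      · exact Subgroup.subset_closure (Or.inr (hc g hg y hy))
    | one => simp
    | mul a b _ _ ha hb => simpa [mul_assoc] using Subgroup.mul_mem _ ha hb
    | inv a _ ha => simpa [mul_assoc] using Subgroup.inv_mem _ ha
  · rcases e x (hX x hx) (Subgroup.subset_closure (Or.inr hx)) with e | e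
    exacts [h1 e, h2 e]

theorem ind {X : Set (End k V)ˣ} (hX : ∀ x ∈ X, x ∈ P) (hc : ∀ g ∈ P, ∀ x ∈ X, g * x * g⁻¹ ∈ X)
    {x : (End k V)ˣ} (hx : x ∈ X) (h1 : x ≠ 1) (h2 : x ≠ -1) (R : (End k V)ˣ → Prop) (r1 : R 1)
    (rn : R (-1)) (rm : ∀ a ∈ P, ∀ b ∈ P, R a → R b → R (a * b)) (rX : ∀ x ∈ X, R x) :
    ∀ g ∈ P, R g := fun g hg =>
  have := h.fin
  (h.gen hX hc hx h1 h2 (finSub P R r1 rm) ⟨h.neg1, rn⟩ (fun x hx => ⟨hX x hx, rX x hx⟩) hg).2

theorem central_pm {x : (End k V)ˣ} (hx : x ∈ P) (e : ∀ g ∈ P, g * x = x * g ∨ g * x = -(x * g)) :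
    x = 1 ∨ x = -1 := (h.ker ⟨x, hx⟩).1 (h.sn.center_eq fun g => by
  obtain ⟨g, rfl⟩ := h.surj g
  rw [← map_mul, ← map_mul, h.eq_iff]
  exact e g g.2)

theorem comm_class {X : Set (End k V)ˣ} (hX : ∀ x ∈ X, x ∈ P)
    (hc : ∀ g ∈ P, ∀ x ∈ X, g * x * g⁻¹ ∈ X)
    (e : ∀ x ∈ X, ∀ y ∈ X, x * y = y * x ∨ x * y = -(y * x)) {x : (End k V)ˣ} (hx : x ∈ X) :
    x = 1 ∨ x = -1 := by
  by_contra! hh
  refine (h.central_pm (hX x hx) (h.ind hX hc hx hh.1 hh.2 _ (by simp) (by simp) ?_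
    fun y hy => e y hy x hx)).elim hh.1 hh.2
  rintro a - b - (ha | ha) (hb | hb) <;> rw [mul_assoc, hb] <;>
    simp only [mul_neg, ← mul_assoc, ha, neg_mul, neg_neg, true_or, or_true]

theorem mulf (f : P → k) (h0 : ∀ g, f g ≠ 0) (hm : ∀ a b, f (a * b) = f a * f b)
    (hn : f ⟨-1, h.neg1⟩ = 1) (g : P) : f g = 1 := by
  let χ : P →* kˣ := MonoidHom.mk' (fun g => Units.mk0 (f g) (h0 g)) fun a b => Units.ext (hm a b)
  have h1 : f 1 = 1 := congrArg Units.val (map_one χ)
  have hk : π.ker ≤ χ.ker := fun x hx => Units.ext (by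
    rcases (h.ker x).1 hx with e | e
    · rw [show x = 1 from Subtype.ext e]; exact h1
    · rw [show x = ⟨-1, h.neg1⟩ from Subtype.ext e]; exact hn)
  have := h.sn.hom_eq_one (π.liftOfSurjective h.surj ⟨χ, hk⟩) (π g)
  rw [MonoidHom.liftOfRightInverse_comp_apply] at this
  exact congrArg Units.val this

theorem schur [IsAlgClosed k] {X : End k V} (hX : ∀ g ∈ P, g.1 * X = X * g.1) :
    ∃ c : k, X = c • 1 := by
  have := nontriv h.cl
  obtain ⟨c, hc⟩ := End.exists_eigenvalue X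
  refine ⟨c, LinearMap.ext fun v => ?_⟩
  have := (h.irr (X.eigenspace c) fun g hg v hv => by
    rw [End.mem_eigenspace_iff] at hv ⊢
    rw [← End.mul_apply, ← hX g hg, End.mul_apply, hv, map_smul]).resolve_left hc
  exact End.mem_eigenspace_iff.1 (this ▸ Submodule.mem_top)

theorem semi [IsAlgClosed k] {X : End k V} (hX : ∀ g ∈ P, ∃ c : k, g.1 * X * g⁻¹.1 = c • X) :
    ∃ c : k, X = c • 1 := by
  by_cases h0 : X = 0
  · exact ⟨0, by simp [h0]⟩
  choose! f hf using hX
  have := h.mulf (fun g => f g) (fun g e => h0 (by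
      have := hf g g.2
      rw [e, zero_smul] at this
      simpa using this)) (fun a b => smul_left_injective k h0 (by
      simp only
      rw [← hf _ (a * b).2, mul_comm, mul_smul, ← hf a a.2, ← smul_mul_assoc, ← mul_smul_comm,
        ← hf b b.2]
      simp only [Subgroup.coe_mul, nc k V])) (smul_left_injective k h0 (by
      simp only
      rw [← hf _ h.neg1]; simp))
  refine h.schur fun g hg => ?_
  have e := hf g hg
  rw [this ⟨g, hg⟩, one_smul] at e
  rw [← Units.mul_inv_eq_iff_eq_mul, e]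

theorem no_line [IsAlgClosed k] {u : W} (hu : ∀ g ∈ P, ∃ c : k, wa ι g u = c • u) : u = 0 :=
  let ⟨c, hc⟩ := h.semi (X := ι u) fun g hg =>
    let ⟨c, hc⟩ := hu g hg
    ⟨c, by rw [← ι_wa h.cl (h.sp g hg), hc, map_smul]⟩
  (scal h.cl hc).1

theorem no_plane [IsAlgClosed k] {a b : W} (ha : a ≠ 0)
    (h1 : ∀ g ∈ P, ∃ c d : k, wa ι g a = c • a + d • b)
    (h2 : ∀ g ∈ P, ∃ c d : k, wa ι g b = c • a + d • b) : ∃ c : k, b = c • a := by
  obtain ⟨c, hc⟩ := h.semi (X := ι a * ι b - ι b * ι a) fun g hg => by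
    obtain ⟨c, d, e⟩ := h1 g hg
    obtain ⟨c', d', e'⟩ := h2 g hg
    refine ⟨c * d' - d * c', ?_⟩
    have : g.1 * (ι a * ι b - ι b * ι a) * g⁻¹.1 =
        ι (wa ι g a) * ι (wa ι g b) - ι (wa ι g b) * ι (wa ι g a) := by
      simp only [ι_wa h.cl (h.sp g hg), nc k V]
    rw [this, e, e']
    simp only [map_add, map_smul, nc k V]
    module
  refine dep_of_scal h.cl (c := (c + Orth.B Q a b) / 2) ha ?_
  have h2 := h.cl.two
  refine smul_right_injective _ h2 ?_
  simp only [smul_smul, mul_div_cancel₀ _ h2]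
  linear_combination (norm := module) hc + anti' h.cl a b

theorem irrW [IsAlgClosed k] (U : Submodule k W) (hU : ∀ g ∈ P, ∀ w ∈ U, wa ι g w ∈ U) :
    U = ⊥ ∨ U = ⊤ := by
  have key : ∀ U : Submodule k W, (∀ g ∈ P, ∀ w ∈ U, wa ι g w ∈ U) → finrank k U ≤ 2 → U = ⊥ := by
    intro U hU hd
    by_contra hne
    obtain ⟨a, haU, ha⟩ := (Submodule.ne_bot_iff U).1 hne
    refine ha (h.no_line fun g hg => ?_)
    by_contra! hh
    have hb := hU g hg a haU
    set b := wa ι g a
    have hs : ∀ w ∈ U, ∃ c d : k, w = c • a + d • b := fun w hw => by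
      have hli : LinearIndependent k ![a, b] :=
        (LinearIndependent.pair_iff' ha).2 fun c e => hh c e.symm
      have : Submodule.span k {a, b} = U := Submodule.eq_of_le_of_finrank_le
        (Submodule.span_le.2 (by rintro x (rfl | rfl) <;> assumption)) (by
          have := finrank_span_eq_card hli
          rw [Matrix.range_cons_cons_empty] at this
          simpa [this] using hd)
      obtain ⟨c, d, e⟩ := Submodule.mem_span_pair.1 (this ▸ hw)
      exact ⟨c, d, e.symm⟩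
    obtain ⟨c, hc⟩ := h.no_plane ha (fun g hg => hs _ (hU g hg a haU)) fun g hg => hs _ (hU g hg b hb)
    exact hh c hc
  by_cases hd : finrank k U ≤ 2
  · exact Or.inl (key U hU hd)
  · right
    have := h.cl.nd.finrank_perp U
    have e := key (Orth.perp Q U) (fun g hg w hw => Orth.mem_perp.2 fun u hu => by
      have := Orth.mem_perp.1 hw _ (hU _ (P.inv_mem hg) u hu)
      rw [← b_wa h.cl (h.sp g hg), wa_iu h.cl (h.sp g hg)] at this
      exact this) (by have := h.cl.dim; omega)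
    rw [← h.cl.nd.perp_perp U, e, Orth.perp_bot]

theorem irrWX [IsAlgClosed k] {X : Set (End k V)ˣ} (hX : ∀ x ∈ X, x ∈ P)
    (hc : ∀ g ∈ P, ∀ x ∈ X, g * x * g⁻¹ ∈ X) {x : (End k V)ˣ} (hx : x ∈ X) (h1 : x ≠ 1) (h2 : x ≠ -1)
    (U : Submodule k W) (hU : ∀ g ∈ X, ∀ w ∈ U, wa ι g w ∈ U) : U = ⊥ ∨ U = ⊤ :=
  h.irrW U (h.ind hX hc hx h1 h2 (fun g => ∀ w ∈ U, wa ι g w ∈ U)
    (fun w hw => by rwa [wa_one h.cl])
    (fun w hw => by rwa [wa_neg h.cl (SpU B).one_mem, wa_one h.cl])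
    (fun a ha b hb h1 h2 w hw => by
      rw [wa_mul h.cl (h.sp a ha) (h.sp b hb)]; exact h1 _ (h2 w hw)) hU)

end St

section Cl

variable (h : Cl B Q ι)
include h

theorem T_of_comm {g : (End k V)ˣ} (hg : IsSp B g) {m : W} (hm : m ≠ 0) (e : wa ι g m = m) :
    ∃ s c : k, T g = s • 1 + c • ι m := by
  obtain ⟨s, m', e'⟩ := exists_T h hg
  have := T_comm_of ((wa_eq h hg).1 e).symm
  rw [e'] at this
  simp only [nc k V] at this
  obtain ⟨c, rfl⟩ := comm_ι h hm (add_left_cancel this)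
  exact ⟨s, c, by rw [e', map_smul]⟩

theorem partner {m : W} (hm : m ≠ 0) (hq : Q m = 0) : ∃ c, Q c = 0 ∧ Orth.B Q m c = 1 :=
  let ⟨y, hy⟩ := h.nd.exists_B_ne hm
  let ⟨c, _, hc⟩ := Orth.exists_partner (H := ⊤) trivial hq ⟨y, trivial, hy⟩
  ⟨c, hc⟩

theorem L_range {m : W} (hm : m ≠ 0) (hq : Q m = 0) {v : V} (e : ι m v = 0) : ∃ u, v = ι m u :=
  let ⟨c, _, hc⟩ := partner h hm hq
  ⟨ι c v, by rw [h.anti, hc, e]; simp⟩

theorem L_ti {m : W} (hm : m ≠ 0) (hq : Q m = 0) {v w : V} (e : ι m v = 0) (e' : ι m w = 0) :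
    B v w = 0 := by
  obtain ⟨u, rfl⟩ := L_range h hm hq e
  rw [h.adj, e', map_zero]

theorem finrank_L {m : W} (hm : m ≠ 0) (hq : Q m = 0) : finrank k (LinearMap.ker (ι m)) = 2 := by
  have e : LinearMap.range (ι m) = LinearMap.ker (ι m) := le_antisymm
    (by rintro _ ⟨u, rfl⟩; simp [h.sq, hq])
    fun v hv => let ⟨u, hu⟩ := L_range h hm hq hv; ⟨u, hu.symm⟩
  have := LinearMap.finrank_range_add_finrank_ker (ι m)
  rw [e, h.dimV] at this
  omega

theorem B_ι_self (m : W) (v : V) : B (ι m v) v = 0 := by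
  have := h.adj m v v
  rw [h.symp.skew v] at this
  exact (mul_eq_zero.1 (show 2 * B (ι m v) v = 0 by linear_combination this)).resolve_left h.two

theorem finrank_eig {u : W} (hu : Q u = 1) : finrank k (LinearMap.ker (ι u - 1)) = 2 := by
  have h2 := h.two
  have hp : LinearMap.IsProj (LinearMap.ker (ι u - 1)) ((2 : k)⁻¹ • (1 + ι u)) := ⟨fun x => by
    simp [h.sq, hu, add_comm], fun x hx => by
    have : ι u x = x := by simpa [sub_eq_zero] using hx
    simp only [LinearMap.smul_apply, LinearMap.add_apply, End.one_apply, this]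
    rw [← two_smul k, smul_smul, inv_mul_cancel₀ h2, one_smul]⟩
  have e := hp.trace
  have hle : finrank k (LinearMap.ker (ι u - 1)) ≤ 4 := h.dimV ▸ Submodule.finrank_le _
  simp only [map_smul, map_add, h.tr, LinearMap.trace_one, h.dimV, smul_eq_mul] at e
  generalize finrank k (LinearMap.ker (ι u - 1)) = n at *
  field_simp at e
  interval_cases n <;> first | rfl | (exfalso; apply four_ne h; push_cast at e; grind)

end Cl

theorem span2 {X : Type*} [AddCommGroup X] [Module k X] {U : Submodule k X} (hd : finrank k U = 2)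
    {a b : X} (haU : a ∈ U) (hb : b ∈ U) (ha : a ≠ 0) (hh : ∀ c : k, b ≠ c • a) {w : X} (hw : w ∈ U) :
    ∃ c d : k, w = c • a + d • b := by
  have : FiniteDimensional k U := FiniteDimensional.of_finrank_pos (by omega)
  have hli : LinearIndependent k ![a, b] :=
    (LinearIndependent.pair_iff' ha).2 fun c e => hh c e.symm
  have : Submodule.span k {a, b} = U := Submodule.eq_of_le_of_finrank_le
    (Submodule.span_le.2 (by rintro x (rfl | rfl) <;> assumption)) (by
      have := finrank_span_eq_card hli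
      rw [Matrix.range_cons_cons_empty] at this
      simp [this, hd])
  obtain ⟨c, d, e⟩ := Submodule.mem_span_pair.1 (this ▸ hw)
  exact ⟨c, d, e.symm⟩

theorem basis2 {X : Type*} [AddCommGroup X] [Module k X] {U : Submodule k X} (hd : finrank k U = 2)
    {a : X} (ha : a ≠ 0) : ∃ b ∈ U, ∀ c : k, b ≠ c • a := by
  obtain ⟨b, hb, hb'⟩ := Orth.exists_mem_notMem_of_finrank_lt (H := U) (X := k ∙ a) (by
    have := Orth.finrank_span_singleton_le (F := k) a; omega)
  exact ⟨b, hb, fun c e => hb' (e ▸ Submodule.smul_mem _ _ (Submodule.mem_span_singleton_self a))⟩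

theorem ne2 {X : Type*} [AddCommGroup X] [Module k X] {U : Submodule k X} (hd : finrank k U = 2) :
    ∃ a ∈ U, a ≠ 0 := (Submodule.ne_bot_iff U).1 fun e => by subst e; simp at hd

theorem indep2 {X : Type*} [AddCommGroup X] [Module k X] {a b : X} (ha : a ≠ 0)
    (hh : ∀ c : k, b ≠ c • a) {c d c' d' : k} (e : c • a + d • b = c' • a + d' • b) :
    c = c' ∧ d = d' := by
  have hd : d = d' := by
    by_contra hne
    have := sub_ne_zero.2 hne
    refine hh ((c' - c) / (d - d')) (smul_right_injective X this ?_)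
    simp only [smul_smul, mul_div_cancel₀ _ this]
    linear_combination (norm := module) e
  subst hd
  exact ⟨smul_left_injective k ha (add_right_cancel e), rfl⟩

end Cfsg.Agent.H6.S4
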