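import Cfsg.Agent.H6.S4.A1
import Cfsg.Agent.H8.DicksonCore

/-! Dickson's theorem for finite subgroups of `SL_2` over an algebraically closed field. -/

set_option autoImplicit false
set_option linter.unusedSimpArgs false
set_option linter.unusedSectionVars false
set_option linter.unusedVariables false

namespace Cfsg.Agent.H6.S4

open MulAction Matrix OnePoint Cfsg.Agent.H8
open scoped MatrixGroups
open Matrix.ProjGenLinGroup (mk)

section
variable {F : Type*} [Field F]

theorem eq_PS_or_PG' {k : Subfield F} [Finite k] {H : Subgroup PGL(2, F)} (h1 : PS k ≤ H)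
    (h2 : H ≤ PG k) : H = PS k ∨ H = PG k := by
  by_cases h : H ≤ PS k
  · exact Or.inl (le_antisymm h h1)
  right
  refine le_antisymm h2 ?_
  obtain ⟨a, haH, ha⟩ := SetLike.not_le_iff_exists.mp h
  obtain ⟨a, rfl⟩ := h2 haH
  rintro _ ⟨b, rfl⟩
  by_cases hb : b ∈ Lsub k
  · exact h1 ⟨b, hb, rfl⟩
  · have ha' : a⁻¹ ∉ Lsub k := fun hc => ha ⟨a, by simpa using (Lsub k).inv_mem hc, rfl⟩
    have := H.mul_mem haH (h1 ⟨_, mul_mem_Lsub_of_not ha' hb, rfl⟩)
    simpa using this

theorem wild_std' (p : ℕ) [Fact p.Prime] [CharP F p] (H : Subgroup PGL(2, F)) (O : Finset (OnePoint F)) {c : PGL(2, F)}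
    (hc : c ∈ H) {Q : ℕ} (hQ : 3 ≤ Q) (hcard : O.card = Q + 1) (h0 : ∞ ∈ O)
    (h1 : ((0 : F) : OnePoint F) ∈ O) (h2 : ((1 : F) : OnePoint F) ∈ O)
    (hinv : ∀ g ∈ H, ∀ z ∈ O, g • z ∈ O) (htr : ∃ g ∈ H, g • (∞ : OnePoint F) = (0 : F))
    (hu : ∀ z ∈ O, z ≠ ∞ → ∃ u ∈ H, IsUnip (∞ : OnePoint F) u ∧ u • ((0 : F) : OnePoint F) = z)
    (hcx : c • (∞ : OnePoint F) = ∞) (hcy : c • ((0 : F) : OnePoint F) = (0 : F))
    (hdvd : orderOf c ∣ Q - 1) (hle : Q - 1 ≤ 2 * orderOf c) :
    ∃ k : Subfield F, Nat.card k = Q ∧ (H = PS k ∨ H = PG k) := by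
  classical
  have hT : ∀ s : F, (s : OnePoint F) ∈ O → transl s ∈ H := by
    intro s hs
    obtain ⟨u, huH, hu1, hu2⟩ := hu _ hs (coe_ne_infty _)
    obtain ⟨t, rfl⟩ := exists_transl_of_isUnip hu1
    rw [transl_smul, zero_add, coe_eq_coe] at hu2
    rwa [← hu2]
  let A : AddSubgroup F :=
    { carrier := {s | (s : OnePoint F) ∈ O}
      add_mem' := fun {a b} ha hb => by
        have := hinv _ (hT b hb) _ ha
        rwa [transl_smul] at this
      zero_mem' := h1
      neg_mem' := fun {a} ha => by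
        have := hinv _ (H.inv_mem (hT a ha)) _ h1
        rwa [show (transl a)⁻¹ • ((0 : F) : OnePoint F) = ((-a : F) : OnePoint F) by
          rw [inv_smul_eq_iff, transl_smul, neg_add_cancel]] at this }
  have hA : ∀ s : F, s ∈ A ↔ (s : OnePoint F) ∈ O := fun s => Iff.rfl
  have hAcard : Nat.card A = Q := by
    have e : (O.erase ∞ : Set (OnePoint F)) = (fun s : F => (s : OnePoint F)) '' (A : Set F) := by
      ext z
      cases z with
      | infty => simp
      | coe s => simp [hA]
    have := congrArg Set.ncard e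
    rw [Set.ncard_coe_finset, Finset.card_erase_of_mem h0, hcard,
      Set.ncard_image_of_injective _ coe_injective] at this
    exact this.symm
  have hAfin : Finite A := Nat.finite_of_card_ne_zero (by omega)
  obtain ⟨s, hs⟩ : ∃ s : ℕ, Q = p ^ s := by
    have : IsPGroup p (Multiplicative A) := fun a => ⟨1, by
      rw [pow_one]
      exact Multiplicative.toAdd.injective (Subtype.ext (by simp))⟩
    obtain ⟨s, hs⟩ := IsPGroup.iff_card.1 this
    exact ⟨s, by rw [← hs, ← hAcard]; rfl⟩
  have hs0 : 0 < s := by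
    rcases Nat.eq_zero_or_pos s with rfl | h
    · rw [pow_zero] at hs; omega
    · exact h
  obtain ⟨k, hk, hkfin, hkcard⟩ := exists_subfield_pow (F := F) p s hs0
  rw [← hs] at hk hkcard
  -- the torus element
  obtain ⟨g, rfl⟩ := ProjGenLinGroup.mk_surjective c
  have g10 := smul_infty_eq_infty.mp hcx
  have g01 : g 0 1 = 0 := by simpa using smul_coe_eq_coe.mp hcy
  have hd := g.det_ne_zero
  rw [det_fin_two, g10, mul_zero, sub_zero] at hd
  obtain ⟨g00, g11⟩ := mul_ne_zero_iff.mp hd
  set l : F := g 0 0 / g 1 1 with hl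
  have hl0 : l ≠ 0 := div_ne_zero g00 g11
  have hpow : ∀ (i : ℕ) (z : F), (mk g) ^ i • (z : OnePoint F) = ((l ^ i * z : F) : OnePoint F) := by
    intro i z
    induction i with
    | zero => simp
    | succ i ih =>
      rw [pow_succ', mul_smul, ih, smul_coe_eq_coe]
      simp only [Algebra.algebraMap_self, RingHom.id_apply, g10, g01]
      have : g 0 0 = l * g 1 1 := by rw [hl, div_mul_cancel₀ _ g11]
      rw [this]
      ring
  have hord : orderOf (Units.mk0 l hl0) = orderOf (mk g) := by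
    rw [orderOf_eq_orderOf_iff]
    intro i
    rw [Units.ext_iff, Units.val_pow_eq_pow_val, Units.val_mk0, Units.val_one]
    constructor
    · intro h
      apply eq_one_of_fix_std
      · exact (stabilizer PGL(2, F) (∞ : OnePoint F)).pow_mem hcx i
      · rw [hpow, mul_zero]
      · rw [hpow, h, mul_one]
    · intro h
      have := hpow i 1
      rw [h, one_smul, coe_eq_coe, mul_one] at this
      exact this.symm
  have hlk : l ∈ k := by
    rw [hk]
    have : (Units.mk0 l hl0) ^ (Q - 1) = 1 := orderOf_dvd_iff_pow_eq_one.mp (hord ▸ hdvd)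
    have h3 : l ^ (Q - 1) = 1 := by simpa using congrArg Units.val this
    rw [show Q = (Q - 1) + 1 by omega, pow_succ, h3, one_mul]
  have hfo : IsOfFinOrder (Units.mk0 l hl0) := by
    rw [← orderOf_pos_iff, hord]; omega
  have : Finite (Subgroup.zpowers (Units.mk0 l hl0)) := hfo.finite_zpowers
  have : Finite (A ⊓ k.toAddSubgroup : AddSubgroup F) :=
    Finite.of_injective _ (AddSubgroup.inclusion_injective inf_le_left)
  have hAk : A ≤ k.toAddSubgroup := by
    have hge : orderOf (mk g) + 1 ≤ Nat.card (A ⊓ k.toAddSubgroup : AddSubgroup F) := by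
      rw [← hord, ← Nat.card_zpowers, ← Finite.card_option]
      let f : Option (Subgroup.zpowers (Units.mk0 l hl0)) → (A ⊓ k.toAddSubgroup : AddSubgroup F) :=
        fun o => o.elim 0 (fun u => ⟨((u : Fˣ) : F), by
          obtain ⟨u, hu⟩ := u
          obtain ⟨i, rfl⟩ := hfo.mem_powers_iff_mem_zpowers.mpr hu
          refine ⟨?_, by simpa using k.pow_mem hlk i⟩
          have := hinv _ (H.pow_mem hc i) _ h2
          rw [hpow, mul_one, ← hA] at this
          simpa using this⟩)
      refine Nat.card_le_card_of_injective f ?_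
      rintro (_ | a) (_ | b) hab
      · rfl
      · exact absurd (congrArg Subtype.val hab).symm (Units.ne_zero _)
      · exact absurd (congrArg Subtype.val hab) (Units.ne_zero _)
      · congr 1
        exact Subtype.ext (Units.ext (congrArg Subtype.val hab))
    have hdv : Nat.card (A ⊓ k.toAddSubgroup : AddSubgroup F) ∣ Nat.card A :=
      AddSubgroup.card_dvd_of_le inf_le_left
    obtain ⟨t, ht⟩ := hdv
    have ht1 : t = 1 := by
      rcases t with _ | _ | t
      · omega
      · rfl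
      · exfalso
        rw [hAcard, mul_add, mul_add] at ht
        omega
    rw [ht1, mul_one] at ht
    have := AddSubgroup.eq_of_le_of_card_ge (inf_le_left : A ⊓ k.toAddSubgroup ≤ A) ht.le
    rw [← this]
    exact inf_le_right
  have : Finite k.toAddSubgroup := hkfin
  have hAk' : A = k.toAddSubgroup := AddSubgroup.eq_of_le_of_card_ge hAk (hAcard ▸ hkcard)
  have hmem : ∀ s : F, s ∈ k ↔ (s : OnePoint F) ∈ O := by
    intro s; rw [← hA, hAk']; rfl
  have hrat : ∀ z ∈ O, RatOver k z := by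
    intro z hz
    cases z with
    | infty => exact ratOver_infty k
    | coe s => exact ratOver_coe.mpr ((hmem s).2 hz)
  have hHPG : H ≤ PG k := fun γ hγ =>
    mem_PG_of_three (hrat _ (hinv _ hγ _ h0)) (hrat _ (hinv _ hγ _ h1)) (hrat _ (hinv _ hγ _ h2))
  refine ⟨k, by rw [← hAcard, hAk']; rfl, eq_PS_or_PG' (PS_le_of_transl
    (fun s hs => hT s ((hmem s).1 hs)) ?_) hHPG⟩
  intro s hs
  obtain ⟨h, hhH, hh⟩ := htr
  have a1 : IsUnip ((0 : F) : OnePoint F) (transl' s) := by
    have := (isUnip_transl s).conj (mk (mat 0 1 1 0 (by simp)))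
    convert this using 1
    · symm; rw [smul_infty_eq_coe]; simp
    · rw [eq_mul_inv_iff_mul_eq, transl, transl', ← map_mul, ← map_mul]
      congr 1
      ext i j
      fin_cases i <;> fin_cases j <;> simp [Matrix.mul_apply, Fin.sum_univ_two]
  have a2 := a1.conj h⁻¹
  rw [← hh, inv_smul_smul] at a2
  obtain ⟨t, ht⟩ := exists_transl_of_isUnip a2
  have a3 : transl t ∈ PG k := by
    rw [← ht]
    exact (PG k).mul_mem ((PG k).mul_mem ((PG k).inv_mem (hHPG hhH)) (PS_le_PG k (transl'_mem_PS hs)))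
      ((PG k).inv_mem ((PG k).inv_mem (hHPG hhH)))
  have a4 := (ratOver_coe.mpr k.zero_mem).smul a3
  rw [transl_smul, zero_add, ratOver_coe] at a4
  have a5 := H.mul_mem (H.mul_mem hhH (hT t ((hmem t).1 a4))) (H.inv_mem hhH)
  rw [← ht] at a5
  simpa [mul_assoc] using a5

theorem wildK (p : ℕ) [Fact p.Prime] [CharP F p] (H : Subgroup PGL(2, F)) {O : Finset (OnePoint F)}
    {x y : OnePoint F} {c : H} {Q : ℕ} (h : WildData H O x y c Q) :
    ∃ (k : Subfield F) (g : PGL(2, F)), Nat.card k = Q ∧ (H8.cj g H = PS k ∨ H8.cj g H = PG k) := by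
  classical
  have hQ := h.three_le
  obtain ⟨w, hwO, hwx, hwy⟩ : ∃ w ∈ O, w ≠ x ∧ w ≠ y := by
    have : (((O.erase x).erase y)).Nonempty := by
      rw [← Finset.card_pos, Finset.card_erase_of_mem (Finset.mem_erase.mpr ⟨h.ne, h.y_mem⟩),
        Finset.card_erase_of_mem h.x_mem, h.card_eq]
      omega
    obtain ⟨w, hw⟩ := this
    simp only [Finset.mem_erase] at hw
    exact ⟨w, hw.2.2, hw.2.1, hw.1⟩
  obtain ⟨g, g1, g2, g3⟩ := exists_smul_three (x := x) (y := y) (w := w) h.ne.symm hwx.symm hwy.symm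
  let f : OnePoint F → OnePoint F := fun z => g⁻¹ • z
  have hf : Function.Injective f := MulAction.injective g⁻¹
  have hfg : ∀ z, f (g • z) = z := fun z => by simp only [f, inv_smul_smul]
  have hfs : ∀ (γ : PGL(2, F)) z, f (γ • z) = (g⁻¹ * γ * g) • f z := by
    intro γ z
    simp only [f, mul_smul, smul_inv_smul]
  let O' : Finset (OnePoint F) := O.preimage f hf.injOn
  have hO' : ∀ z, z ∈ O' ↔ f z ∈ O := fun z => Finset.mem_preimage
  have ho : orderOf (g * (c : PGL(2, F)) * g⁻¹) = orderOf c :=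
    ((MulAut.conj g).orderOf_eq (c : PGL(2, F))).trans (Subgroup.orderOf_coe c)
  obtain ⟨k, hk, hH⟩ := wild_std' p (H8.cj g H) O' (c := g * c * g⁻¹) (Q := Q)
    (mem_cj.mpr (by simp [mul_assoc])) hQ (by
      rw [← h.card_eq]
      apply Finset.card_bij (fun z _ => f z) (fun z hz => (hO' z).1 hz) (fun a _ b _ e => hf e)
      intro z hz
      exact ⟨g • z, (hO' _).2 (by rwa [hfg]), hfg z⟩)
    (by rw [hO', ← g1, hfg]; exact h.x_mem) (by rw [hO', ← g2, hfg]; exact h.y_mem)
    (by rw [hO', ← g3, hfg]; exact hwO)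
    (fun γ hγ z hz => by
      rw [hO', hfs]
      exact h.inv ⟨_, mem_cj.mp hγ⟩ _ ((hO' z).1 hz))
    (by
      obtain ⟨γ, hγ⟩ := h.trans _ h.y_mem
      refine ⟨g * γ * g⁻¹, mem_cj.mpr (by simp [mul_assoc]), ?_⟩
      rw [← g1, ← g2, conj_smul_smul]
      congr 1)
    (fun z hz hne => by
      obtain ⟨u, hu, huy⟩ := h.unip _ ((hO' z).1 hz) (fun e => hne (hf (by rw [e, ← g1, hfg])))
      refine ⟨g * u * g⁻¹, mem_cj.mpr (by simp [mul_assoc]), ?_, ?_⟩
      · rw [← g1]
        apply IsUnip.conj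
        refine ⟨hu.1, fun v hv hv' => ?_⟩
        rw [hu.2 v hv hv']; rfl
      · rw [← g2, conj_smul_smul]
        apply hf
        rw [hfg]
        exact huy)
    (by rw [← g1, conj_smul_smul]; congr 1; exact h.cx)
    (by rw [← g2, conj_smul_smul]; congr 1; exact h.cy)
    (ho ▸ h.dvd) (ho ▸ h.le)
  exact ⟨k, g, hk, hH⟩

end

end Cfsg.Agent.H6.S4
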