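import Cfsg.Agent.H6.S4.A2

/-! Dickson's theorem, matrix form. -/

set_option autoImplicit false
set_option linter.unusedSimpArgs false
set_option linter.unusedSectionVars false
set_option linter.unusedVariables false

namespace Cfsg.Agent.H6.S4

open MulAction Matrix OnePoint Cfsg.Agent.H8 Module
open scoped MatrixGroups
open Matrix.ProjGenLinGroup (mk)

variable {k : Type*} [Field k]

abbrev M2 (k : Type*) := Matrix (Fin 2) (Fin 2) k

/-- allowed traces in the exceptional groups -/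
def Ex (κ : ℕ) (t : k) : Prop :=
  t = 0 ∨ t ^ 2 = 1 ∨ (κ = 4 ∧ t ^ 2 = 2) ∨ (κ = 5 ∧ t ^ 4 - 3 * t ^ 2 + 1 = 0)

theorem sq_one {c : k} (h : c ^ 2 = 1) : c = 1 ∨ c = -1 := mul_self_eq_one_iff.1 (by rw [← sq, h])

theorem ch2 {M : M2 k} (h : M.det = 1) : M * M = M.trace • M - 1 := by
  rw [det_fin_two] at h
  ext i j
  fin_cases i <;> fin_cases j <;> simp [mul_apply, trace, Fin.sum_univ_two] <;> grind

theorem pm_of_smul {M : M2 k} (h : M.det = 1) {a b : k} (e : a • M = b • 1) :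
    M = 1 ∨ M = -1 ∨ a = 0 := by
  by_cases ha : a = 0
  · exact Or.inr (Or.inr ha)
  have : M = (b / a) • 1 := smul_right_injective _ ha (by simp only [smul_smul, mul_div_cancel₀ _ ha, e])
  rw [this, det_smul, det_one, Fintype.card_fin, mul_one] at h
  rcases sq_one h with e | e <;> simp [this, e]

theorem pow_scal {M : M2 k} (h : M.det = 1) {c : k} {n : ℕ} (e : M ^ n = c • 1) :
    M = 1 ∨ M = -1 ∨ ((n = 2 → M.trace = 0) ∧ (n = 3 → M.trace ^ 2 = 1) ∧
      (n = 4 → M.trace = 0 ∨ M.trace ^ 2 = 2) ∧ (n = 5 → M.trace ^ 4 - 3 * M.trace ^ 2 + 1 = 0)) := by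
  by_cases h1 : M = 1
  · exact Or.inl h1
  by_cases h2 : M = -1
  · exact Or.inr (Or.inl h2)
  have key : ∀ {a b : k}, a • M = b • 1 → a = 0 := fun e =>
    ((pm_of_smul h e).resolve_left h1).resolve_left h2
  have c2 := ch2 h
  set t := M.trace
  have step : ∀ {n : ℕ} {a b : k}, M ^ n = a • M - b • 1 → M ^ (n + 1) = (a * t - b) • M - a • 1 :=
    fun e => by rw [pow_succ, e, sub_mul, smul_mul_assoc, c2, smul_mul_assoc, one_mul]; module
  have p2 : M ^ 2 = t • M - (1 : k) • 1 := by rw [sq, c2, one_smul]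
  have p3 := step p2
  have p4 := step p3
  have p5 := step p4
  refine Or.inr (Or.inr ⟨?_, ?_, ?_, ?_⟩) <;> rintro rfl
  · exact key (b := c + 1) (by linear_combination (norm := module) p2.symm.trans e)
  · have := key (b := c + t) (a := t * t - 1) (by linear_combination (norm := module) p3.symm.trans e)
    linear_combination this
  · have := key (b := c + (t * t - 1)) (a := (t * t - 1) * t - t) (by linear_combination (norm := module) p4.symm.trans e)
    exact (mul_eq_zero.1 (show t * (t ^ 2 - 2) = 0 by linear_combination this)).imp_right sub_eq_zero.1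
  · have := key (b := c + ((t * t - 1) * t - t)) (a := ((t * t - 1) * t - t) * t - (t * t - 1))
      (by linear_combination (norm := module) p5.symm.trans e)
    linear_combination this

theorem scal_of_mk {g : GL (Fin 2) k} (h : mk g = 1) : ∃ c : k, (g : M2 k) = c • 1 := by
  obtain ⟨a, b, c⟩ := mk_eq_one_iff.1 h
  exact ⟨g 0 0, by ext i j; fin_cases i <;> fin_cases j <;> simp [a, b, c]⟩

theorem mk_of_scal {g : GL (Fin 2) k} {c : k} (h : (g : M2 k) = c • 1) : mk g = 1 :=
  mk_eq_one_iff.2 (by simp [h])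

/-- a vector on a point of the projective line -/
def vec (x : OnePoint k) : Fin 2 → k := x.rec ![1, 0] fun z => ![z, 1]

theorem vec_infty : vec (∞ : OnePoint k) = ![1, 0] := rfl

theorem vec_coe (z : k) : vec (z : OnePoint k) = ![z, 1] := rfl

theorem vec_ne (x : OnePoint k) : vec x ≠ 0 := by
  cases x with
  | infty => exact fun e => by simpa [vec_infty, vec_coe] using congrFun e 0
  | coe z => exact fun e => by simpa [vec_infty, vec_coe] using congrFun e 1

theorem vec_inj {x y : OnePoint k} {c : k} (e : vec y = c • vec x) : x = y := by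
  have e0 := congrFun e 0
  have e1 := congrFun e 1
  cases x <;> cases y <;> simp [vec_infty, vec_coe] at e0 e1 ⊢
  · rw [← e1, zero_mul] at e0; exact one_ne_zero e0
  · rw [e0, ← e1, one_mul]

theorem vec_smul {g : GL (Fin 2) k} {x y : OnePoint k} (h : mk g • x = y) :
    ∃ c : k, (g : M2 k) *ᵥ vec x = c • vec y := by
  cases x with
  | infty =>
    cases y with
    | infty =>
      rw [smul_infty_eq_infty] at h
      exact ⟨g 0 0, by ext i; fin_cases i <;> simp [vec_infty, vec_coe, mulVec, dotProduct, h]⟩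
    | coe w =>
      rw [smul_infty_eq_coe] at h
      exact ⟨g 1 0, by ext i; fin_cases i <;> simp_all [vec_infty, vec_coe, mulVec, dotProduct, mul_comm]⟩
  | coe z =>
    cases y with
    | infty =>
      rw [smul_coe_eq_infty] at h
      exact ⟨g 0 0 * z + g 0 1, by ext i; fin_cases i <;> simp_all [vec_infty, vec_coe, mulVec, dotProduct]⟩
    | coe w =>
      rw [smul_coe_eq_coe] at h
      exact ⟨g 1 0 * z + g 1 1, by ext i; fin_cases i <;> simp_all [vec_infty, vec_coe, mulVec, dotProduct, mul_comm]⟩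

/-- the wild case of Dickson's theorem -/
structure Wild {D : Type*} [Group D] (φ : D →* GL (Fin 2) k) (k0 : Subfield k) (R : Subring (M2 k))
    (N N' : M2 k) : Prop where
  fin : Finite k0
  three : 3 ≤ Nat.card k0
  dvd : Nat.card k0 ∣ Nat.card D
  smul : ∀ c ∈ k0, ∀ M ∈ R, c • M ∈ R
  tr : ∀ M ∈ R, M.trace ∈ k0
  det : ∀ M ∈ R, M.det ∈ k0
  ex : ∀ M ∈ R, M.det = 1 → ∃ d, (φ d : M2 k) = M ∨ (φ d : M2 k) = -M
  mem : ∀ d, ∃ c : k, c ≠ 0 ∧ c • (φ d : M2 k) ∈ R
  ps : (∀ d, (φ d : M2 k) ∈ R) ∨ ∀ M ∈ R, M.det ≠ 0 → ∃ d, ∃ c : k, (φ d : M2 k) = c • M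
  hN : N ∈ R
  hN' : N' ∈ R
  sq : N * N = 0
  sq' : N' * N' = 0
  ac : N * N' + N' * N = 1

theorem wild_of {D : Type*} [Group D] [Finite D] (φ : D →* GL (Fin 2) k)
    (hdet : ∀ d, (φ d : M2 k).det = 1) {k0 : Subfield k} {γ : PGL(2, k)} (h3 : 3 ≤ Nat.card k0)
    (h : H8.cj γ (mk.comp φ).range = PS k0 ∨ H8.cj γ (mk.comp φ).range = PG k0) :
    ∃ R N N', Wild φ k0 R N N' := by
  obtain ⟨g, rfl⟩ := ProjGenLinGroup.mk_surjective γ
  set A : M2 k := g.1
  set A' : M2 k := (g⁻¹ : GL (Fin 2) k).1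
  have e1 : A * A' = 1 := g.mul_inv
  have e2 : A' * A = 1 := g.inv_mul
  have e3 : ∀ X, A * (A' * X) = X := fun X => by rw [← mul_assoc, e1, one_mul]
  have e4 : ∀ X, A' * (A * X) = X := fun X => by rw [← mul_assoc, e2, one_mul]
  let R : Subring (M2 k) :=
    { carrier := {M | ∀ i j, (A * M * A') i j ∈ k0}
      mul_mem' := fun {a b} ha hb i j => by
        rw [show A * (a * b) * A' = (A * a * A') * (A * b * A') by simp only [mul_assoc, e4],
          mul_apply]
        exact k0.sum_mem fun l _ => k0.mul_mem (ha i l) (hb l j)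
      one_mem' := fun i j => by
        rw [mul_one, e1, one_apply]; split_ifs; exacts [k0.one_mem, k0.zero_mem]
      add_mem' := fun {a b} ha hb i j => by
        rw [mul_add, add_mul]; exact k0.add_mem (ha i j) (hb i j)
      zero_mem' := fun i j => by simp
      neg_mem' := fun {a} ha i j => by rw [mul_neg, neg_mul]; exact k0.neg_mem (ha i j) }
  have hR : ∀ M, M ∈ R ↔ ∀ i j, (A * M * A') i j ∈ k0 := fun M => Iff.rfl
  have hd : ∀ M : M2 k, (A * M * A').det = M.det := fun M => by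
    rw [det_mul, det_mul, mul_right_comm, ← det_mul, e1, det_one, one_mul]
  have hPS : PS k0 ≤ H8.cj (mk g) (mk.comp φ).range := by
    rcases h with h | h <;> rw [h]; exact PS_le_PG k0
  have hPG : H8.cj (mk g) (mk.comp φ).range ≤ PG k0 := by
    rcases h with h | h <;> rw [h]; exact PS_le_PG k0
  have real : ∀ (M : M2 k) (hM : M.det ≠ 0), mk (g * GeneralLinearGroup.mkOfDetNeZero M hM * g⁻¹) ∈
      H8.cj (mk g) (mk.comp φ).range → ∃ d, ∃ c : k, (φ d : M2 k) = c • M := fun M hM hm => by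
    obtain ⟨d, hd⟩ := mem_cj.1 hm
    simp only [map_mul, map_inv, mul_assoc, inv_mul_cancel, mul_one, inv_mul_cancel_left,
      MonoidHom.comp_apply] at hd
    obtain ⟨c, -, hc⟩ := exists_smul_of_mk_eq hd.symm
    exact ⟨d, c, by ext i j; simpa using hc i j⟩
  have inH : ∀ d, mk (g * φ d * g⁻¹) ∈ H8.cj (mk g) (mk.comp φ).range := fun d =>
    mem_cj.2 ⟨d, by simp [mul_assoc]⟩
  have hsm : ∀ c ∈ k0, ∀ M ∈ R, c • M ∈ R := fun c hc M hM i j => by
    rw [mul_smul_comm, smul_mul_assoc]; exact k0.mul_mem hc (hM i j)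
  refine ⟨R, A' * single 0 1 1 * A, A' * single 1 0 1 * A, Nat.finite_of_card_ne_zero (by omega), h3,
    ?_, hsm, fun M hM => ?_, fun M hM => ?_, fun M hM h1 => ?_, fun d => ?_, ?_, fun i j => ?_,
    fun i j => ?_, ?_, ?_, ?_⟩
  · have : translSub (H8.cj (mk g) (mk.comp φ).range) = k0.toAddSubgroup := by
      ext s
      exact ⟨fun hs => transl_mem_PG.1 (hPG hs), fun hs => hPS (transl_mem_PS hs)⟩
    have e := card_translSub_dvd (H8.cj (mk g) (mk.comp φ).range)
    rw [this, card_cj] at e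
    exact e.trans (Subgroup.card_range_dvd _)
  · rw [show M.trace = (A * M * A').trace by rw [trace_mul_comm, e4], trace_fin_two]
    exact k0.add_mem (hM 0 0) (hM 1 1)
  · rw [← hd, det_fin_two]
    exact k0.sub_mem (k0.mul_mem (hM 0 0) (hM 1 1)) (k0.mul_mem (hM 0 1) (hM 1 0))
  · obtain ⟨d, c, hc⟩ := real M (by simp [h1]) (hPS (mem_PS.2 ⟨_, rfl, hM, 1, k0.one_mem, by
      have := hd M
      rw [det_fin_two, h1] at this
      rw [mul_one]; exact this⟩))
    have := hdet d
    rw [hc, det_smul, h1, Fintype.card_fin, mul_one] at this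
    exact ⟨d, (sq_one this).imp (fun e => by simp [hc, e]) fun e => by simp [hc, e]⟩
  · obtain ⟨g1, e, hg1⟩ := mem_PG.1 (hPG (inH d))
    obtain ⟨c, hc0, hc⟩ := exists_smul_of_mk_eq e.symm
    refine ⟨c, hc0, fun i j => ?_⟩
    rw [mul_smul_comm, smul_mul_assoc]
    have := hg1 i j
    rwa [hc] at this
  · rcases h with h | h
    · refine Or.inl fun d => ?_
      obtain ⟨g1, e, hg1, c1, hc1, e1⟩ := mem_PS.1 (h ▸ inH d)
      obtain ⟨c, hc0, hc⟩ := exists_smul_of_mk_eq e.symm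
      have hm : c • (φ d : M2 k) ∈ R := fun i j => by
        rw [mul_smul_comm, smul_mul_assoc]
        have := hg1 i j
        rwa [hc] at this
      have : c * c = c1 * c1 := by
        have := hd (φ d)
        rw [hdet, det_fin_two] at this
        rw [← e1, hc, hc, hc, hc]
        simp only [Units.val_mul] at this ⊢
        linear_combination -(c * c) * this
      have hck : c ∈ k0 := by
        rcases mul_self_eq_mul_self_iff.1 this with e | e <;> rw [e]
        exacts [hc1, k0.neg_mem hc1]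
      simpa [smul_smul, hc0] using hsm _ (k0.inv_mem hck) _ hm
    · exact Or.inr fun M hM h1 => real M h1 (h ▸ mem_PG.2 ⟨_, rfl, hM⟩)
  · simp only [mul_assoc, e1, e3, mul_one, single_apply]; split_ifs; exacts [k0.one_mem, k0.zero_mem]
  · simp only [mul_assoc, e1, e3, mul_one, single_apply]; split_ifs; exacts [k0.one_mem, k0.zero_mem]
  · simp only [mul_assoc, e3]; rw [← mul_assoc (single _ _ _)]; simp
  · simp only [mul_assoc, e3]; rw [← mul_assoc (single _ _ _)]; simp
  · simp only [mul_assoc, e3]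
    rw [← mul_assoc (single _ _ _), ← mul_assoc (single 1 0 _), ← mul_add, ← add_mul, ← e2]
    congr 1
    rw [show single 0 1 1 * single 1 0 1 + single 1 0 1 * single 0 1 1 = (1 : M2 k) by
      ext i j; fin_cases i <;> fin_cases j <;> simp [mul_apply], one_mul]

theorem unip_pow {M : M2 k} (h : M.det = 1) (ht : M.trace = 2) (n : ℕ) :
    M ^ n = 1 + (n : k) • (M - 1) := by
  have c := ch2 h
  rw [ht] at c
  induction n with
  | zero => simp
  | succ n ih =>
    rw [pow_succ, ih, add_mul, one_mul, smul_mul_assoc, sub_mul, c, one_mul]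
    push_cast
    module

theorem dickM [IsAlgClosed k] (p : ℕ) [Fact p.Prime] [CharP k p] (h2 : (2 : k) ≠ 0)
    {D : Type*} [Group D] [Finite D] (φ : D →* GL (Fin 2) k) (hdet : ∀ d, (φ d : M2 k).det = 1) :
    (∃ v : Fin 2 → k, v ≠ 0 ∧ ∀ d, ∃ c : k, (φ d : M2 k) *ᵥ v = c • v) ∨
    (∃ v w : Fin 2 → k, v ≠ 0 ∧ (∀ c : k, w ≠ c • v) ∧ ∀ d,
      ((∃ c : k, (φ d : M2 k) *ᵥ v = c • v) ∧ ∃ c : k, (φ d : M2 k) *ᵥ w = c • w) ∨
      ((∃ c : k, (φ d : M2 k) *ᵥ v = c • w) ∧ ∃ c : k, (φ d : M2 k) *ᵥ w = c • v)) ∨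
    (2 ∣ Nat.card D ∧ (∃ d, (φ d : M2 k).trace = 0) ∧ ∃ κ,
      (∀ d, (φ d : M2 k) = 1 ∨ (φ d : M2 k) = -1 ∨ Ex κ (φ d : M2 k).trace) ∧
      ((∀ d, (φ d : M2 k).trace = 2 → (φ d : M2 k) = 1) ∨ (p = 3 ∧ κ = 5))) ∨
    ∃ k0 R N N', Wild φ k0 R N N' := by
  set H := (mk.comp φ).range
  have : Finite H := Finite.of_surjective _ (mk.comp φ).rangeRestrict_surjective
  have mem : ∀ d, mk (φ d) ∈ H := fun d => ⟨d, rfl⟩
  rcases (mobiusLike (K := k) p H).classify Fact.out with ⟨x, hx⟩ | ⟨x, y, hxy, -, hx⟩ |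
    ⟨κ, h1, h3, h4⟩ | ⟨O, x, y, c, Q, h⟩
  · exact Or.inl ⟨vec x, vec_ne x, fun d => vec_smul (hx ⟨_, mem d⟩)⟩
  · exact Or.inr (Or.inl ⟨vec x, vec y, vec_ne x, fun c e => hxy (vec_inj e), fun d =>
      (hx ⟨_, mem d⟩).imp (fun e => ⟨vec_smul e.1, vec_smul e.2⟩) fun e => ⟨vec_smul e.1, vec_smul e.2⟩⟩)
  · have key : ∀ d (n : ℕ), (⟨_, mem d⟩ : H) ^ n = 1 → ∃ c : k, (φ d : M2 k) ^ n = c • 1 := fun d n e => by
      have : mk (φ d ^ n) = 1 := by rw [map_pow]; exact congrArg Subtype.val e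
      simpa using scal_of_mk this
    have h2H : 2 ∣ Nat.card H := by rcases h1 with ⟨-, e⟩ | ⟨-, e⟩ | ⟨-, e⟩ <;> rw [e] <;> decide
    refine Or.inr (Or.inr (Or.inl ⟨h2H.trans (Subgroup.card_range_dvd _), ?_, κ, fun d => ?_,
      h4.imp_left fun h4 d ht => ?_⟩))
    · obtain ⟨⟨_, d, rfl⟩, hx⟩ := exists_prime_orderOf_dvd_card' 2 h2H
      obtain ⟨c, hc⟩ := key d 2 (orderOf_dvd_iff_pow_eq_one.1 (dvd_of_eq hx))
      have : mk (φ d) ≠ 1 := fun e => by
        exact absurd (hx.symm.trans (orderOf_eq_one_iff.2 (Subtype.ext e))) (by decide)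
      rcases pow_scal (hdet d) hc with e | e | e
      · exact absurd (mk_of_scal (c := 1) (by simp [e])) this
      · exact absurd (mk_of_scal (c := -1) (by simp [e])) this
      · exact ⟨d, e.1 rfl⟩
    · rcases h3 ⟨_, mem d⟩ with e | e | e <;> obtain ⟨c, hc⟩ := key d _ e <;>
        refine (pow_scal (hdet d) hc).imp_right (Or.imp_right fun e => ?_)
      · exact Or.inl (e.1 rfl)
      · exact Or.inr (Or.inl (e.2.1 rfl))
      · rcases h1 with ⟨rfl, -⟩ | ⟨rfl, -⟩ | ⟨rfl, -⟩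
        · exact Or.inr (Or.inl (e.2.1 rfl))
        · exact (e.2.2.1 rfl).imp_right fun e => Or.inr (Or.inl ⟨rfl, e⟩)
        · exact Or.inr (Or.inr (Or.inr ⟨rfl, e.2.2.2 rfl⟩))
    · have e1 : φ d ^ p = 1 := Units.ext (by
        rw [Units.val_pow_eq_pow_val, unip_pow (hdet d) ht]; simp)
      have e2 : (⟨_, mem d⟩ : H) ^ p = 1 := Subtype.ext (by
        simp only [SubmonoidClass.mk_pow, ← map_pow, e1, map_one, OneMemClass.coe_one])
      have e3 : (⟨_, mem d⟩ : H) = 1 := by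
        rcases (Nat.dvd_prime Fact.out).1 (orderOf_dvd_of_pow_eq_one e2) with e | e
        · exact orderOf_eq_one_iff.1 e
        · exact absurd (e ▸ orderOf_dvd_natCard _) h4
      obtain ⟨c, hc⟩ := scal_of_mk (congrArg Subtype.val e3)
      rw [hc, trace_smul, trace_one, Fintype.card_fin] at ht
      have : c = 1 := mul_right_cancel₀ h2 (by simpa using ht)
      rw [hc, this, one_smul]
  · obtain ⟨k0, γ, e, hh⟩ := wildK p H h
    obtain ⟨R, N, N', hw⟩ := wild_of φ hdet (e ▸ h.three_le) hh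
    exact Or.inr (Or.inr (Or.inr ⟨k0, R, N, N', hw⟩))

section Co

variable {X : Type*} [AddCommGroup X] [Module k X]

/-- coordinates in a plane -/
def co (v w : X) : (Fin 2 → k) →ₗ[k] X where
  toFun c := c 0 • v + c 1 • w
  map_add' a b := by simp only [Pi.add_apply]; module
  map_smul' a b := by simp only [Pi.smul_apply, smul_eq_mul, RingHom.id_apply]; module

theorem co_apply (v w : X) (c : Fin 2 → k) : co v w c = c 0 • v + c 1 • w := rfl

theorem co_inj {v w : X} (hv : v ≠ 0) (hw : ∀ c : k, w ≠ c • v) :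
    Function.Injective (co v w : (Fin 2 → k) → X) := fun a b e => by
  have := indep2 hv hw e
  ext i; fin_cases i; exacts [this.1, this.2]

theorem co0 (v w : X) : co v w ![(1 : k), 0] = v := by simp [co_apply]

theorem co1 (v w : X) : co v w ![(0 : k), 1] = w := by simp [co_apply]

/-- acting on the plane with determinant one -/
def Act (v w : X) (f : End k X) : Prop :=
  ∃ M : M2 k, M.det = 1 ∧ ∀ c, f (co v w c) = co v w (M *ᵥ c)

theorem act_of {v w : X} {f : End k X} {a b c d : k} (h1 : f v = a • v + b • w)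
    (h2 : f w = c • v + d • w) (h : a * d - c * b = 1) : Act v w f :=
  ⟨!![a, c; b, d], by simp [h], fun x => by
    simp [co_apply, h1, h2, mulVec, dotProduct, Fin.sum_univ_two]; module⟩

theorem Act.one (v w : X) : Act v w (1 : End k X) := ⟨1, det_one, fun c => by simp⟩

theorem Act.neg {v w : X} {f : End k X} (h : Act v w f) : Act v w (-f) :=
  let ⟨M, h1, h2⟩ := h
  ⟨-M, by simp [det_neg, h1], fun c => by rw [neg_mulVec, map_neg, ← h2]; rfl⟩

theorem Act.mul {v w : X} {f g : End k X} (h : Act v w f) (h' : Act v w g) : Act v w (f * g) :=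
  let ⟨M, h1, h2⟩ := h
  let ⟨M', h1', h2'⟩ := h'
  ⟨M * M', by simp [h1, h1'], fun c => by rw [← mulVec_mulVec, ← h2, ← h2']; rfl⟩

theorem exists_phi {D : Type*} [Group D] (ψ : D →* End k X) {v w : X} (hv : v ≠ 0)
    (hw : ∀ c : k, w ≠ c • v) (h : ∀ d, Act v w (ψ d)) :
    ∃ φ : D →* GL (Fin 2) k, (∀ d, (φ d : M2 k).det = 1) ∧
      ∀ d c, ψ d (co v w c) = co v w ((φ d : M2 k) *ᵥ c) := by
  choose f h1 h2 using h
  have ext : ∀ M M' : M2 k, (∀ c, co v w (M *ᵥ c) = co v w (M' *ᵥ c)) → M = M' := fun M M' e =>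
    toLin'.injective (LinearMap.ext fun c => co_inj hv hw (e c))
  let φ : D →* M2 k :=
    { toFun := f
      map_one' := ext _ _ fun c => by rw [← h2]; simp
      map_mul' := fun a b => ext _ _ fun c => by rw [← h2, ← mulVec_mulVec, ← h2, ← h2]; simp }
  exact ⟨φ.toHomUnits, h1, h2⟩

theorem inv_add {g : GL (Fin 2) k} (h : (g : M2 k).det = 1) :
    (g : M2 k) + (g⁻¹ : GL (Fin 2) k) = (g : M2 k).trace • 1 := by
  have : ((g⁻¹ : GL (Fin 2) k) : M2 k) = (g : M2 k).trace • 1 - g :=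
    Units.inv_eq_of_mul_eq_one_right (by rw [mul_sub, ch2 h]; simp)
  rw [this, add_sub_cancel]

end Co

end Cfsg.Agent.H6.S4
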