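import Cfsg.Agent.H6.S4.A3

/-! Quadratic and unipotent elements of `Sp_4`. -/

set_option autoImplicit false
set_option linter.unusedSimpArgs false
set_option linter.unusedSectionVars false
set_option linter.unusedVariables false

namespace Cfsg.Agent.H6.S4

open Module Cfsg.Agent.H9.Sp Cfsg.Agent.H8.M3

universe u

variable {k V W : Type*} [Field k] [AddCommGroup V] [Module k V] [FiniteDimensional k V]
  [AddCommGroup W] [Module k W] [FiniteDimensional k W]
  {B : V →ₗ[k] V →ₗ[k] k} {Q : QuadraticForm k W} {ι : W →ₗ[k] End k V}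
  {G : Type u} [Group G] {P : Subgroup (End k V)ˣ} {π : P →* G} {p : ℕ}
  {g x y : (End k V)ˣ} {θ s : k} {m : W}

theorem cyc3 {M : Type*} [Group M] {P : Subgroup M} [Finite P] (h9 : ¬ 9 ∣ Nat.card P) {x y : M}
    (hx : x ∈ P) (hy : y ∈ P) (x3 : x ^ 3 = 1) (y3 : y ^ 3 = 1) (x1 : x ≠ 1) (e : x * y = y * x) :
    y = 1 ∨ y = x ∨ y = x⁻¹ := by
  classical
  have : Fact (Nat.Prime 3) := ⟨by decide⟩
  by_cases y1 : y = 1
  · exact Or.inl y1
  have ox := orderOf_eq_prime x3 x1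
  have h1 : IsPGroup 3 (Subgroup.zpowers x) := IsPGroup.of_card (n := 1) (by simp [ox])
  have h2 : IsPGroup 3 (Subgroup.zpowers y) :=
    IsPGroup.of_card (n := 1) (by simp [orderOf_eq_prime y3 y1])
  have hle : Subgroup.zpowers x ⊔ Subgroup.zpowers y ≤ P :=
    sup_le (Subgroup.zpowers_le.2 hx) (Subgroup.zpowers_le.2 hy)
  have : Finite (Subgroup.zpowers x ⊔ Subgroup.zpowers y : Subgroup M) :=
    Finite.of_injective _ (Subgroup.inclusion_injective hle)
  obtain ⟨n, hn⟩ := IsPGroup.iff_card.1 (h1.to_sup_of_normal_right' h2 (Subgroup.zpowers_le.2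
    (Subgroup.centralizer_le_normalizer _ (by
      rintro _ ⟨i, rfl⟩
      exact ((Commute.symm e).zpow_left i).eq))))
  have hd := Subgroup.card_dvd_of_le hle
  have hn1 : n ≤ 1 := by
    by_contra! hh
    exact h9 ((pow_dvd_pow 3 hh).trans (hn ▸ hd))
  have := Subgroup.eq_of_le_of_card_ge (le_sup_left : Subgroup.zpowers x ≤ _ ⊔ Subgroup.zpowers y)
    (by rw [hn, Nat.card_zpowers, ox]; exact Nat.pow_le_pow_right (by decide) hn1)
  have hyx : y ∈ Subgroup.zpowers x := this ▸ Subgroup.mem_sup_right (Subgroup.mem_zpowers y)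
  obtain ⟨i, hi, rfl⟩ := Finset.mem_image.1 ((isOfFinOrder_iff_pow_eq_one.2
    ⟨3, by decide, x3⟩).mem_zpowers_iff_mem_range_orderOf.1 hyx)
  rw [ox, Finset.mem_range] at hi
  interval_cases i
  · simp
  · simp
  · exact Or.inr (Or.inr (eq_inv_of_mul_eq_one_left (by rw [← pow_succ, x3])))

theorem inv_of_T (e : T g = θ • 1) : g⁻¹.1 = θ • 1 - g.1 := by rw [← e, T, add_sub_cancel_left]

theorem sq_of_T (e : T g = θ • 1) : g.1 * g.1 = θ • g.1 - 1 := by
  have := g.mul_inv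
  rw [inv_of_T e] at this
  simp only [nc k V] at this
  linear_combination (norm := module) -this

theorem sqm_of_T (e : T g = θ • 1) (X : End k V) : g.1 * (g.1 * X) = θ • (g.1 * X) - X := by
  rw [← mul_assoc, sq_of_T e]; simp only [nc k V]

theorem T_of_sq (e : g.1 * g.1 = θ • g.1 - 1) : T g = θ • 1 := by
  have : g⁻¹.1 = θ • 1 - g.1 := Units.inv_eq_of_mul_eq_one_right (by
    simp only [nc k V, e]; abel)
  rw [T, this, add_sub_cancel]

theorem T_sub (g : (End k V)ˣ) : T g - (2 : k) • 1 = (g.1 - 1) * (g.1 - 1) * g⁻¹.1 := by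
  simp only [T, nc k V]; module

theorem T_two_iff : T g = (2 : k) • 1 ↔ (g.1 - 1) * (g.1 - 1) = 0 := by
  rw [← sub_eq_zero, T_sub, Units.mul_left_eq_zero]

theorem T_sq (g : (End k V)ˣ) : T (g ^ 2) = T g * T g - (2 : k) • 1 := by
  simp only [T, sq, nc k V]; module

theorem T_mul_add (g x : (End k V)ˣ) : T (g * x) + T (g * x⁻¹) = g.1 * T x + T x * g⁻¹.1 := by
  simp only [T, nc k V]; abel

/-- unipotent -/
def Un (g : (End k V)ˣ) : Prop := IsNilpotent (g.1 - 1)

theorem un_one : Un (1 : (End k V)ˣ) := by simp [Un]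

theorem Un.conj (h : Un x) (g : (End k V)ˣ) : Un (g * x * g⁻¹) := by
  obtain ⟨n, hn⟩ := h
  refine ⟨n, ?_⟩
  rw [show (g * x * g⁻¹).1 - 1 = g.1 * (x.1 - 1) * g⁻¹.1 by simp only [nc k V], Units.conj_pow, hn]
  simp

theorem Un.mul (h : Un x) (h' : Un y) (e : x * y = y * x) : Un (x * y) := by
  have c : Commute x.1 y.1 := congrArg Units.val e
  have c' : Commute (x.1 - 1) (y.1 - 1) :=
    (c.sub_left (Commute.one_left _)).sub_right (Commute.one_right _)
  rw [Un, show (x * y).1 - 1 = (x.1 - 1) * y.1 + (y.1 - 1) by simp only [nc k V]; abel]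
  exact Commute.isNilpotent_add (c'.mul_left ((Commute.refl _).sub_right (Commute.one_right _)))
    ((c.sub_left (Commute.one_left _)).isNilpotent_mul_right h) h'

theorem Un.pow (h : Un x) (n : ℕ) : Un (x ^ n) := by
  induction n with
  | zero => simpa using un_one
  | succ n ih => rw [pow_succ]; exact ih.mul h ((Commute.refl x).pow_left n)

theorem un_of_T2 (e : T g = (2 : k) • 1) : Un g := ⟨2, by rw [sq, T_two_iff.1 e]⟩

theorem Un.eig (h : Un g) {v : V} (hv : v ≠ 0) {c : k} (e : g.1 v = c • v) : c = 1 := by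
  obtain ⟨n, hn⟩ := h
  have : ∀ n : ℕ, ((g.1 - 1) ^ n) v = (c - 1) ^ n • v := fun n => by
    induction n with
    | zero => simp
    | succ n ih => rw [pow_succ', End.mul_apply, ih]; simp [e, pow_succ, mul_smul, sub_smul, smul_sub]
  have h2 := this n
  rw [hn, LinearMap.zero_apply, eq_comm, smul_eq_zero] at h2
  exact sub_eq_zero.1 (pow_eq_zero_iff'.1 (h2.resolve_right hv)).1

section Cl

variable (h : Cl B Q ι)
include h

theorem un_T (hu : Un g) (e : T g = s • 1 + ι m) : s = 2 ∧ Q m = 0 := by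
  have c : Commute (g.1 - 1) g⁻¹.1 := (Units.commute_coe_inv g).sub_left (Commute.one_left _)
  have h1 : IsNilpotent ((s - 2) • 1 + ι m) := by
    rw [show (s - 2) • 1 + ι m = T g - (2 : k) • 1 by rw [e]; module, T_sub, mul_assoc]
    exact ((Commute.refl _).mul_right c).isNilpotent_mul_right hu
  have h2 := LinearMap.isNilpotent_trace_of_isNilpotent h1
  rw [tr_sm h, isNilpotent_iff_eq_zero, mul_eq_zero, sub_eq_zero] at h2
  obtain rfl := h2.resolve_left (four_ne h)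
  refine ⟨rfl, ?_⟩
  rw [sub_self, zero_smul, zero_add] at h1
  have h3 := LinearMap.isNilpotent_trace_of_isNilpotent ((Commute.refl _).isNilpotent_mul_right h1)
  rw [sq' h, isNilpotent_iff_eq_zero] at h3
  simpa [h.dimV, four_ne h] using h3

theorem four_of_T (e : T g = (2 : k) • 1 + ι m) (hm : Q m = 0) : (g.1 - 1) ^ 4 = 0 := by
  have := T_sub g
  rw [e, add_sub_cancel_left] at this
  have h2 := sq' h m
  rw [hm, zero_smul, this] at h2
  have h3 : (g.1 - 1) ^ 4 * g⁻¹.1 * g⁻¹.1 = 0 := by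
    rw [← h2]; simp only [pow_succ, pow_zero, nc k V]
  simpa using h3

theorem Un.four (hg : IsSp B g) (hu : Un g) : (g.1 - 1) ^ 4 = 0 := by
  obtain ⟨s, m, e⟩ := exists_T h hg
  obtain ⟨rfl, hm⟩ := un_T h hu e
  exact four_of_T h e hm

theorem charE [CharP k p] : CharP (End k V) p :=
  have := nontriv h
  charP_of_injective_algebraMap (algebraMap k (End k V)).injective p

theorem sub_pow_p [Fact p.Prime] [CharP k p] (g : (End k V)ˣ) (a : ℕ) :
    (g.1 - 1) ^ p ^ a = (g ^ p ^ a).1 - 1 := by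
  have := charE (p := p) h
  rw [sub_pow_char_pow_of_commute _ _ (Commute.one_right _), one_pow, Units.val_pow_eq_pow_val]

theorem un_of_pow [Fact p.Prime] [CharP k p] {a : ℕ} (e : g ^ p ^ a = 1) : Un g :=
  ⟨p ^ a, by rw [sub_pow_p h, e]; simp⟩

theorem pow_of_nil [Fact p.Prime] [CharP k p] {a n : ℕ} (e : (g.1 - 1) ^ n = 0) (hn : n ≤ p ^ a) :
    g ^ p ^ a = 1 := Units.ext (sub_eq_zero.1 (by
  rw [Units.val_one, ← sub_pow_p h]; exact pow_eq_zero_of_le hn e))

theorem p_ne_two [CharP k p] : p ≠ 2 := fun e => h.two (by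
  subst e; exact_mod_cast CharP.cast_eq_zero k 2)

theorem three_le [Fact p.Prime] [CharP k p] : 3 ≤ p :=
  have := (Fact.out : p.Prime).two_le
  have := p_ne_two (p := p) h
  by omega

theorem p_odd [Fact p.Prime] [CharP k p] : Odd p :=
  (Fact.out : p.Prime).odd_of_ne_two (p_ne_two h)

theorem pow_p_of_T2 [Fact p.Prime] [CharP k p] (e : T g = (2 : k) • 1) : g ^ p = 1 := by
  have := pow_of_nil (p := p) (a := 1) (n := 2) h (by rw [sq, T_two_iff.1 e])
    (by have := three_le (p := p) h; rw [pow_one]; omega)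
  rwa [pow_one] at this

/-- a unipotent element with `(g - 1)³ = 0` is quadratic -/
theorem T2_of_cube (hg : IsSp B g) (e : (g.1 - 1) ^ 3 = 0) : T g = (2 : k) • 1 := by
  obtain ⟨s, m, e'⟩ := exists_T h hg
  obtain ⟨rfl, hm⟩ := un_T h ⟨3, e⟩ e'
  by_cases m0 : m = 0
  · simpa [m0] using e'
  exfalso
  set N := g.1 - 1 with hN
  have h1 : ι m = N * N * g⁻¹.1 := by rw [← T_sub, e', add_sub_cancel_left]
  have h2 : N * ι m = 0 := by rw [h1, ← mul_assoc, ← mul_assoc, ← pow_three', e, zero_mul]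
  have h3 : LinearMap.ker (ι m) ≤ LinearMap.ker N := fun v hv => by
    obtain ⟨u, rfl⟩ := L_range h m0 hm hv
    exact LinearMap.congr_fun h2 u
  have h4 : LinearMap.range (ι m) ≤ LinearMap.range N := by
    rintro _ ⟨u, rfl⟩; exact ⟨_, by rw [h1]; rfl⟩
  have a1 := LinearMap.finrank_range_add_finrank_ker N
  have a2 := LinearMap.finrank_range_add_finrank_ker (ι m)
  have a3 := finrank_L h m0 hm
  have a4 := Submodule.finrank_mono h3
  have h5 := Submodule.eq_of_le_of_finrank_le h4 (by omega)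
  have h6 : N * N = 0 := LinearMap.ext fun v => by
    obtain ⟨u, hu⟩ : N v ∈ LinearMap.range (ι m) := h5 ▸ ⟨v, rfl⟩
    rw [End.mul_apply, ← hu]; exact LinearMap.congr_fun h2 u
  rw [h6, zero_mul, ι_eq_zero h] at h1
  exact m0 h1

theorem rebase {a b y : W} (e : g.1 = ι a * ι b) (hab : Q a * Q b = 1) {α β : k}
    (hy : y = α • a + β • b) (h0 : Q y ≠ 0) : ∃ x, Q y * Q x = 1 ∧ g.1 = ι y * ι x ∧
      ∃ γ δ : k, x = γ • a + δ • b := by
  have e1 : ι y * g.1 = ι ((-(β * Q b)) • a + (α * Q a + β * Orth.B Q b a) • b) := by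
    rw [e, hy]
    simp only [map_add, map_smul, nc k V, sqm h, ι3 h, map_sub]
    module
  set x := (-(β * Q b)) • a + (α * Q a + β * Orth.B Q b a) • b
  have e2 : g.1 = ι y * ι ((Q y)⁻¹ • x) := by
    rw [map_smul, ← e1]; simp only [nc k V, sqm h, smul_smul, inv_mul_cancel₀ h0, one_smul]
  refine ⟨(Q y)⁻¹ • x, ?_, e2, _, _, by rw [smul_add, smul_smul, smul_smul]⟩
  have e3 : ι x = g⁻¹.1 * ι y := by
    rw [inv_pair h e hab, hy]
    simp only [x, map_add, map_smul, nc k V, sqm h, sq' h, map_sub, antim h b a, anti' h b a]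
    module
  have e4 : Q x = Q y := sc' h (by
    rw [← sq' h]; nth_rw 1 [← e1]; rw [e3]; simp only [nc k V, sq' h])
  rw [Orth.Q_smul, e4]; field_simp

theorem unit_pair [IsAlgClosed k] {a b : W} (e : g.1 = ι a * ι b) (hab : Q a * Q b = 1) :
    ∃ c : k, c ≠ 0 ∧ Q (c • a) = 1 ∧ Q (c⁻¹ • b) = 1 ∧ g.1 = ι (c • a) * ι (c⁻¹ • b) := by
  obtain ⟨c, hc⟩ := IsAlgClosed.exists_eq_mul_self (Q b)
  have c0 : c ≠ 0 := by rintro rfl; simp [hc] at hab
  refine ⟨c, c0, by rw [Orth.Q_smul, ← hc, mul_comm, hab], by rw [Orth.Q_smul, hc]; field_simp, ?_⟩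
  simp only [map_smul, nc k V, smul_smul, mul_inv_cancel₀ c0, one_smul, e]

theorem unit_vec [IsAlgClosed k] {a : W} (ha : Q a ≠ 0) : ∃ c : k, c ≠ 0 ∧ Q (c • a) = 1 := by
  obtain ⟨c, hc⟩ := IsAlgClosed.exists_eq_mul_self (Q a)
  have c0 : c ≠ 0 := by rintro rfl; simp [hc] at ha
  exact ⟨c⁻¹, inv_ne_zero c0, by rw [Orth.Q_smul, hc]; field_simp⟩

end Cl

/-- no transvections -/
def NoTv (P : Subgroup (End k V)ˣ) : Prop :=
  ∀ g ∈ P, ∀ v : V, (∀ x, ∃ c : k, g.1 x - x = c • v) → g = 1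

theorem St.tv3 (h : St B Q ι P π) (tv : NoTv P) (hg : g ∈ P) {K : Submodule k V}
    (hK : 3 ≤ finrank k K) (e : ∀ v ∈ K, g.1 v = v) : g = 1 := by
  have hB := h.cl.symp
  have d := hB.finrank_perp K
  have := h.cl.dimV
  obtain ⟨v, hv⟩ := finrank_le_one_iff.1 (show finrank k (perp B K) ≤ 1 by omega)
  refine tv g hg v fun x => ?_
  obtain ⟨c, hc⟩ := hv ⟨g.1 x - x, fun w hw => by
    rw [map_sub, (h.sp g hg).right, ← e w hw, ui, e w hw, sub_self]⟩
  exact ⟨c, (congrArg Subtype.val hc).symm⟩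

theorem St.quad_pair (h : St B Q ι P π) (tv : NoTv P) (hg : g ∈ P) (e : T g = θ • 1) (h1 : g ≠ 1)
    (h2 : g ≠ -1) : ∃ a b, Q a * Q b = 1 ∧ g.1 = ι a * ι b := by
  have c := h.cl
  have sg := h.sp g hg
  have key : ∀ z, g.1 * ι (wa ι g z - z) * g.1 = ι (wa ι g z - z) := fun z => by
    rw [map_sub, ι_wa c sg]
    simp only [nc k V, sqm_of_T e, inv_of_T e, sq_of_T e]
    module
  by_cases hq : ∃ z, Q (wa ι g z - z) ≠ 0
  · obtain ⟨z, hz⟩ := hq
    have k1 := key z
    have k2 : LinearMap.trace k V (g.1 * ι (wa ι g z - z)) = 0 := by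
      rw [map_sub, ι_wa c sg, mul_sub, map_sub, ← mul_assoc, LinearMap.trace_mul_comm]
      simp only [nc k V, sub_self]
    generalize wa ι g z - z = y at *
    obtain ⟨x, hx⟩ := c.surj (g.1 * ι y) (fun u v => by
      rw [End.mul_apply, sg.left, c.adj]
      congr 1
      nth_rw 1 [← k1]; simp) k2
    have e4 : Q x = Q y := sc' c (by
      rw [← sq' c, hx, ← sq' c]; nth_rw 3 [← k1]; simp only [nc k V])
    refine ⟨(Q y)⁻¹ • x, y, by rw [Orth.Q_smul, e4]; field_simp, ?_⟩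
    rw [map_smul, hx]; simp only [nc k V, sq' c, smul_smul, inv_mul_cancel₀ hz, one_smul]
  exfalso
  push Not at hq
  set f : End k W := wa ι g - 1
  have hf : ∀ z, wa ι g z - z = f z := fun z => rfl
  simp only [hf] at hq key
  have hb : ∀ z z', Orth.B Q (f z) (f z') = 0 := fun z z' => by
    have := hq (z + z'); rwa [map_add, Orth.Q_add, hq, hq, zero_add, zero_add] at this
  have fx : ∀ z, wa ι g (f z) = f z := fun z => sub_eq_zero.1 (c.nd _ fun x => by
    obtain ⟨x, rfl⟩ : ∃ x', x = wa ι g x' := ⟨_, (wa_iu c sg x).symm⟩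
    have := hb x z
    rw [← hf x, map_sub, LinearMap.sub_apply] at this
    rw [map_sub, b_wa c sg]; linear_combination -this)
  obtain ⟨z, hz⟩ : ∃ z, f z ≠ 0 := by
    by_contra! hh
    exact (wa_ker c sg fun x => sub_eq_zero.1 (hh x)).elim h1 h2
  obtain ⟨z', hz'⟩ : ∃ z', ∀ t : k, f z' ≠ t • f z := by
    by_contra! hh
    obtain ⟨x, hx⟩ := c.nd.exists_B_ne hz
    have k0 : ∀ w, Orth.B Q w (f w) = 0 := fun w => by
      have := Q_wa c sg w
      rw [show wa ι g w = w + f w by rw [← hf]; abel, Orth.Q_add, hq] at this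
      linear_combination this
    obtain ⟨t, ht⟩ := hh x
    have a1 := k0 x
    have a2 := k0 (x + z)
    have a3 := k0 z
    rw [ht, map_smul, smul_eq_mul, Orth.B_comm] at a1
    rw [(mul_eq_zero.1 a1).resolve_right hx, zero_smul] at ht
    rw [map_add f, ht, zero_add, map_add, LinearMap.add_apply, a3, add_zero, Orth.B_comm] at a2
    exact hx a2
  have k3 : ∀ z v, ι (f z) v = 0 → f z ≠ 0 → g.1 (g.1 v) = v := fun z v hv h0 => by
    obtain ⟨u, rfl⟩ := L_range c h0 (hq z) hv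
    have := key z
    rw [mul_assoc, ← (wa_eq c sg).1 (fx z)] at this
    exact LinearMap.congr_fun this u
  have hz0 : f z' ≠ 0 := fun e => hz' 0 (by simp [e])
  set K := LinearMap.ker (ι (f z)) ⊔ LinearMap.ker (ι (f z'))
  have hK : 3 ≤ finrank k K := by
    by_contra! hh
    have e1 := finrank_L c hz (hq z)
    have e2 := finrank_L c hz0 (hq z')
    have a1 := Submodule.eq_of_le_of_finrank_le (show LinearMap.ker (ι (f z)) ≤ K from le_sup_left)
      (by omega)
    have a2 := Submodule.eq_of_le_of_finrank_le (show LinearMap.ker (ι (f z')) ≤ K from le_sup_right)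
      (by omega)
    obtain ⟨t, ht⟩ := dep_of_scal c (c := 0) hz (b := f z') (LinearMap.ext fun v => by
      have : ι (f z') v ∈ LinearMap.ker (ι (f z)) := by
        rw [a1, ← a2]; simp [c.sq, hq]
      simpa using this)
    exact hz' t ht
  have k4 : ∀ v ∈ K, g.1 (g.1 v) = v := fun v hv => by
    obtain ⟨a, ha, b, hb, rfl⟩ := Submodule.mem_sup.1 hv
    rw [map_add, map_add, k3 z a ha hz, k3 z' b hb hz0]
  have k5 : ∀ v ∈ K, θ • g.1 v = (2 : k) • v := fun v hv => by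
    have := LinearMap.congr_fun (sq_of_T e) v
    simp only [End.mul_apply, k4 v hv, LinearMap.sub_apply, LinearMap.smul_apply, End.one_apply] at this
    linear_combination (norm := module) -this
  obtain ⟨v, hv, v0⟩ := (Submodule.ne_bot_iff K).1 (fun e => by rw [e] at hK; simp at hK)
  have k6 : θ ^ 2 = 2 ^ 2 := smul_left_injective k v0 (by
    have := congrArg g.1 (k5 v hv)
    rw [map_smul, map_smul, k4 v hv] at this
    linear_combination (norm := module) θ • this + (2 : k) • k5 v hv)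
  rcases sq_eq_sq_iff_eq_or_eq_neg.1 k6 with rfl | rfl
  · exact h1 (h.tv3 tv hg hK fun v hv => smul_right_injective V c.two (k5 v hv))
  · exact h2 (neg_eq_iff_eq_neg.1 (h.tv3 tv (h.neg hg) hK fun v hv =>
      smul_right_injective V c.two (by simpa using k5 v hv)))

theorem St.quad_unit [IsAlgClosed k] (h : St B Q ι P π) (tv : NoTv P) (hg : g ∈ P) (e : T g = θ • 1)
    (h1 : g ≠ 1) (h2 : g ≠ -1) :
    ∃ a b, Q a = 1 ∧ Q b = 1 ∧ Orth.B Q a b = θ ∧ g.1 = ι a * ι b := by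
  obtain ⟨a, b, hab, e'⟩ := h.quad_pair tv hg e h1 h2
  obtain ⟨c, -, h3, h4, h5⟩ := unit_pair h.cl e' hab
  exact ⟨_, _, h3, h4, sc' h.cl (by rw [← T_pair h.cl h5 (by rw [h3, h4, one_mul]), e]), h5⟩

theorem St.short (h : St B Q ι P π) (tv : NoTv P) (hg : g ∈ P) (e : T g = (2 : k) • 1) (h1 : g ≠ 1) :
    ∃ a w, a ≠ 0 ∧ Q a = 0 ∧ Orth.B Q a w = 0 ∧ Q w ≠ 0 ∧ g.1 = 1 + ι a * ι w := by
  have c := h.cl
  obtain ⟨a, b, hab, e'⟩ := h.quad_pair tv hg e h1 (by
    rintro rfl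
    rw [T_neg, T_one, ← neg_smul] at e
    exact four_ne c (by linear_combination -sc' c e))
  have hb : Orth.B Q a b = 2 := sc' c (by rw [← T_pair c e' hab, e])
  have e2 : g.1 = 1 + ι (a - Q a • b) * ι b := by
    simp only [e', map_sub, map_smul, nc k V, sq' c, smul_smul, hab, one_smul]; abel
  refine ⟨a - Q a • b, b, fun e => h1 (Units.ext (by simp [e2, e])), ?_, ?_, right_ne_zero_of_mul_eq_one hab, e2⟩
  · rw [Orth.Q_sub, Orth.Q_smul, map_smul, hb, smul_eq_mul]; linear_combination Q a * hab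
  · simp [hb, Orth.B_self]; linear_combination -2 * hab

theorem St.ppart [Fact p.Prime] (h : St B Q ι P π) (hg : g ∈ P) :
    ∃ r a : ℕ, ¬ p ∣ r ∧ g ^ (r * p ^ a) = 1 := by
  have := h.fin
  obtain ⟨a, r, h1, h2⟩ := Nat.exists_eq_pow_mul_and_not_dvd (finOrd hg).orderOf_pos.ne' p
    (Fact.out : p.Prime).ne_one
  exact ⟨r, a, h1, by rw [mul_comm, ← h2, pow_orderOf_eq_one]⟩

/-- the setting after removing transvections and large groups of short root elements -/
structure S2 (p : ℕ) (B : V →ₗ[k] V →ₗ[k] k) (Q : QuadraticForm k W) (ι : W →ₗ[k] End k V)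
    (P : Subgroup (End k V)ˣ) {G : Type u} [Group G] (π : P →* G) : Prop extends St B Q ι P π where
  tv : NoTv P
  un : (5 ≤ p ∧ ∀ g ∈ P, T g = (2 : k) • 1 → g = 1) ∨ (p = 3 ∧ ¬ 9 ∣ Nat.card P)

variable [Fact p.Prime] [CharP k p]

theorem S2.u3 (h : S2 p B Q ι P π) (hp : p = 3) (hg : g ∈ P) (hu : Un g) :
    g ^ 3 = 1 ∧ T g = (2 : k) • 1 := by
  subst hp
  have h9 := (h.un.resolve_left (by omega)).2
  have e9 := pow_of_nil (p := 3) (a := 2) h.cl (hu.four h.cl (h.sp g hg)) (by norm_num)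
  obtain ⟨i, hi, e⟩ := (Nat.dvd_prime_pow Fact.out).1 (orderOf_dvd_of_pow_eq_one e9)
  have hi' : i ≤ 1 := by
    by_contra! hh
    obtain rfl : i = 2 := by omega
    exact h9 (by simpa [e] using Subgroup.orderOf_dvd_natCard P hg)
  have e3 : g ^ 3 ^ 1 = 1 := orderOf_dvd_iff_pow_eq_one.1 (e ▸ pow_dvd_pow 3 hi')
  exact ⟨e3, T2_of_cube h.cl (h.sp g hg) (by
    have := sub_pow_p (p := 3) h.cl g 1
    rw [e3] at this; simpa using this)⟩

theorem S2.h9 (h : S2 p B Q ι P π) (hp : p = 3) (hx : x ∈ P) (hy : y ∈ P) (ux : Un x) (uy : Un y)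
    (x1 : x ≠ 1) (e : x * y = y * x) : y = 1 ∨ y = x ∨ y = x⁻¹ :=
  have := h.fin
  cyc3 (h.un.resolve_left (by omega)).2 hx hy (h.u3 hp hx ux).1 (h.u3 hp hy uy).1 x1 e

theorem S2.p3 (h : S2 p B Q ι P π) (hg : g ∈ P) (e : T g = (2 : k) • 1) (h1 : g ≠ 1) : p = 3 :=
  (h.un.resolve_left fun h' => h1 (h'.2 g hg e)).1

theorem three_eq (hp : p = 3) : (3 : k) = 0 := by subst hp; exact_mod_cast CharP.cast_eq_zero k 3

theorem cast_ne {n : ℕ} (h : ¬ p ∣ n) : (n : k) ≠ 0 := fun e => h ((CharP.cast_eq_zero_iff k p n).1 e)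

theorem eq_of_cast {n : ℕ} (hn : n.Prime) (h : (n : k) = 0) : p = n :=
  (Nat.prime_dvd_prime_iff_eq Fact.out hn).1 ((CharP.cast_eq_zero_iff k p n).1 h)

end Cfsg.Agent.H6.S4
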