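import Cfsg.Agent.H6.S4.A4

/-! Pairs of quadratic elements: trace calculus and the irreducible case. -/

set_option autoImplicit false
set_option linter.unusedSimpArgs false
set_option linter.unusedSectionVars false
set_option linter.unusedVariables false

namespace Cfsg.Agent.H6.S4

open Module Cfsg.Agent.H9.Sp Cfsg.Agent.H8.M3 Matrix

universe u

variable {k V W : Type*} [Field k] [AddCommGroup V] [Module k V] [FiniteDimensional k V]
  [AddCommGroup W] [Module k W] [FiniteDimensional k W]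
  {B : V →ₗ[k] V →ₗ[k] k} {Q : QuadraticForm k W} {ι : W →ₗ[k] End k V}
  {G : Type u} [Group G] {P : Subgroup (End k V)ˣ} {π : P →* G} {p : ℕ}
  {g g' a b d x y : (End k V)ˣ} {θ s t r ρ : k} {m : W} {U : Submodule k V}

/-- stabiliser of a subspace -/
def sU (U : Submodule k V) : Subgroup (End k V)ˣ where
  carrier := {d | ∀ v ∈ U, d.1 v ∈ U ∧ d⁻¹.1 v ∈ U}
  mul_mem' {a b} ha hb v hv := ⟨(ha _ (hb v hv).1).1, by
    rw [_root_.mul_inv_rev]; exact (hb _ (ha v hv).2).2⟩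
  one_mem' v hv := ⟨hv, hv⟩
  inv_mem' {a} ha v hv := ⟨(ha v hv).2, (ha v hv).1⟩

theorem neg_mem_sU (h : a ∈ sU U) : -a ∈ sU U := fun v hv =>
  ⟨U.neg_mem (h v hv).1, by rw [inv_neg]; exact U.neg_mem (h v hv).2⟩

theorem comm_inv {X : End k V} (h : X * g.1 = g.1 * X) : X * g⁻¹.1 = g⁻¹.1 * X := by
  calc X * g⁻¹.1 = g⁻¹.1 * (g.1 * X) * g⁻¹.1 := by simp only [nc k V]
    _ = g⁻¹.1 * X := by rw [← h]; simp only [nc k V]

theorem mem_sU_eig {X : End k V} (h : X * g.1 = g.1 * X) (ρ : k) : g ∈ sU (X.eigenspace ρ) :=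
  fun v hv => by
    simp only [End.mem_eigenspace_iff] at hv ⊢
    constructor
    · rw [← End.mul_apply, h, End.mul_apply, hv, map_smul]
    · rw [← End.mul_apply, comm_inv h, End.mul_apply, hv, map_smul]

/-- `T d` is the scalar `t` on `U` -/
def Tr (U : Submodule k V) (d : (End k V)ˣ) (t : k) : Prop := ∀ v ∈ U, T d v = t • v

theorem Tr.of (e : T g = θ • 1) (U : Submodule k V) : Tr U g θ := fun v _ => by simp [e]

theorem Tr.congr (h : Tr U a s) (e : a = b) (e' : s = t) : Tr U b t := e ▸ e' ▸ h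

theorem Tr.inv (h : Tr U a s) : Tr U a⁻¹ s := by rwa [Tr, T_inv]

theorem Tr.neg (h : Tr U a s) : Tr U (-a) (-s) := fun v hv => by simp [T_neg, h v hv]

theorem Tr.one : Tr U 1 (2 : k) := Tr.of T_one U

theorem Tr.conj (h : Tr U b t) (ha : a ∈ sU U) : Tr U (a * b * a⁻¹) t := fun v hv => by
  simp [T_conj, h _ (ha v hv).2]

theorem Tr.mul (ha : a ∈ sU U) (h1 : Tr U a s) (h2 : Tr U b t) (h3 : Tr U (a * b⁻¹) r) :
    Tr U (a * b) (s * t - r) := fun v hv => by
  have := LinearMap.congr_fun (T_mul_add a b) v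
  have e := h1 v hv
  simp only [T, LinearMap.add_apply] at e
  simp only [LinearMap.add_apply, End.mul_apply, h3 v hv, h2 v hv, h2 _ (ha v hv).2, map_smul] at this
  linear_combination (norm := module) this + t • e

theorem Tr.mul' (ha : a ∈ sU U) (h1 : Tr U a s) (h2 : Tr U b t) (h3 : Tr U (a * b) r) :
    Tr U (a * b⁻¹) (s * t - r) := Tr.mul ha h1 h2.inv (by rwa [inv_inv])

theorem Tr.sq (ha : a ∈ sU U) (h1 : Tr U a s) : Tr U (a * a) (s * s - 2) :=
  Tr.mul ha h1 h1 (Tr.one.congr (by group) rfl)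

theorem Tr.comm (ha : a ∈ sU U) (hb : b ∈ sU U) (h1 : Tr U a s) (h2 : Tr U b t)
    (h3 : Tr U (a * b) r) : Tr U (a * b * a⁻¹ * b⁻¹) (s ^ 2 + t ^ 2 + r ^ 2 - s * t * r - 2) := by
  have hab := (sU U).mul_mem ha hb
  have e1 : Tr U (a * b * b) (r * t - s) := Tr.mul hab h3 h2 (h1.congr (by group) rfl)
  have e2 : Tr U (a * (a * b * b)) (s * (r * t - s) - (t * t - 2)) :=
    Tr.mul ha h1 e1 (((Tr.sq hb h2).inv.conj ha).congr (by group) rfl)
  have e3 : Tr U (b * a) r := (h3.conj ((sU U).inv_mem ha)).congr (by group) rfl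
  exact (Tr.mul' hab h3 e3 ((e2.conj ((sU U).inv_mem ha)).congr (by group) rfl)).congr (by group)
    (by ring)

theorem Tr.acon (ha : a ∈ sU U) (hb : b ∈ sU U) (h1 : Tr U a s) (h2 : Tr U b t)
    (h3 : Tr U (a * b) r) : Tr U (a * (b * a * b⁻¹)) (2 - t ^ 2 - r ^ 2 + s * t * r) :=
  (Tr.mul ha h1 (h1.conj hb) ((Tr.comm ha hb h1 h2 h3).congr (by group) rfl)).congr rfl (by ring)

theorem Tr.uniq (h1 : Tr U a s) (h2 : Tr U a t) {v : V} (hv : v ∈ U) (h0 : v ≠ 0) : s = t :=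
  smul_left_injective k h0 ((h1 v hv).symm.trans (h2 v hv))

theorem inv_eig {v : V} {c : k} (h0 : v ≠ 0) (e : g.1 v = c • v) : c ≠ 0 ∧ g⁻¹.1 v = c⁻¹ • v := by
  have c0 : c ≠ 0 := by rintro rfl; exact u_ne g h0 (by simpa using e)
  exact ⟨c0, u_inj g (by rw [iu, map_smul, e, smul_smul, inv_mul_cancel₀ c0, one_smul])⟩

theorem T_eig {v : V} {c : k} (h0 : v ≠ 0) (e : g.1 v = c • v) : T g v = (c + c⁻¹) • v := by
  simp [T, e, (inv_eig h0 e).2, add_smul]

theorem xi_comm (e : T g = θ • 1) (e' : T g' = θ • 1) :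
    T (g * g') * g.1 = g.1 * T (g * g') ∧ T (g * g') * g'.1 = g'.1 * T (g * g') := by
  constructor <;>
  · simp only [T, nc k V, inv_of_T e, inv_of_T e', sq_of_T e, sq_of_T e', sqm_of_T e, sqm_of_T e']
    module

theorem swap_eq (e : T g = θ • 1) (e' : T g' = θ • 1) :
    g'.1 * g.1 = T (g * g') - g.1 * g'.1 + θ • g.1 + θ • g'.1 - (θ * θ) • 1 := by
  simp only [T, nc k V, inv_of_T e, inv_of_T e']
  module

theorem T_inv_mul (e : T g = θ • 1) (e' : T g' = θ • 1) :
    T (g⁻¹ * g') = (θ * θ) • 1 - T (g * g') := by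
  simp only [T, nc k V, inv_of_T e, inv_of_T e']
  module

section Cl

variable (h : Cl B Q ι)
include h

theorem exists_eig_ι (e : r * r = Q m) : ∃ v, v ≠ 0 ∧ ι m v = r • v := by
  by_cases h0 : ι m = (-r) • 1
  · obtain ⟨rfl, h1⟩ := scal h h0
    obtain ⟨v, hv⟩ := h.exists_ne
    exact ⟨v, hv, by simp [neg_eq_zero.1 h1]⟩
  · obtain ⟨u, hu⟩ := DFunLike.ne_iff.1 h0
    refine ⟨ι m u + r • u, fun e => hu (by simpa using eq_neg_of_add_eq_zero_left e), ?_⟩
    simp only [map_add, map_smul, h.sq, ← e]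
    module

theorem fix_of_comm (hg : IsSp B g) {X : End k V} (e : X = s • 1 + ι m) (c : X * g.1 = g.1 * X) :
    wa ι g m = m := (wa_eq h hg).2 (by
  rw [e] at c
  simp only [nc k V] at c
  exact (add_left_cancel c).symm)

theorem triv_L (hg : IsSp B g) (m0 : m ≠ 0) (hm : Q m = 0) (e : wa ι g m = m)
    (hL : ∀ v, ι m v = 0 → g.1 v = v) : T g = (2 : k) • 1 := T_two_iff.2 (LinearMap.ext fun v => by
  have : ι m (g.1 v - v) = 0 := by
    have := app_ι h hg m v
    rw [e, hL _ (by simp [h.sq, hm])] at this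
    rw [map_sub, ← this, sub_self]
  simpa [sub_eq_zero] using hL _ this)

end Cl

theorem St.regnorm (h : St B Q ι P π) (ns : ∀ g ∈ P, T g = (2 : k) • 1 → g = 1) (m0 : m ≠ 0)
    (hm : Q m = 0) (hy : y ∈ P) (hd : d ∈ P) (ym : wa ι y m = m) (dm : wa ι d m = m) {v z : V}
    {α τ : k} (v0 : v ≠ 0) (hv : ι m v = 0) (hz : ι m z = 0) (α0 : α ≠ 0) (yv : y.1 v = v)
    (yz : y.1 z = z + α • v) (dv : d.1 v = τ • v) : τ ^ 4 = 1 := by
  have c := h.cl
  have sy := h.sp y hy
  have sd := h.sp d hd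
  have hzv : ∀ t : k, z ≠ t • v := by
    rintro t rfl
    rw [map_smul, yv, left_eq_add, smul_eq_zero] at yz
    exact yz.elim α0 v0
  have sp : ∀ w, ι m w = 0 → ∃ s t : k, w = s • v + t • z := fun w hw =>
    span2 (finrank_L c m0 hm) (a := v) (b := z) hv hz v0 hzv hw
  have cy : ∀ w, y.1 (ι m w) = ι m (y.1 w) := fun w => by rw [app_ι c sy, ym]
  have cd : ∀ w, d.1 (ι m w) = ι m (d.1 w) := fun w => by rw [app_ι c sd, dm]
  obtain ⟨τ0, dv'⟩ := inv_eig v0 dv
  obtain ⟨u, rfl⟩ := L_range c m0 hm hv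
  obtain ⟨μ, σ, dz⟩ := sp (d.1 z) (by rw [← cd, hz, map_zero])
  obtain ⟨β, γ, yu⟩ := sp (y.1 u - u) (by rw [map_sub, ← cy, yv, sub_self])
  obtain ⟨δ, ε, du⟩ := sp (d.1 u - τ • u) (by rw [map_sub, ← cd, dv, map_smul, sub_self])
  rw [sub_eq_iff_eq_add] at yu du
  have b1 : B u (ι m u) = 0 := by rw [← c.adj, B_ι_self c]
  have b2 : B u z ≠ 0 := fun e => v0 (c.symp.nd _ fun x => by
    obtain ⟨s, t, e'⟩ := sp (ι m x) (by simp [c.sq, hm])
    rw [← c.adj, e']
    simp [B_ι_self c, c.symp.comm.1 e])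
  have b3 : τ * σ = 1 := by
    have := sd u z
    rw [du, dz] at this
    simp only [map_add, map_smul, LinearMap.add_apply, LinearMap.smul_apply, smul_eq_mul, b1,
      L_ti c m0 hm hv hv, L_ti c m0 hm hv hz, L_ti c m0 hm hz hv, L_ti c m0 hm hz hz] at this
    exact mul_right_cancel₀ b2 (by linear_combination this)
  set v := ι m u
  set y' := d * y * d⁻¹
  have hy' : y' ∈ P := P.mul_mem (P.mul_mem hd hy) (P.inv_mem hd)
  have yd : ∀ w, y'.1 (d.1 w) = d.1 (y.1 w) := fun w => by simp [y']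
  have y'v : y'.1 v = v := smul_right_injective V τ0 (by
    have := yd v
    rwa [yv, dv, map_smul] at this)
  have y'z : y'.1 z = z + (α * τ ^ 2) • v := by
    have := yd z
    simp only [yz, dz, map_add, map_smul, y'v, dv] at this
    linear_combination (norm := module) τ • this + b3 • (z - y'.1 z)
  have y'u : ∃ β' : k, y'.1 u = u + β' • v + (γ * σ ^ 2) • z := by
    have := yd u
    simp only [yu, du, map_add, map_smul, y'v, y'z, dv, dz] at this
    exact ⟨σ * (β * τ + γ * μ - ε * α * τ ^ 2), by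
      linear_combination (norm := module) σ • this + b3 • (u - y'.1 u)⟩
  obtain ⟨β', y'u⟩ := y'u
  have y'm : wa ι y' m = m := by
    rw [wa_mul c (h.sp _ (P.mul_mem hd hy)) (h.sp _ (P.inv_mem hd)), wa_mul c sd sy,
      show wa ι d⁻¹ m = m by nth_rw 1 [← dm]; rw [wa_ui c sd], ym, dm]
  have hc : (y * y')⁻¹ * (y' * y) ∈ P := P.mul_mem (P.inv_mem (P.mul_mem hy hy')) (P.mul_mem hy' hy)
  have s1 := h.sp _ (P.mul_mem hy hy')
  have e1 := ns _ hc (triv_L c (h.sp _ hc) m0 hm (by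
    rw [wa_mul c (h.sp _ (P.inv_mem (P.mul_mem hy hy'))) (h.sp _ (P.mul_mem hy' hy))]
    apply wa_inj c s1
    rw [wa_iu c s1, wa_mul c sy (h.sp _ hy'), wa_mul c (h.sp _ hy') sy, ym, y'm, ym]) fun w hw => by
      obtain ⟨s, t, rfl⟩ := sp w hw
      apply u_inj (y * y')
      rw [um _ (y' * y), iu]
      simp only [um, map_add, map_smul, yv, yz, y'v, y'z]
      module)
  have e2 := congrArg (fun f : (End k V)ˣ => f.1 u) (inv_mul_eq_one.1 e1)
  simp only [um, yu, y'u, map_add, map_smul, yv, yz, y'v, y'z] at e2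
  have e3 : γ * α * (σ ^ 2 - τ ^ 2) = 0 := smul_left_injective k v0 (by
    linear_combination (norm := module) e2)
  have γ0 : γ ≠ 0 := by
    rintro rfl
    obtain ⟨s, t, e⟩ := T_of_comm c sy m0 ym
    have a1 := LinearMap.congr_fun e v
    have a2 := congrArg y.1 (LinearMap.congr_fun e u)
    rw [T_eig v0 (c := 1) (by simpa using yv)] at a1
    simp only [T, LinearMap.add_apply, LinearMap.smul_apply, End.one_apply, hv, smul_zero, add_zero,
      map_add, map_smul, iu, yu, zero_smul, yv, inv_one] at a1 a2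
    obtain rfl : 1 + 1 = s := smul_left_injective k v0 a1
    obtain rfl : t = 0 := smul_left_injective k v0 (by
      have : y.1 (ι m u) = v := yv
      rw [this] at a2
      linear_combination (norm := module) -a2)
    rw [ns y hy (by rw [e]; simp [one_add_one_eq_two])] at yz
    simp [α0, v0] at yz
  have := (mul_eq_zero.1 e3).resolve_left (mul_ne_zero γ0 α0)
  linear_combination -(τ ^ 2) * this + (τ * σ + 1) * b3

/-- the span of `1, g, g', g g'` -/
def A4 (g g' : (End k V)ˣ) : Submodule k (End k V) := Submodule.span k {1, g.1, g'.1, g.1 * g'.1}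

theorem A4_mul (e : T g = θ • 1) (e' : T g' = θ • 1) (e2 : T (g * g') = s • 1) :
    (∀ X ∈ A4 g g', g.1 * X ∈ A4 g g') ∧ ∀ X ∈ A4 g g', g'.1 * X ∈ A4 g g' := by
  have m1 : (1 : End k V) ∈ A4 g g' := Submodule.subset_span (by simp)
  have m2 : g.1 ∈ A4 g g' := Submodule.subset_span (by simp)
  have m3 : g'.1 ∈ A4 g g' := Submodule.subset_span (by simp)
  have m4 : g.1 * g'.1 ∈ A4 g g' := Submodule.subset_span (by simp)
  have sw := swap_eq e e'
  rw [e2] at sw
  have key : ∀ f : End k V, (∀ X ∈ ({1, g.1, g'.1, g.1 * g'.1} : Set (End k V)), f * X ∈ A4 g g') →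
      ∀ X ∈ A4 g g', f * X ∈ A4 g g' := fun f hf X hX =>
    (Submodule.span_le (p := (A4 g g').comap (LinearMap.mulLeft k f))).2 hf hX
  refine ⟨key _ ?_, key _ ?_⟩ <;> rintro _ (rfl | rfl | rfl | rfl) <;>
    (try rw [← mul_assoc g'.1, sw]) <;>
    (try simp only [sw, nc k V, sq_of_T e, sq_of_T e', sqm_of_T e]) <;>
    repeat' first | assumption | apply Submodule.add_mem | apply Submodule.sub_mem |
      apply Submodule.smul_mem

theorem A4_T (h : Cl B Q ι) (sg : IsSp B g) (sg' : IsSp B g') (e : T g = θ • 1) (e' : T g' = θ • 1)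
    (e2 : T (g * g') = s • 1) (sd : IsSp B d) (hd : d.1 ∈ A4 g g') : ∃ t : k, T d = t • 1 := by
  have key : ∀ X ∈ A4 g g', ∃ (X' : End k V) (t : k), (∀ u v, B (X u) v = B u (X' v)) ∧
      X + X' = t • 1 := fun X hX => by
    induction hX using Submodule.span_induction with
    | mem X hX =>
      rcases hX with rfl | rfl | rfl | rfl
      exacts [⟨1, 2, fun _ _ => rfl, (two_smul _ _).symm⟩, ⟨_, θ, sg.left, e⟩, ⟨_, θ, sg'.left, e'⟩,
        ⟨_, s, IsSp.left ((SpU B).mul_mem sg sg'), e2⟩]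
    | zero => exact ⟨0, 0, by simp, by simp⟩
    | add X Y _ _ h1 h2 =>
      obtain ⟨X', t, a1, a2⟩ := h1
      obtain ⟨Y', t', b1, b2⟩ := h2
      exact ⟨X' + Y', t + t', by simp [a1, b1], by linear_combination (norm := module) a2 + b2⟩
    | smul c X _ h1 =>
      obtain ⟨X', t, a1, a2⟩ := h1
      exact ⟨c • X', c * t, by simp [a1], by linear_combination (norm := module) c • a2⟩
  obtain ⟨X', t, a1, a2⟩ := key _ hd
  exact ⟨t, by rw [← a2, T, show d⁻¹.1 = X' from LinearMap.ext fun v =>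
    h.symp.ext fun x => by rw [← a1, sd.left]]⟩

theorem Wild.sq_mem {D : Type*} [Group D] {φ : D →* GL (Fin 2) k} {k0 : Subfield k}
    {R : Subring (M2 k)} {N N' : M2 k} (h : Wild φ k0 R N N') (hdet : ∀ d, (φ d : M2 k).det = 1)
    (d : D) : (φ d : M2 k).trace ^ 2 ∈ k0 := by
  obtain ⟨c, c0, hc⟩ := h.mem d
  have h1 := h.tr _ hc
  have h2 := h.det _ hc
  rw [det_smul, hdet, mul_one, Fintype.card_fin] at h2
  rw [trace_smul, smul_eq_mul] at h1
  have := k0.div_mem (k0.pow_mem h1 2) h2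
  rwa [mul_pow, mul_div_cancel_left₀ _ (pow_ne_zero 2 c0)] at this

theorem nil_vec {N N' : M2 k} (h1 : N * N = 0) (h3 : N * N' + N' * N = 1) :
    ∃ x : Fin 2 → k, x ≠ 0 ∧ N *ᵥ x = 0 ∧ N *ᵥ (N' *ᵥ x) = x := by
  have : N ≠ 0 := by rintro rfl; simp at h3
  obtain ⟨u, hu⟩ : ∃ u, N *ᵥ u ≠ 0 := by
    by_contra! hh
    exact this (toLin'.injective (LinearMap.ext fun u => by simpa using hh u))
  refine ⟨_, hu, by rw [mulVec_mulVec, h1, zero_mulVec], ?_⟩
  rw [mulVec_mulVec, mulVec_mulVec, eq_sub_of_add_eq h3, sub_mul, one_mul, mul_assoc, h1, mul_zero,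
    sub_zero]

theorem det_nil {N : M2 k} (h : N * N = 0) : N.trace = 0 ∧ N.det = 0 := by
  have e := fun i j => congrFun (congrFun h i) j
  have a := e 0 0; have b := e 0 1; have c := e 1 0; have d := e 1 1
  simp only [mul_apply, Fin.sum_univ_two, Matrix.zero_apply] at a b c d
  rw [trace_fin_two, det_fin_two]
  have : (N 0 0 * N 1 1 - N 0 1 * N 1 0) ^ 2 = 0 := by
    linear_combination (N 1 0 * N 0 1 + N 1 1 * N 1 1) * a - (N 1 0 * N 0 0 + N 1 1 * N 1 0) * b
  have h2 := pow_eq_zero_iff two_ne_zero |>.1 this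
  exact ⟨pow_eq_zero_iff two_ne_zero |>.1 (by linear_combination a + d + 2 * h2), h2⟩

theorem det_one_add {N : M2 k} (h : N * N = 0) (c : k) : (1 + c • N).det = 1 := by
  obtain ⟨h1, h2⟩ := det_nil h
  rw [trace_fin_two] at h1
  rw [det_fin_two] at h2 ⊢
  simp
  linear_combination c * h1 + c ^ 2 * h2

theorem det_dg {N N' : M2 k} (h1 : N * N = 0) (h2 : N' * N' = 0) (h3 : N * N' + N' * N = 1)
    (a b : k) : (a • (N * N') + b • (N' * N)).det = a * b := by
  have e1 := (det_nil h1).2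
  have e2 : (N * N').det = 0 := by rw [det_mul, e1, zero_mul]
  have e3 : (N' * N).det = 0 := by rw [det_mul, e1, mul_zero]
  rw [eq_sub_of_add_eq' h3] at e3 ⊢
  generalize N * N' = E at *
  rw [det_fin_two] at e2 e3 ⊢
  simp at e3 ⊢
  linear_combination (a ^ 2 - a * b) * e2 + (b ^ 2 - a * b) * e3

end Cfsg.Agent.H6.S4
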