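import Cfsg.Agent.H6.S4.If

/-! Planes of quadratic elements. -/

set_option autoImplicit false
set_option linter.unusedSimpArgs false
set_option linter.unusedSectionVars false
set_option linter.unusedVariables false

namespace Cfsg.Agent.H6.S4

open Module Cfsg.Agent.H9.Sp Cfsg.Agent.H8.M3

universe u

variable {k V W : Type*} [Field k] [AddCommGroup V] [Module k V] [FiniteDimensional k V]
  [AddCommGroup W] [Module k W] [FiniteDimensional k W]
  {B : V →ₗ[k] V →ₗ[k] k} {Q : QuadraticForm k W} {ι : W →ₗ[k] End k V}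
  {G : Type u} [Group G] {P : Subgroup (End k V)ˣ} {π : P →* G} {p : ℕ}
  {g g' x : (End k V)ˣ} {a b c d w y z : W} {θ θ' ρ : k}

/-- presentation of a quadratic element -/
structure Pr (B : V →ₗ[k] V →ₗ[k] k) (Q : QuadraticForm k W) (ι : W →ₗ[k] End k V) (g : (End k V)ˣ)
    (a b : W) (θ : k) : Prop where
  cl : Cl B Q ι
  sp : IsSp B g
  qa : Q a = 1
  qb : Q b = 1
  ab : Orth.B Q a b = θ
  e : g.1 = ι a * ι b
  ind : ∀ c : k, b ≠ c • a

/-- the plane of a quadratic element -/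
noncomputable def Y (ι : W →ₗ[k] End k V) (g : (End k V)ˣ) : Submodule k W :=
  LinearMap.range (wa ι g - 1)

theorem Pr.mk' (h : Cl B Q ι) (sp : IsSp B g) (qa : Q a = 1) (qb : Q b = 1) (e : g.1 = ι a * ι b)
    (h1 : g ≠ 1) (h2 : g ≠ -1) : Pr B Q ι g a b (Orth.B Q a b) :=
  ⟨h, sp, qa, qb, rfl, e, fun c hc => by
    rcases pm_of_scal h sp (c := c) (by simp only [e, hc, map_smul, nc k V, sq' h, qa, one_smul]) with
      e | e <;> contradiction⟩

theorem St.exists_pr [IsAlgClosed k] (h : St B Q ι P π) (tv : NoTv P) (hg : g ∈ P) (e : T g = θ • 1)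
    (h1 : g ≠ 1) (h2 : g ≠ -1) : ∃ a b, Pr B Q ι g a b θ :=
  let ⟨a, b, qa, qb, ab, e'⟩ := h.quad_unit tv hg e h1 h2
  ⟨a, b, ab ▸ Pr.mk' h.cl (h.sp g hg) qa qb e' h1 h2⟩

theorem fix_iff (h : Cl B Q ι) (hg : IsSp B g) : wa ι g w = w ↔ w ∈ Orth.perp Q (Y ι g) := by
  have key : ∀ x, Orth.B Q ((wa ι g - 1 : End k W) x) w = Orth.B Q x (wa ι g⁻¹ w - w) := fun x => by
    simp [b_wa_left h hg]
  rw [Orth.mem_perp]
  constructor
  · rintro e _ ⟨x, rfl⟩
    rw [key]; nth_rw 1 [← e]; rw [wa_ui h hg]; simp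
  · intro e
    have := sub_eq_zero.1 (h.nd _ fun x => (key x).symm.trans (e _ ⟨x, rfl⟩))
    rw [← this, wa_iu h hg, this]

theorem Y_conj (h : Cl B Q ι) (hg : IsSp B g) (hx : IsSp B x) (hw : w ∈ Y ι x) :
    wa ι g w ∈ Y ι (g * x * g⁻¹) := by
  obtain ⟨y, rfl⟩ := hw
  refine ⟨wa ι g y, ?_⟩
  simp [wa_mul h ((SpU B).mul_mem hg hx) ((SpU B).inv_mem hg), wa_mul h hg hx, wa_ui h hg]

theorem sub_mem_Y (g : (End k V)ˣ) (w : W) : wa ι g w - w ∈ Y ι g := ⟨w, rfl⟩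

namespace Pr

variable (h : Pr B Q ι g a b θ)
include h

theorem a0 : a ≠ 0 := fun e => by simpa [e] using h.qa

theorem b0 : b ≠ 0 := fun e => by simpa [e] using h.qb

theorem hab : Q a * Q b = 1 := by rw [h.qa, h.qb, one_mul]

theorem hT : T g = θ • 1 := by rw [T_pair h.cl h.e h.hab, h.ab]

theorem inv : Pr B Q ι g⁻¹ b a θ :=
  ⟨h.cl, (SpU B).inv_mem h.sp, h.qb, h.qa, by rw [Orth.B_comm, h.ab], inv_pair h.cl h.e h.hab,
    fun c e => by
      have c0 : c ≠ 0 := fun c0 => h.a0 (by simp [e, c0])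
      exact h.ind c⁻¹ (by simp [e, smul_smul, c0])⟩

theorem act (x : W) :
    wa ι g x = x - (Orth.B Q a x - θ * Orth.B Q b x) • a - Orth.B Q b x • b := by
  rw [wa_pair h.cl h.sp h.e h.hab, h.qa, h.qb, h.ab]; congr 2 <;> ring_nf

theorem mem_Y : w ∈ Y ι g ↔ ∃ α β : k, w = α • a + β • b := by
  constructor
  · rintro ⟨x, rfl⟩
    exact ⟨-(Orth.B Q a x - θ * Orth.B Q b x), -Orth.B Q b x, by simp [h.act]; module⟩
  · rintro ⟨α, β, rfl⟩
    obtain ⟨z, z1, z2⟩ := exists_b h.cl h.ind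
    obtain ⟨z', z3, z4⟩ := exists_b h.cl h.inv.ind
    refine ⟨(-β) • z - (α + β * θ) • z', ?_⟩
    simp only [LinearMap.sub_apply, End.one_apply, h.act, map_sub, map_smul, Orth.B_comm Q a,
      Orth.B_comm Q b, z1, z2, z3, z4, smul_eq_mul]
    module

theorem a_mem : a ∈ Y ι g := h.mem_Y.2 ⟨1, 0, by simp⟩

theorem b_mem : b ∈ Y ι g := h.mem_Y.2 ⟨0, 1, by simp⟩

theorem Y_eq : Y ι g = Submodule.span k {a, b} := by
  ext w; rw [h.mem_Y, Submodule.mem_span_pair]; simp only [eq_comm]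

theorem Y_inv : Y ι g⁻¹ = Y ι g := by rw [h.Y_eq, h.inv.Y_eq, Set.pair_comm]

theorem finrank_Y : finrank k (Y ι g) = 2 := by
  have : LinearIndependent k ![a, b] := (LinearIndependent.pair_iff' h.a0).2 fun c e => h.ind c e.symm
  have e := finrank_span_eq_card this
  rw [Matrix.range_cons_cons_empty] at e
  rw [h.Y_eq, e]; rfl

theorem fix : wa ι g w = w ↔ Orth.B Q a w = 0 ∧ Orth.B Q b w = 0 := by
  rw [fix_iff h.cl h.sp, h.Y_eq, Orth.mem_perp_span]; simp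

theorem Q_comb (α β : k) : Q (α • a + β • b) = α ^ 2 + α * β * θ + β ^ 2 := by
  simp only [Orth.Q_add, Orth.Q_smul, h.qa, h.qb, map_smul, LinearMap.smul_apply, h.ab, smul_eq_mul]
  ring

theorem ne : g ≠ 1 ∧ g ≠ -1 := by
  constructor <;> rintro rfl
  · obtain ⟨c, e⟩ := dep_of_scal h.cl (c := 1) h.a0 (by rw [← h.e]; simp)
    exact h.ind c e
  · obtain ⟨c, e⟩ := dep_of_scal h.cl (c := -1) h.a0 (by rw [← h.e]; simp)
    exact h.ind c e

/-- change of the first vector -/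
theorem base (hy : y ∈ Y ι g) (qy : Q y = 1) : ∃ z, Pr B Q ι g y z θ := by
  obtain ⟨α, β, e⟩ := h.mem_Y.1 hy
  obtain ⟨z, e1, e2, -⟩ := rebase h.cl h.e h.hab e (by simp [qy])
  have := Pr.mk' h.cl h.sp qy (by simpa [qy] using e1) e2 h.ne.1 h.ne.2
  exact ⟨z, sc' h.cl (this.hT.symm.trans h.hT) ▸ this⟩

/-- change of the second vector -/
theorem base' (hy : y ∈ Y ι g) (qy : Q y = 1) : ∃ z, Pr B Q ι g z y θ :=
  let ⟨z, hz⟩ := h.inv.base (h.Y_inv ▸ hy) qy
  ⟨z, by simpa using hz.inv⟩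

/-- singular vectors of the plane -/
theorem sing (hy : y ∈ Y ι g) (y0 : y ≠ 0) (qy : Q y = 0) : ∃ μ : k, g.1 * ι y = μ • ι y := by
  obtain ⟨α, β, rfl⟩ := h.mem_Y.1 hy
  rw [h.Q_comb] at qy
  have β0 : β ≠ 0 := by rintro rfl; simp at qy; simp [qy] at y0
  refine ⟨-α / β, ?_⟩
  simp only [h.e, map_add, map_smul, nc k V, sq' h.cl, ι3 h.cl, h.qa, h.qb, h.ab, map_sub, one_smul]
  have e1 : α * θ + β = -α / β * α := by field_simp; linear_combination qy
  have e2 : -α = -α / β * β := by field_simp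
  linear_combination (norm := module) e1 • ι a + e2 • ι b

theorem nd (h4 : θ ^ 2 ≠ 4) (hy : y ∈ Y ι g) (e : y ∈ Orth.perp Q (Y ι g)) : y = 0 := by
  obtain ⟨α, β, rfl⟩ := h.mem_Y.1 hy
  have e1 := Orth.mem_perp.1 e _ h.a_mem
  have e2 := Orth.mem_perp.1 e _ h.b_mem
  simp only [map_add, map_smul, Orth.B_self, h.qa, h.qb, h.ab, h.inv.ab, smul_eq_mul] at e1 e2
  have h4' := sub_ne_zero.2 h4
  have a1 : α = 0 := (mul_eq_zero.1 (show α * (θ ^ 2 - 4) = 0 by
    linear_combination θ * e2 - 2 * e1)).resolve_right h4'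
  have a2 : β = 0 := (mul_eq_zero.1 (show β * (θ ^ 2 - 4) = 0 by
    linear_combination θ * e1 - 2 * e2)).resolve_right h4'
  simp [a1, a2]

/-- if the product is quadratic, the planes meet -/
theorem meet (h' : Pr B Q ι g' c d θ') (e : T (g * g') = ρ • 1) :
    ∃ y, y ≠ 0 ∧ y ∈ Y ι g ∧ y ∈ Y ι g' := by
  have cl := h.cl
  by_contra! hh
  have n1 : c ∉ Submodule.span k {a, b} := fun hc => hh c h'.a0 (h.Y_eq ▸ hc) h'.a_mem
  have n2 : d ∉ Submodule.span k {a, b, c} := fun hd => by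
    obtain ⟨α, β, γ, hd⟩ := Submodule.mem_span_triple.1 hd
    exact hh (d - γ • c) (sub_ne_zero.2 (h'.ind γ)) (h.mem_Y.2 ⟨α, β, by rw [← hd]; abel⟩)
      (h'.mem_Y.2 ⟨-γ, 1, by module⟩)
  obtain ⟨z, z1, z2⟩ := Orth.Nd.exists_perp_B_ne cl.nd n2
  obtain ⟨y, y1, y2⟩ := Orth.Nd.exists_perp_B_ne cl.nd n1
  simp only [Orth.mem_perp_span, Set.mem_insert_iff, Set.mem_singleton_iff, forall_eq_or_imp,
    forall_eq] at z1 y1
  have e0 : ι a * (ι b * (ι c * ι d)) + ι d * (ι c * (ι b * ι a)) = ρ • 1 := by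
    rw [← e, T]; simp only [nc k V, h.e, h'.e, h.inv.e, h'.inv.e]
  have e1 : ι a * (ι b * ι c) = ι c * (ι b * ι a) := smul_right_injective _ z2 (by
    have := congrArg (fun X => X * ι z - ι z * X) e0
    simp only [nc k V, anti' cl d z, anti' cl a z, antim cl a z, antim cl b z, antim cl c z,
      antim cl d z, z1, zero_smul, zero_sub, sub_self, smul_zero, neg_neg] at this
    simp only
    linear_combination (norm := module) this)
  have e2 : ι a * ι b = ι b * ι a := smul_right_injective _ y2 (by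
    have := congrArg (fun X => X * ι y + ι y * X) e1
    simp only [nc k V, anti' cl c y, anti' cl a y, antim cl a y, antim cl b y, antim cl c y,
      y1, zero_smul, zero_sub, sub_self, smul_zero, neg_neg] at this
    simp only
    linear_combination (norm := module) this)
  obtain ⟨c, hc⟩ := comm_ι cl h.a0 e2
  exact h.ind c hc

/-- commuting quadratic elements with the same invariant -/
theorem comm (h4 : θ ^ 2 ≠ 4) (sg' : IsSp B g') (e' : T g' = θ • 1) (e : g * g' = g' * g) :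
    g' = g ∨ g' = g⁻¹ ∨ (wa ι g' a = a ∧ wa ι g' b = b) := by
  have cl := h.cl
  have e0 := h.hT
  have ec : g'.1 * g.1 = g.1 * g'.1 := congrArg Units.val e.symm
  have ecm : ∀ X : End k V, g'.1 * (g.1 * X) = g.1 * (g'.1 * X) := fun X => by
    rw [← mul_assoc, ec, mul_assoc]
  set j := (2 : k) • g.1 - θ • 1 with hj
  set j' := (2 : k) • g'.1 - θ • 1 with hj'
  have δ0 := sub_ne_zero.2 h4
  obtain ⟨s, m, hs⟩ := exists_sm cl (X := j * j') fun u v => by
    have a1 : ∀ u v, B (j u) v = -B u (j v) := fun u v => by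
      simp [hj, h.sp.left, inv_of_T e0]; ring
    have a2 : ∀ u v, B (j' u) v = -B u (j' v) := fun u v => by
      simp [hj', sg'.left, inv_of_T e']; ring
    have : j' * j = j * j' := by simp only [hj, hj', nc k V, ec]; module
    rw [End.mul_apply, a1, a2, neg_neg, ← End.mul_apply, this]
  have jj : j * j = (θ ^ 2 - 4) • 1 := by simp only [hj, nc k V, sq_of_T e0]; module
  have j1 : (θ ^ 2 - 4) • j' = s • j + j * ι m := by
    have := congrArg (j * ·) hs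
    simpa only [← mul_assoc, jj, mul_add, mul_smul_comm, smul_mul_assoc, mul_one, one_mul] using this
  have e2 : (s * s + Q m) • (1 : End k V) + ι ((2 * s) • m) = ((θ ^ 2 - 4) ^ 2) • 1 + ι 0 := by
    have : (j * j') * (j * j') = ((θ ^ 2 - 4) ^ 2) • 1 := by
      simp only [hj, hj', nc k V, ec, ecm, sq_of_T e0, sqm_of_T e0, sq_of_T e', sqm_of_T e']; module
    simp only [hs, nc k V, sq' cl] at this
    simp only [map_smul, map_zero]
    linear_combination (norm := module) this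
  obtain ⟨e3, e4⟩ := sm_uniq cl e2
  by_cases m0 : m = 0
  · simp only [m0, map_zero, add_zero, mul_zero] at e3 j1
    rcases sq_eq_sq_iff_eq_or_eq_neg.1 (show s ^ 2 = _ by rw [← e3, sq]) with rfl | rfl
    · left
      exact Units.ext (smul_right_injective _ cl.two (by
        simpa [hj, hj'] using smul_right_injective _ δ0 j1))
    · right; left
      rw [neg_smul, ← smul_neg] at j1
      have := smul_right_injective _ δ0 j1
      refine Units.ext (smul_right_injective _ cl.two ?_)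
      simp only [hj, hj', inv_of_T e0] at this ⊢
      linear_combination (norm := module) this
  right; right
  have s0 : s = 0 := by simpa [cl.two, m0] using e4
  obtain ⟨m1, m2⟩ := h.fix.1 (fix_of_comm cl h.sp hs (by simp only [hj, hj', nc k V, ec, ecm]))
  have key : ∀ z, Orth.B Q z m = 0 → ι z * j = -(j * ι z) → wa ι g' z = z := fun z z1 z2 =>
    (wa_eq cl sg').2 (smul_right_injective _ (mul_ne_zero cl.two δ0) (by
      have a1 : (θ ^ 2 - 4) • j' * ι z = ι z * (θ ^ 2 - 4) • j' := by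
        rw [j1, s0, zero_smul, zero_add, ← mul_assoc, z2, neg_mul, mul_assoc, mul_assoc, anti' cl z m, z1]
        simp
      simp only [hj', nc k V, smul_sub] at a1
      simp only
      linear_combination (norm := module) a1))
  refine ⟨key a m1 ?_, key b m2 ?_⟩
  · simp only [hj, h.e, nc k V, sqm cl, ι3 cl, h.qa, h.ab, map_sub, map_smul]; module
  · simp only [hj, h.e, nc k V, sq' cl, ι3 cl, h.qb, h.inv.ab, map_sub, map_smul]; module

theorem comm' (h4 : θ ^ 2 ≠ 4) (h' : Pr B Q ι g' c d θ) (e : g * g' = g' * g) :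
    Y ι g' = Y ι g ∨ Y ι g ≤ Orth.perp Q (Y ι g') := by
  rcases h.comm h4 h'.sp h'.hT e with rfl | rfl | ⟨e1, e2⟩
  · exact Or.inl rfl
  · exact Or.inl h.Y_inv
  · right
    rw [h.Y_eq, Submodule.span_le]
    rintro _ (rfl | rfl)
    exacts [(fix_iff h.cl h'.sp).1 e1, (fix_iff h.cl h'.sp).1 e2]

/-- meeting planes: no vector of the second is orthogonal to the first -/
theorem key [IsAlgClosed k] (h4 : θ ^ 2 ≠ 4) (h' : Pr B Q ι g' c d θ) (e : T (g * g') = ρ • 1)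
    (r1 : ρ ≠ 2) (r2 : ρ ≠ θ ^ 2 - 2) (r3 : 2 * ρ ≠ θ ^ 2) (hz : z ∈ Y ι g')
    (hz' : z ∈ Orth.perp Q (Y ι g)) : z = 0 := by
  have cl := h.cl
  obtain ⟨y, y0, y1, y2⟩ := h.meet h' e
  by_cases qy : Q y = 0
  · exfalso
    obtain ⟨μ, a1⟩ := h.sing y1 y0 qy
    obtain ⟨μ', a2⟩ := h'.sing y2 y0 qy
    obtain ⟨v, hv⟩ : ∃ v, ι y v ≠ 0 := by
      by_contra! hh; exact y0 ((ι_eq_zero cl).1 (LinearMap.ext hh))
    have b1 : g.1 (ι y v) = μ • ι y v := LinearMap.congr_fun a1 v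
    have b2 : g'.1 (ι y v) = μ' • ι y v := LinearMap.congr_fun a2 v
    have b3 : (g * g').1 (ι y v) = (μ * μ') • ι y v := by rw [um, b2, map_smul, b1, smul_smul, mul_comm]
    have c1 := T_eig hv b1
    have c2 := T_eig hv b2
    have c3 := T_eig hv b3
    simp only [h.hT, h'.hT, e, LinearMap.smul_apply, End.one_apply] at c1 c2 c3
    have d1 := smul_left_injective k hv c1
    have d2 := smul_left_injective k hv c2
    have d3 := smul_left_injective k hv c3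
    have μ0 := (inv_eig hv b1).1
    have μ1 := (inv_eig hv b2).1
    rcases mul_eq_zero.1 (show (μ - μ') * (μ * μ' - 1) = 0 by
      have := d1.symm.trans d2; field_simp at this; linear_combination this) with a | a
    · obtain rfl := sub_eq_zero.1 a
      exact r2 (by rw [d3, d1]; field_simp; ring)
    · exact r1 (by rw [d3, sub_eq_zero.1 a]; norm_num)
  obtain ⟨t, t0, ht⟩ := unit_vec cl qy
  obtain ⟨a', p1⟩ := h.base' ((Y ι g).smul_mem t y1) ht
  obtain ⟨d', p2⟩ := h'.base ((Y ι g').smul_mem t y2) ht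
  have e1 : T (g * g') = Orth.B Q a' d' • 1 :=
    T_pair cl (by simp only [nc k V, p1.e, p2.e, sqm cl, ht, one_smul]) (by rw [p1.qa, p2.qb, one_mul])
  obtain rfl := sc' cl (e.symm.trans e1)
  obtain ⟨α, β, rfl⟩ := p2.mem_Y.1 hz
  have f1 := Orth.mem_perp.1 hz' _ p1.a_mem
  have f2 := Orth.mem_perp.1 hz' _ p1.b_mem
  generalize t • y = y at *
  simp only [map_add, map_smul, Orth.B_self, ht, p1.ab, p2.ab, smul_eq_mul] at f1 f2
  have β0 : β = 0 := (mul_eq_zero.1 (show β * (2 * Orth.B Q a' d' - θ ^ 2) = 0 by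
    linear_combination 2 * f1 - θ * f2)).resolve_right (sub_ne_zero.2 r3)
  have α0 : α = 0 := by simpa [β0, cl.two] using f2
  simp [α0, β0]

end Pr

/-- pairwise meeting planes -/
theorem fam {X : Type*} [AddCommGroup X] [Module k X] [FiniteDimensional k X] (hX : 4 ≤ finrank k X)
    {I : Type*} (F : I → Submodule k X) (h2 : ∀ i, finrank k (F i) = 2)
    (hm : ∀ i j, ∃ y, y ≠ 0 ∧ y ∈ F i ∧ y ∈ F j) (hs : ⨆ i, F i = ⊤) : ⨅ i, F i ≠ ⊥ := by
  have line : ∀ i j, F i ≠ F j → ∀ y, y ≠ 0 → y ∈ F i → y ∈ F j → ∀ z ∈ F i, z ∈ F j →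
      ∃ c : k, z = c • y := fun i j ne y y0 y1 y2 z z1 z2 => by
    by_contra! hh
    refine ne (Submodule.eq_of_le_of_finrank_eq (fun w hw => ?_) (by rw [h2, h2]))
    obtain ⟨α, β, rfl⟩ := span2 (h2 i) y1 z1 y0 hh hw
    exact (F j).add_mem ((F j).smul_mem _ y2) ((F j).smul_mem _ z2)
  have K : ∀ i j l, F i ≠ F j → ∀ y, y ≠ 0 → y ∈ F i → y ∈ F j → y ∉ F l → F l ≤ F i ⊔ F j :=
    fun i j l ne y y0 y1 y2 y3 w hw => by
    obtain ⟨z, z0, z1, z2⟩ := hm l i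
    obtain ⟨z', z3, z4, z5⟩ := hm l j
    obtain ⟨α, β, rfl⟩ := span2 (h2 l) z1 z4 z0 (fun c e => by
      obtain ⟨d, hd⟩ := line i j ne y y0 y1 y2 z' (e ▸ (F i).smul_mem c z2) z5
      have d0 : d ≠ 0 := by rintro rfl; simp [hd] at z3
      exact y3 (((F l).smul_mem_iff d0).1 (hd ▸ z4))) hw
    exact Submodule.add_mem_sup ((F i).smul_mem _ z2) ((F j).smul_mem _ z5)
  have lt : ∀ i j, ∃ l, ¬ F l ≤ F i ⊔ F j := fun i j => by
    by_contra! hh
    have a := Submodule.finrank_sup_add_finrank_inf_eq (F i) (F j)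
    rw [top_le_iff.1 (hs ▸ iSup_le hh : ⊤ ≤ F i ⊔ F j), finrank_top, h2, h2] at a
    obtain ⟨y, y0, y1⟩ := hm i j
    have : finrank k (F i ⊓ F j : Submodule k X) = 0 := by omega
    rw [Submodule.finrank_eq_zero] at this
    exact y0 ((Submodule.mem_bot k).1 (this ▸ y1))
  have : Nonempty I := by
    by_contra! hh
    rw [iSup_of_empty] at hs
    have := congrArg (fun U : Submodule k X => finrank k U) hs
    simp at this; omega
  obtain ⟨i⟩ := this
  obtain ⟨j, hj⟩ := lt i i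
  have ij : F i ≠ F j := fun e => hj (by simp [e])
  obtain ⟨l, hl⟩ := lt i j
  have il : F i ≠ F l := fun e => hl (by simp [← e])
  obtain ⟨y, y0, y1, y2⟩ := hm i j
  have y3 : y ∈ F l := by by_contra hh; exact hl (K i j l ij y y0 y1 y2 hh)
  refine (Submodule.ne_bot_iff _).2 ⟨y, (Submodule.mem_iInf _).2 fun n => ?_, y0⟩
  by_contra hh
  have ni : ¬ F n ≤ F i := fun e => hh (Submodule.eq_of_le_of_finrank_eq e (by rw [h2, h2]) ▸ y1)
  obtain ⟨w, w1, w2⟩ := SetLike.not_le_iff_exists.1 ni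
  obtain ⟨s, hs, t, ht, e⟩ := Submodule.mem_sup.1 (K i l n il y y0 y1 y3 hh w1)
  have t1 : t ∈ F i ⊔ F j := by
    have := (F i ⊔ F j).sub_mem (K i j n ij y y0 y1 y2 hh w1) (Submodule.mem_sup_left hs)
    rwa [← e, add_sub_cancel_left] at this
  refine hl fun z hz => ?_
  obtain ⟨α, β, rfl⟩ := span2 (h2 l) y3 ht y0 (fun c e' => w2 (by
    rw [← e, e']; exact (F i).add_mem hs ((F i).smul_mem _ y1))) hz
  exact (F i ⊔ F j).add_mem (Submodule.mem_sup_left ((F i).smul_mem _ y1)) (Submodule.smul_mem _ _ t1)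

variable [IsAlgClosed k]

theorem St.family (h : St B Q ι P π) {X : Set (End k V)ˣ} (hX : ∀ x ∈ X, x ∈ P)
    (hc : ∀ g ∈ P, ∀ x ∈ X, g * x * g⁻¹ ∈ X) (h2 : ∀ x ∈ X, finrank k (Y ι x) = 2)
    (hm : ∀ x ∈ X, ∀ x' ∈ X, ∃ y, y ≠ 0 ∧ y ∈ Y ι x ∧ y ∈ Y ι x') (hx : x ∈ X) : False := by
  have cl := h.cl
  have a1 : ⨆ i : X, Y ι i.1 = ⊤ := (h.irrW _ fun g hg w hw => by
    refine Submodule.iSup_induction (motive := fun w => wa ι g w ∈ ⨆ i : X, Y ι i.1) _ hw
      (fun i w hw => ?_) (by simp) fun a b ha hb => by rw [map_add]; exact add_mem ha hb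
    exact Submodule.mem_iSup_of_mem (⟨_, hc g hg _ i.2⟩ : X)
      (Y_conj cl (h.sp g hg) (h.sp _ (hX _ i.2)) hw)).resolve_left fun e => by
    have := h2 x hx
    rw [le_bot_iff.1 ((le_iSup (fun i : X => Y ι i.1) ⟨x, hx⟩).trans e.le)] at this
    simp at this
  refine fam (by rw [cl.dim]; omega) _ (fun i => h2 _ i.2) (fun i j => hm _ i.2 _ j.2) a1
    ((h.irrW _ fun g hg w hw => (Submodule.mem_iInf _).2 fun i => ?_).resolve_right fun e => ?_)
  · have m := hc _ (P.inv_mem hg) _ i.2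
    have := Y_conj cl (h.sp g hg) (h.sp _ (hX _ m)) ((Submodule.mem_iInf _).1 hw ⟨_, m⟩)
    simpa [mul_assoc] using this
  · have := h2 x hx
    rw [top_le_iff.1 (e.ge.trans (iInf_le (fun i : X => Y ι i.1) ⟨x, hx⟩)), finrank_top, cl.dim] at this
    omega

theorem ne_of_T (h : Cl B Q ι) (h4 : θ ^ 2 ≠ 4) (e : T g = θ • 1) : g ≠ 1 ∧ g ≠ -1 := by
  constructor <;> rintro rfl
  · rw [T_one] at e; exact h4 (by rw [← sc' h e]; norm_num)
  · rw [T_neg, T_one, ← neg_smul] at e; exact h4 (by rw [← sc' h e]; norm_num)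

theorem St.meet (h : St B Q ι P π) (tv : NoTv P) (h4 : θ ^ 2 ≠ 4)
    (hp : ∀ g ∈ P, ∀ g' ∈ P, T g = θ • 1 → T g' = θ • 1 → g * g' = g' * g ∨
      ∃ ρ : k, T (g * g') = ρ • 1 ∧ ρ ≠ 2 ∧ ρ ≠ θ ^ 2 - 2 ∧ 2 * ρ ≠ θ ^ 2)
    (hg : g ∈ P) (e : T g = θ • 1) : False := by
  have cl := h.cl
  let X : Set (End k V)ˣ := {g | g ∈ P ∧ T g = θ • 1}
  have hX : ∀ x ∈ X, x ∈ P := fun x hx => hx.1
  have hc : ∀ g ∈ P, ∀ x ∈ X, g * x * g⁻¹ ∈ X := fun g hg x hx =>
    ⟨P.mul_mem (P.mul_mem hg hx.1) (P.inv_mem hg), by rw [T_conj, hx.2]; simp only [nc k V]⟩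
  have pr : ∀ x ∈ X, ∃ a b, Pr B Q ι x a b θ := fun x hx =>
    h.exists_pr tv hx.1 hx.2 (ne_of_T cl h4 hx.2).1 (ne_of_T cl h4 hx.2).2
  have tri : ∀ x ∈ X, ∀ x' ∈ X, Y ι x ≤ Orth.perp Q (Y ι x') ∨ (∃ y, y ≠ 0 ∧ y ∈ Y ι x ∧ y ∈ Y ι x') ∧
      ∀ z ∈ Y ι x', z ∈ Orth.perp Q (Y ι x) → z = 0 := fun x hx x' hx' => by
    obtain ⟨a, b, p1⟩ := pr x hx
    obtain ⟨c, d, p2⟩ := pr x' hx'
    rcases hp x hx.1 x' hx'.1 hx.2 hx'.2 with e | ⟨ρ, e, r1, r2, r3⟩
    · refine (p1.comm' h4 p2 e).symm.imp_right fun e => ⟨⟨a, p1.a0, p1.a_mem, by rw [e]; exact p1.a_mem⟩, ?_⟩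
      exact fun z hz hz' => p1.nd h4 (e ▸ hz) hz'
    · exact Or.inr ⟨p1.meet p2 e, fun z hz hz' => p1.key h4 p2 e r1 r2 r3 hz hz'⟩
  refine h.family hX hc (fun x hx => let ⟨a, b, p⟩ := pr x hx; p.finrank_Y)
    (fun x hx x' hx' => ((tri x hx x' hx').resolve_left fun hh => ?_).1) (x := g) ⟨hg, e⟩
  obtain ⟨a, b, p1⟩ := pr x hx
  obtain ⟨c, d, p2⟩ := pr x' hx'
  let U := ⨆ i : {i // i ∈ X ∧ ¬ Y ι i ≤ Orth.perp Q (Y ι x')}, Y ι i.1
  have per : ∀ z ∈ X, Y ι z ≤ Orth.perp Q (Y ι x') → U ≤ Orth.perp Q (Y ι z) := fun z hz e =>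
    iSup_le fun i => (tri _ i.2.1 z hz).resolve_right fun ⟨⟨y, y0, y1, y2⟩, _⟩ =>
      y0 (((tri x' hx' _ i.2.1).resolve_left fun e => i.2.2 (Orth.le_perp_comm e)).2 y y1 (e y2))
  rcases h.irrWX hX hc hx p1.ne.1 p1.ne.2 U (fun z hz w hw => by
    by_cases e : Y ι z ≤ Orth.perp Q (Y ι x')
    · rwa [(fix_iff cl (h.sp z hz.1)).2 (per z hz e hw)]
    · simpa using U.add_mem (Submodule.mem_iSup_of_mem ⟨z, hz, e⟩ (sub_mem_Y z w)) hw) with e | e
  · have : c ∈ U := Submodule.mem_iSup_of_mem ⟨x', hx', fun e => p2.a0 (p2.nd h4 p2.a_mem (e p2.a_mem))⟩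
      p2.a_mem
    exact p2.a0 (by simpa [e] using this)
  · exact p1.a0 (p1.nd h4 p1.a_mem (per x hx hh (e ▸ Submodule.mem_top)))

end Cfsg.Agent.H6.S4
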