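import Cfsg.Agent.H6.S4.B2
import Cfsg.Agent.H6.S4.C1

/-! Pairs of quadratic elements: the reducible case and the numerical analysis. -/

set_option autoImplicit false
set_option linter.unusedSimpArgs false
set_option linter.unusedSectionVars false
set_option linter.unusedVariables false

namespace Cfsg.Agent.H6.S4

open Module Cfsg.Agent.H9.Sp Cfsg.Agent.H8.M3

universe u

variable {k V W : Type*} [Field k] [AddCommGroup V] [Module k V] [FiniteDimensional k V]
  [AddCommGroup W] [Module k W] [FiniteDimensional k W]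
  {B : V →ₗ[k] V →ₗ[k] k} {Q : QuadraticForm k W} {ι : W →ₗ[k] End k V}
  {G : Type u} [Group G] {P : Subgroup (End k V)ˣ} {π : P →* G} {p : ℕ}
  {g g' a b d x y : (End k V)ˣ} {θ s t r ρ : k} {m : W} {U : Submodule k V}

theorem T_rec (x : (End k V)ˣ) (n : ℕ) : T (x ^ (n + 2)) = T x * T (x ^ (n + 1)) - T (x ^ n) := by
  simp only [T, add_mul, mul_add, ← Units.val_mul]
  rw [show x * x ^ (n + 1) = x ^ (n + 2) by group, show x⁻¹ * x ^ (n + 1) = x ^ n by group,
    show x * (x ^ (n + 1))⁻¹ = (x ^ n)⁻¹ by group, show x⁻¹ * (x ^ (n + 1))⁻¹ = (x ^ (n + 2))⁻¹ by group]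
  abel

theorem T_cheb {l μ : k} (hl : l * μ = 1) {N : End k V} (hN : N * N = 0) (e : T x = (l + μ) • 1 + N)
    (n : ℕ) : (l - μ) • T (x ^ n) =
      ((l - μ) * (l ^ n + μ ^ n)) • 1 + ((n : k) * (l ^ n - μ ^ n)) • N := by
  induction n using Nat.twoStepInduction with
  | zero => rw [pow_zero, T_one]; module
  | one => rw [pow_one, e]; module
  | more n h1 h2 =>
    rw [T_rec, smul_sub, ← mul_smul_comm, h1, h2, e]
    simp only [nc k V, hN]
    push_cast
    linear_combination (norm := module) ((l - μ) * (l ^ n + μ ^ n) * hl) • (1 : End k V) +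
      ((n : k) * (l ^ n - μ ^ n) * hl) • N

variable [IsAlgClosed k]

theorem St.sing0 (p : ℕ) [Fact p.Prime] [CharP k p] (h : St B Q ι P π) (ns : ∀ g ∈ P, T g = (2 : k) • 1 → g = 1) (hx : x ∈ P)
    (e : T x = s • 1 + ι m) (hm : Q m = 0) (h4 : s ^ 2 ≠ 4) : m = 0 := by
  have c := h.cl
  obtain ⟨l, l0, rfl⟩ := exists_root s
  have hl := mul_inv_cancel₀ l0
  generalize l⁻¹ = μ at *
  have d0 : l - μ ≠ 0 := fun d0 => h4 (by linear_combination (l - μ) * d0 + 4 * hl)
  have ch := T_cheb hl (by rw [sq' c, hm, zero_smul]) e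
  obtain ⟨r, a, hr, hra⟩ := h.ppart (p := p) hx
  have e1 := ch (r * p ^ a)
  rw [hra, T_one, smul_smul, ← map_smul, ← add_zero (_ • 1), ← map_zero ι] at e1
  have e2 := mul_left_cancel₀ d0 (sm_uniq c e1).1
  have hp : ∀ n, l ^ n * μ ^ n = 1 := fun n => by rw [← mul_pow, hl, one_pow]
  have e3 : l ^ r = 1 := by
    have : (l ^ r - 1) ^ p ^ a = 0 := by
      rw [sub_pow_char_pow, ← pow_mul, one_pow]
      exact pow_eq_zero_iff two_ne_zero |>.1 (by linear_combination -l ^ (r * p ^ a) * e2 - hp (r * p ^ a))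
    exact sub_eq_zero.1 (pow_eq_zero_iff (pow_pos (Fact.out : p.Prime).pos a).ne' |>.1 this)
  have e4 : μ ^ r = 1 := by simpa [e3] using hp r
  have e5 : x ^ r = 1 := ns _ (P.pow_mem hx r) (smul_right_injective _ d0 (by
    simp only [ch r, e3, e4]; module))
  have e6 := ch (r + 1)
  rw [pow_succ x, e5, one_mul, e, pow_succ l, pow_succ μ, e3, e4] at e6
  have : ι (((r : k) * (l - μ)) • m) = 0 := by
    rw [map_smul]; push_cast at e6; linear_combination (norm := module) -e6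
  simpa [d0, cast_ne hr] using (ι_eq_zero c).1 this

variable [Fact p.Prime] [CharP k p]

theorem S2.sing3 (h : S2 p B Q ι P π) (hp : p = 3) (hx : x ∈ P) (e : T x = (2 : k) • 1 + ι m)
    (hm : Q m = 0) : m = 0 := by
  have := (h.u3 hp hx ⟨4, four_of_T h.cl e hm⟩).2
  rw [e, add_eq_left] at this
  exact (ι_eq_zero h.cl).1 this

theorem three_ne (h5 : 5 ≤ p) : (3 : k) ≠ 0 := fun e => by
  have := eq_of_cast (k := k) (p := p) (n := 3) (by decide) (by exact_mod_cast e); omega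

theorem S2.unip1 (h : S2 p B Q ι P π) (hx : x ∈ P) (e : T x = (1 : k) • 1 + ι m) (hm : Q m = 0) :
    m = 0 := by
  rcases h.un with ⟨p5, ns⟩ | ⟨hp, -⟩
  · exact h.toSt.sing0 p ns hx e hm fun e => three_ne (k := k) p5 (by linear_combination -e)
  · refine neg_eq_zero.1 (h.sing3 hp (h.neg hx) ?_ (by rw [Orth.Q_neg, hm]))
    rw [T_neg, e, map_neg]
    linear_combination (norm := module) -(three_eq (k := k) hp) • (1 : End k V)

theorem comm_sq (e : T g = θ • 1) (e' : T g' = θ • 1) :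
    (g.1 * g'.1 - g'.1 * g.1) * (g.1 * g'.1 - g'.1 * g.1) =
      (T (g * g') - (2 : k) • 1) * (T (g * g') - (θ ^ 2 - 2) • 1) := by
  obtain ⟨c1, c2⟩ := xi_comm e e'
  have sw := swap_eq e e'
  generalize T (g * g') = ξ at *
  have swm : ∀ X, g'.1 * (g.1 * X) =
      (ξ - g.1 * g'.1 + θ • g.1 + θ • g'.1 - (θ * θ) • 1) * X := fun X => by rw [← mul_assoc, sw]
  have c3 : ∀ X, g.1 * (ξ * X) = ξ * (g.1 * X) := fun X => by rw [← mul_assoc, ← c1, mul_assoc]
  have c4 : ∀ X, g'.1 * (ξ * X) = ξ * (g'.1 * X) := fun X => by rw [← mul_assoc, ← c2, mul_assoc]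
  simp only [nc k V, sw, swm, c3, c4, ← c1, ← c2, sq_of_T e, sq_of_T e', sqm_of_T e, sqm_of_T e']
  module

theorem S2.comm_of_sq (h : S2 p B Q ι P π) (hg : g ∈ P) (hg' : g' ∈ P) (e : T g = θ • 1)
    (e' : T g' = θ • 1) (θ0 : θ ≠ 0)
    (h0 : (g.1 * g'.1 - g'.1 * g.1) * (g.1 * g'.1 - g'.1 * g.1) = 0) : g * g' = g' * g := by
  have cl := h.cl
  set E := g.1 * g'.1 - g'.1 * g.1 with hE
  have a1 : E * g⁻¹.1 = g.1 * E := by simp only [hE, inv_of_T e, nc k V, sq_of_T e, sqm_of_T e]; module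
  have a2 : E * g'⁻¹.1 = g'.1 * E := by
    simp only [hE, inv_of_T e', nc k V, sq_of_T e', sqm_of_T e']; module
  have a3 : E * g.1 = g⁻¹.1 * E := by simp only [hE, inv_of_T e, nc k V, sq_of_T e, sqm_of_T e]; module
  have a4 : E * g'.1 = g'⁻¹.1 * E := by
    simp only [hE, inv_of_T e', nc k V, sq_of_T e', sqm_of_T e']; module
  have m : ∀ {X Y : End k V}, E * X = Y * E → ∀ Z, E * (X * Z) = Y * (E * Z) := fun e Z => by
    rw [← mul_assoc, e, mul_assoc]
  have h0' : ∀ Z, E * (E * Z) = 0 := fun Z => by rw [← mul_assoc, h0, zero_mul]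
  have sw : g'.1 * (g.1 * E) = g.1 * (g'.1 * E) := by
    have := h0
    nth_rw 1 [hE] at this
    simp only [nc k V] at this
    exact (sub_eq_zero.1 this).symm
  set c := g * g' * g⁻¹ * g'⁻¹ with hc
  have hcP : c ∈ P := P.mul_mem (P.mul_mem (P.mul_mem hg hg') (P.inv_mem hg)) (P.inv_mem hg')
  have c1 : c.1 = 1 + g.1 * (g'.1 * E) := by
    rw [← a2, ← m a1]; simp only [hc, hE, nc k V]; abel
  have key : ∀ z : (End k V)ˣ, z ∈ P → T z = θ • 1 → E * z.1 = z⁻¹.1 * E → E * z⁻¹.1 = z.1 * E →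
      (∀ X, g.1 * (g'.1 * (z.1 * (E * X))) = z.1 * (g.1 * (g'.1 * (E * X)))) → p = 3 → c ≠ 1 →
      z * c = c * z ∧ θ ^ 2 = 4 := fun z hz ez b1 b2 b3 hp c0 => by
    have E0 : E ≠ 0 := fun e => c0 (Units.ext (by simp [c1, e]))
    have uc : Un c := ⟨2, by simp only [c1, sq, add_sub_cancel_left, nc k V, m a3, m a4, h0', h0]⟩
    have d1 : (z * c * z⁻¹).1 = 1 + z.1 * (z.1 * (g.1 * (g'.1 * E))) := by
      have := b3 1
      simp only [mul_one] at this
      simp only [c1, nc k V, b2, this]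
    have d2 : ∀ t : k, z.1 * (z.1 * (g.1 * (g'.1 * E))) = t • (g.1 * (g'.1 * E)) →
        (θ • z.1) * (g.1 * (g'.1 * E)) = (t + 1) • (g.1 * (g'.1 * E)) := fun t e => by
      rw [sqm_of_T ez] at e
      simp only [nc k V]
      linear_combination (norm := module) e
    have n0 : g.1 * (g'.1 * E) ≠ 0 := by simpa using E0
    rcases h.h9 hp hcP (P.mul_mem (P.mul_mem hz hcP) (P.inv_mem hz)) uc (uc.conj z) c0 (Units.ext (by
      rw [Units.val_mul, Units.val_mul (z * c * z⁻¹), d1, c1]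
      simp only [nc k V, m a3, m a4, m b1, h0', h0]; abel)) with f | f | f
    · exact absurd (by simpa [mul_inv_eq_one] using f) c0
    · refine ⟨mul_inv_eq_iff_eq_mul.1 f, ?_⟩
      have f1 := congrArg Units.val f
      rw [d1, c1, add_right_inj] at f1
      have f2 := d2 1 (by rw [f1, one_smul])
      have f3 := congrArg (θ • z.1 * ·) f2
      simp only [nc k V, smul_smul, f1] at f2 f3
      exact smul_left_injective k n0 (by simp only; linear_combination (norm := module) f3 + 2 • f2)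
    · exfalso
      have f1 := congrArg Units.val (eq_inv_iff_mul_eq_one.1 f)
      rw [Units.val_mul, d1, c1] at f1
      simp only [nc k V, m a3, m a4, h0', h0] at f1
      have f2 := d2 (-1) (by linear_combination (norm := module) f1)
      simp [θ0, E0] at f2
  have c0 : c = 1 := by
    by_contra c0
    have uc : T c = (2 : k) • 1 :=
      T_two_iff.2 (by simp only [c1, add_sub_cancel_left, nc k V, m a3, m a4, h0', h0])
    have hp := h.p3 hcP uc c0
    have swm : ∀ X, g'.1 * (g.1 * (E * X)) = g.1 * (g'.1 * (E * X)) := fun X => by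
      simpa only [nc k V] using congrArg (· * X) sw
    obtain ⟨k1, k2⟩ := key g hg e a3 a1 (fun X => by rw [swm]) hp c0
    obtain ⟨k3, -⟩ := key g' hg' e' a4 a2 (fun X => by rw [← m a2, swm, ← swm, m a2]) hp c0
    have fin : ∀ z : (End k V)ˣ, z ∈ P → T z = θ • 1 → z * c = c * z →
        ∃ n : ℤ, z = c ^ n ∨ z = -c ^ n := fun z hz ez k1 => by
      have zz : ∀ z : (End k V)ˣ, z ∈ P → T z = (2 : k) • 1 → z * c = c * z → ∃ n : ℤ, z = c ^ n :=
        fun z hz ez k1 => by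
        rcases h.h9 hp hcP hz (un_of_T2 uc) (un_of_T2 ez) c0 k1.symm with f | f | f
        exacts [⟨0, by simp [f]⟩, ⟨1, by simp [f]⟩, ⟨-1, by simp [f]⟩]
      rcases sq_eq_sq_iff_eq_or_eq_neg.1 (show θ ^ 2 = 2 ^ 2 by rw [k2]; norm_num) with rfl | rfl
      · exact (zz z hz ez k1).imp fun n => Or.inl
      · exact (zz (-z) (h.neg hz) (by rw [T_neg, ez]; simp) (by simp [k1])).imp fun n e =>
          Or.inr (neg_eq_iff_eq_neg.1 e)
    obtain ⟨i, hi⟩ := fin g hg e k1
    obtain ⟨j, hj⟩ := fin g' hg' e' k3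
    have : g * g' = g' * g := by
      clear_value c
      rcases hi with rfl | rfl <;> rcases hj with rfl | rfl <;> simp [zpow_mul_comm]
    exact c0 (by rw [hc, this]; group)
  rw [hc, mul_inv_eq_one, mul_inv_eq_iff_eq_mul] at c0
  exact c0

theorem S2.pair_red (h : S2 p B Q ι P π) (hg : g ∈ P) (hg' : g' ∈ P) (e : T g = θ • 1)
    (e' : T g' = θ • 1) (θ0 : θ ≠ 0) (hx : T (g * g') = s • 1 + ι m) (hr : r * r = Q m)
    (h1 : s + r = 2 ∨ s + r = θ ^ 2 - 2) (h2 : s - r = 2 ∨ s - r = θ ^ 2 - 2) : g * g' = g' * g := by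
  have cl := h.cl
  refine h.comm_of_sq hg hg' e e' θ0 ?_
  have e1 : (T (g * g') - (2 : k) • 1) * (T (g * g') - (θ ^ 2 - 2) • 1) =
      ((s - 2) * (s - (θ ^ 2 - 2)) + r * r) • 1 + (2 * s - θ ^ 2) • ι m := by
    simp only [hx, nc k V, sq' cl, ← hr]; module
  have hx' : T (g⁻¹ * g') = (θ ^ 2 - s) • 1 + ι (-m) := by rw [T_inv_mul e e', hx, map_neg]; module
  have m1 := P.mul_mem hg hg'
  have m2 := P.mul_mem (P.inv_mem hg) hg'
  have h4 : θ ^ 2 ≠ 4 → (θ ^ 2 - 2) ^ 2 ≠ 4 := fun h4 e => mul_ne_zero (pow_ne_zero 2 θ0)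
    (sub_ne_zero.2 h4) (by linear_combination e)
  rw [comm_sq e e', e1]
  rcases h1 with h1 | h1 <;> rcases h2 with h2 | h2
  · obtain rfl : r = 0 := mul_left_cancel₀ cl.two (by linear_combination h1 - h2)
    obtain rfl : s = 2 := by simpa using h1
    have hm : Q m = 0 := by simpa using hr.symm
    by_cases t4 : θ ^ 2 = 4
    · rw [t4]; module
    have : m = 0 := by
      rcases h.un with ⟨p5, ns⟩ | ⟨hp, -⟩
      · exact neg_eq_zero.1 (h.toSt.sing0 p ns m2 hx' (by rw [Orth.Q_neg, hm]) (h4 t4))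
      · exact h.sing3 hp m1 hx hm
    simp [this]
  · rw [show (s - 2) * (s - (θ ^ 2 - 2)) + r * r = 0 by linear_combination (s - (θ ^ 2 - 2)) * h1 - r * h2,
      show 2 * s - θ ^ 2 = 0 by linear_combination h1 + h2]; simp
  · rw [show (s - 2) * (s - (θ ^ 2 - 2)) + r * r = 0 by linear_combination (s - (θ ^ 2 - 2)) * h2 + r * h1,
      show 2 * s - θ ^ 2 = 0 by linear_combination h1 + h2]; simp
  · obtain rfl : r = 0 := mul_left_cancel₀ cl.two (by linear_combination h1 - h2)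
    obtain rfl : s = θ ^ 2 - 2 := by simpa using h1
    have hm : Q m = 0 := by simpa using hr.symm
    by_cases t4 : θ ^ 2 = 4
    · rw [t4]; module
    have : m = 0 := by
      rcases h.un with ⟨p5, ns⟩ | ⟨hp, -⟩
      · exact h.toSt.sing0 p ns m1 hx hm (h4 t4)
      · exact neg_eq_zero.1 (h.sing3 hp m2 (by rw [hx', sub_sub_cancel]) (by rw [Orth.Q_neg, hm]))
    simp [this]

/-- an irreducible eigenvalue -/
def Irr (θ ρ : k) : Prop := ρ ≠ 2 ∧ ρ ≠ θ ^ 2 - 2 ∧ ∃ κ, Ex κ θ ∧ Ex κ ρ ∧ Ex κ (θ ^ 2 - ρ) ∧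
  Ex κ (θ * ρ - θ) ∧ Ex κ (2 * θ ^ 2 + ρ ^ 2 - θ ^ 2 * ρ - 2)

theorem S2.pair_cases (h : S2 p B Q ι P π) (hg : g ∈ P) (hg' : g' ∈ P) (e : T g = θ • 1)
    (e' : T g' = θ • 1) (θ0 : θ ≠ 0) : g * g' = g' * g ∨ ∃ (s r : k) (m : W), T (g * g') = s • 1 + ι m ∧
      r * r = Q m ∧ Irr θ (s + r) ∧ (Irr θ (s - r) ∨ s - r = 2 ∨ s - r = θ ^ 2 - 2) := by
  have cl := h.cl
  obtain ⟨s, m, hx⟩ := exists_T cl (h.sp _ (P.mul_mem hg hg'))
  obtain ⟨r, hr⟩ := IsAlgClosed.exists_eq_mul_self (Q m)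
  have key : ∀ r : k, r * r = Q m → Irr θ (s + r) ∨ s + r = 2 ∨ s + r = θ ^ 2 - 2 := fun r hr => by
    by_contra! hh
    obtain ⟨v, v0, hv⟩ := exists_eig_ι cl hr
    exact hh.1 ⟨hh.2.1, hh.2.2, h.pair_ex hg hg' e e' θ0 hx v0 (by simp [hx, hv, add_smul]) hh.2.1 hh.2.2⟩
  have k1 := key r hr.symm
  have k2 := key (-r) (by simp [hr])
  rcases k1 with k1 | k1
  · exact Or.inr ⟨s, r, m, hx, hr.symm, k1, by simpa only [sub_eq_add_neg] using k2⟩
  rcases k2 with k2 | k2
  · exact Or.inr ⟨s, -r, m, hx, by simp [hr], k2, Or.inr (by simpa using k1)⟩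
  · exact Or.inl (h.pair_red hg hg' e e' θ0 hx hr.symm k1 (by simpa only [sub_eq_add_neg] using k2))

theorem ex_half (h2 : (2 : k) ≠ 0) (h7 : (7 : k) = 0) (e : 2 * t = 3)
    (h : t = 0 ∨ t ^ 2 = 1 ∨ t ^ 2 = 2) : False := by
  rcases h with a | a | a
  · exact one_ne_zero (α := k) (by linear_combination h7 + 2 * e - 4 * a)
  · exact h2 (by linear_combination h7 + (2 * t + 3) * e - 4 * a)
  · exact one_ne_zero (α := k) (by linear_combination 4 * a - (2 * t + 3) * e)

theorem Irr.four (h : Irr θ ρ) (h2 : (2 : k) ≠ 0) (e : θ ^ 2 = 2) : ρ = 1 := by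
  obtain ⟨h1, h3, κ, a1, a2, a3, a4, a5⟩ := h
  have hκ : κ ≠ 5 := by
    rintro rfl
    rcases a1 with a | a | ⟨a, -⟩ | ⟨-, a⟩
    · exact h2 (by rw [← e, a]; simp)
    · exact one_ne_zero (α := k) (by linear_combination a - e)
    · omega
    · exact one_ne_zero (α := k) (by linear_combination (θ ^ 2 - 1) * e - a)
  simp only [Ex, hκ, false_and, or_false, e] at a2 a3 a5 h3
  replace a5 := a5.imp_right (Or.imp_right And.right)
  rcases a2 with a | a | ⟨-, a⟩
  · exact absurd (by rw [a]; ring) h3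
  · refine (sq_one a).resolve_right ?_
    rintro rfl
    rcases a3 with b | b | ⟨-, b⟩
    · exact h1 (by linear_combination -b)
    · exact pow_ne_zero 3 h2 (by linear_combination b)
    · exact ex_half h2 (by linear_combination b) (by linear_combination b) a5
  · rcases a3 with b | b | ⟨-, b⟩
    · exact absurd (by linear_combination -b) h1
    · exact (ex_half h2 (by linear_combination (-16 + 4 * ρ + 5) * a - (4 * ρ + 5) * b)
        (mul_left_cancel₀ h2 (by linear_combination 2 * a + 2 * b)) a5).elim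
    · exact mul_left_cancel₀ (pow_ne_zero 2 h2) (by linear_combination a - b)

theorem Irr.three (h : Irr (-1) ρ) (h2 : (2 : k) ≠ 0) : ρ = 0 ∨ ρ = 1 ∨ ρ ^ 2 = ρ + 1 := by
  obtain ⟨h1, h3, κ, a1, a2, a3, a4, a5⟩ := h
  by_contra! hh
  obtain ⟨n0, n1, n2⟩ := hh
  have b3 : κ = 4 ∧ (1 - ρ) ^ 2 = 2 ∨ κ = 5 ∧ (1 - ρ) ^ 4 - 3 * (1 - ρ) ^ 2 + 1 = 0 := by
    rcases a3 with b | b | b
    · exact absurd (by linear_combination -b) n1
    · exact absurd (show ρ * (ρ - 2) = 0 by linear_combination b) (mul_ne_zero n0 (sub_ne_zero.2 h1))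
    · simpa using b
  rcases a2 with a | a | ⟨rfl, a⟩ | ⟨rfl, a⟩
  · exact n0 a
  · exact (sq_one a).elim n1 fun e => h3 (by rw [e]; ring)
  · obtain ⟨-, b⟩ := b3.resolve_right (by simp)
    simp only [Ex, show (4 : ℕ) ≠ 5 by decide, false_and, or_false, true_and] at a5
    exact ex_half h2 (by linear_combination (-4 + 2 * ρ + 1) * a - (2 * ρ + 1) * b)
      (by linear_combination a + b) a5
  · obtain ⟨-, b⟩ := b3.resolve_left (by simp)
    have c : ρ ^ 2 + ρ - 1 = 0 := (mul_eq_zero.1 (show (ρ ^ 2 - (ρ + 1)) * (ρ ^ 2 + ρ - 1) = 0 by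
      linear_combination a)).resolve_left (sub_ne_zero.2 n2)
    have d : 2 * ρ - 1 = 0 := (mul_eq_zero.1 (show 2 ^ 2 * ρ * (2 * ρ - 1) = 0 by
      linear_combination b - (ρ ^ 2 - 5 * ρ + 1) * c)).resolve_left (mul_ne_zero (pow_ne_zero 2 h2) n0)
    exact one_ne_zero (α := k) (by linear_combination (2 * ρ + 3) * d - 4 * c)

theorem gold5 (e : θ ^ 2 = θ + 1) (h4 : θ ^ 2 ≠ 4) : (5 : k) ≠ 0 := fun h5 => h4 (by
  have : θ + 2 = 0 := pow_eq_zero_iff two_ne_zero |>.1 (by linear_combination e + (θ + 1) * h5)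
  linear_combination (θ - 2) * this)

theorem gnorm (e : θ ^ 2 = θ + 1) {a b : k} (h : a + b * θ = 0) : a ^ 2 + a * b - b ^ 2 = 0 := by
  linear_combination (a + b - b * θ) * h + b ^ 2 * e

theorem Irr.five (h : Irr θ ρ) (h2 : (2 : k) ≠ 0) (e : θ ^ 2 = θ + 1) (h4 : θ ^ 2 ≠ 4) :
    ρ = 1 ∨ ρ = θ := by
  obtain ⟨h1, h3, κ, a1, a2, a3, a4, a5⟩ := h
  have h5 := gold5 e h4
  have o : (1 : k) ≠ 0 := one_ne_zero
  have h8 := pow_ne_zero 4 h2
  have hκ : κ ≠ 4 := by
    rintro rfl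
    rcases a1 with a | a | ⟨-, a⟩ | ⟨a, -⟩
    · exact o (by linear_combination (θ - 1) * a - e)
    · exact o (by linear_combination -gnorm e (a := 0) (b := 1) (by linear_combination a - e))
    · exact o (by linear_combination -gnorm e (a := -1) (b := 1) (by linear_combination a - e))
    · omega
  simp only [Ex, hκ, false_and, false_or] at a2 a3 a4 a5
  have K : ∀ x : k, x ^ 2 = 3 * θ + 2 →
      ¬ (x = 0 ∨ x ^ 2 = 1 ∨ κ = 5 ∧ x ^ 4 - 3 * x ^ 2 + 1 = 0) := fun x hx hh => by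
    rcases hh with a | a | ⟨-, a⟩
    · exact o (by linear_combination gnorm e (a := 2) (b := 3) (by linear_combination x * a - hx))
    · exact h5 (by linear_combination -gnorm e (a := 1) (b := 3) (by linear_combination a - hx))
    · exact h8 (by linear_combination (gnorm e (a := 8) (b := 12)
        (by linear_combination a - (x ^ 2 + 3 * θ - 1) * hx - 9 * e)))
  by_contra! hh
  obtain ⟨n1, n2⟩ := hh
  rcases a2 with a | a | ⟨-, a⟩
  · exact K _ (by rw [a]; linear_combination (θ ^ 2 + θ + 2) * e) a3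
  · obtain rfl := (sq_one a).resolve_left n1
    rcases a4 with b | b | ⟨-, b⟩
    · exact h8 (by linear_combination -4 * gnorm e (a := 0) (b := 2) (by linear_combination -b))
    · exact h5 (by linear_combination gnorm e (a := 3) (b := 4) (by linear_combination b - 4 * e))
    · have c : 7 + 12 * θ = 0 := (mul_eq_zero.1 (show 3 * (7 + 12 * θ) = 0 by
        linear_combination b - (16 * θ ^ 2 + 16 * θ + 20) * e)).resolve_left fun c =>
          h1 (by linear_combination -c)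
      have d : (11 : k) = 0 := by linear_combination -gnorm e c
      have f : θ = 4 := by linear_combination c - (θ + 1) * d
      subst f
      rcases a3 with b | b | ⟨-, b⟩
      · exact o (by linear_combination 2 * b - 3 * d)
      · exact h2 (by linear_combination b - 26 * d)
      · exact o (by linear_combination b - 7514 * d)
  · have : (ρ - θ) * (ρ + θ) * ((ρ - (θ ^ 2 - 2)) * (ρ + θ - 1)) = 0 := by
      linear_combination a + ((θ ^ 2 - θ + 1) - 2 * ρ ^ 2 - (ρ ^ 2 - θ ^ 2) * (ρ + θ - 1)) * e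
    simp only [mul_eq_zero, sub_eq_zero, n2, h3, false_or] at this
    rcases this with b | b
    · obtain rfl : ρ = -θ := by linear_combination b
      rcases a3 with c | c | ⟨-, c⟩
      · exact o (by linear_combination -gnorm e (a := 1) (b := 2) (by linear_combination c - e))
      · exact h8 (by linear_combination (-gnorm e (a := 4) (b := 8)
          (by linear_combination c - (θ ^ 2 + 3 * θ + 5) * e)))
      · have d : (3 : k) * 5 * (3 * 5) = 0 := by
          linear_combination (gnorm e (a := 75) (b := 120) (by linear_combination c -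
            (θ ^ 6 + 5 * θ ^ 5 + 12 * θ ^ 4 + 21 * θ ^ 3 + 31 * θ ^ 2 + 46 * θ + 74) * e))
        have d3 : (3 : k) = 0 := by simpa [h5] using d
        exact K _ (by linear_combination (θ ^ 4 + 7 * θ ^ 3 + 17 * θ ^ 2 + 20 * θ + 25) * e +
          (14 * θ + 9) * d3) a5
    · obtain rfl : ρ = 1 - θ := by linear_combination b
      exact K _ (by linear_combination (θ ^ 2 + θ + 2) * e) a4

end Cfsg.Agent.H6.S4
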