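import Cfsg.Agent.H6.S4.B3

/-! Elements of order four with a fixed plane do not occur. -/

set_option autoImplicit false
set_option linter.unusedSimpArgs false
set_option linter.unusedSectionVars false
set_option linter.unusedVariables false

namespace Cfsg.Agent.H6.S4

open Module Cfsg.Agent.H9.Sp Cfsg.Agent.H8.M3

universe u

variable {k V W : Type*} [Field k] [AddCommGroup V] [Module k V] [FiniteDimensional k V]
  [AddCommGroup W] [Module k W] [FiniteDimensional k W]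
  {B : V →ₗ[k] V →ₗ[k] k} {Q : QuadraticForm k W} {ι : W →ₗ[k] End k V}
  {G : Type u} [Group G] {P : Subgroup (End k V)ˣ} {π : P →* G} {p : ℕ}
  {g g' a b d x y : (End k V)ˣ} {θ s t r ρ : k} {m u v w : W}

theorem T_conj_mem (hg : g ∈ P) (hx : x ∈ P ∧ T x = θ • 1) :
    g * x * g⁻¹ ∈ P ∧ T (g * x * g⁻¹) = θ • 1 :=
  ⟨P.mul_mem (P.mul_mem hg hx.1) (P.inv_mem hg), by rw [T_conj, hx.2]; simp only [nc k V]⟩

/-- elements of order four fixing a plane -/
structure Y4 (Q : QuadraticForm k W) (ι : W →ₗ[k] End k V) (P : Subgroup (End k V)ˣ) (u : W)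
    (y : (End k V)ˣ) : Prop where
  mem : y ∈ P
  q : Q u = 1
  e1 : y.1 * (1 + ι u) = 1 + ι u
  e2 : T y * (1 - ι u) = 0
  e3 : y.1 * ι u = ι u * y.1

namespace Y4

variable (h : St B Q ι P π) (hy : Y4 Q ι P u y)
include h hy

theorem fix : wa ι y u = u := (wa_eq h.cl (h.sp y hy.mem)).2 hy.e3

theorem sq : (y * y).1 = ι u := smul_right_injective _ h.cl.two (by
  have a1 := congrArg (y.1 * ·) hy.e1
  have a2 := congrArg (y.1 * ·) hy.e2
  have a3 := hy.e1
  simp only [T, nc k V] at a1 a2 a3 ⊢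
  linear_combination (norm := module) a1 + a2 + a3)

theorem rt : Rt Q ι P u := ⟨hy.q, _, P.mul_mem hy.mem hy.mem, hy.sq h⟩

theorem conj (hg : g ∈ P) : Y4 Q ι P (wa ι g u) (g * y * g⁻¹) := by
  have sg := h.sp g hg
  refine ⟨P.mul_mem (P.mul_mem hg hy.mem) (P.inv_mem hg), by rw [Q_wa h.cl sg, hy.q], ?_, ?_, ?_⟩
  · simpa only [ι_wa h.cl sg, nc k V] using congrArg (g.1 * · * g⁻¹.1) hy.e1
  · simpa only [ι_wa h.cl sg, T_conj, nc k V] using congrArg (g.1 * · * g⁻¹.1) hy.e2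
  · simpa only [ι_wa h.cl sg, nc k V] using congrArg (g.1 * · * g⁻¹.1) hy.e3

theorem perp (hw : Orth.B Q w u = 0) : Orth.B Q w (wa ι y w) = 0 := by
  have cl := h.cl
  have sy := h.sp y hy.mem
  have a0 : (1 : End k V) - ι u ≠ 0 := fun e => by
    simpa using (scal cl (x := u) (c := 1) (by rw [one_smul, ← sub_eq_zero.1 e])).2
  have a1 : ι w * (1 - ι u) = (1 + ι u) * ι w := by simp only [nc k V, anti' cl w u, hw]; module
  have a2 : ι w * (1 + ι u) = (1 - ι u) * ι w := by simp only [nc k V, anti' cl w u, hw]; module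
  have a3 : y⁻¹.1 * (1 - ι u) = (1 - ι u) * y⁻¹.1 := by
    simp only [nc k V, comm_inv hy.e3.symm]
  have a4 : y⁻¹.1 * (1 + ι u) = 1 + ι u := by nth_rw 1 [← hy.e1]; simp only [nc k V]
  have b1 : ι w * (y.1 * ι w * y⁻¹.1) * (1 - ι u) = Q w • (y⁻¹.1 * (1 - ι u)) := by
    rw [mul_assoc, mul_assoc, a3, mul_assoc, ← mul_assoc (ι w) (1 - ι u), a1, ← mul_assoc y.1,
      ← mul_assoc y.1, hy.e1, ← mul_assoc, ← mul_assoc, a2]
    simp only [nc k V, sqm cl, smul_sub]
  have b2 : y.1 * ι w * y⁻¹.1 * ι w * (1 - ι u) = Q w • (y.1 * (1 - ι u)) := by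
    rw [mul_assoc _ (ι w), a1, mul_assoc _ y⁻¹.1, ← mul_assoc y⁻¹.1, a4, mul_assoc, ← mul_assoc (ι w),
      a2, mul_assoc _ (ι w), sq' cl]
    simp only [nc k V, smul_sub]
  have c1 := congrArg (· * (1 - ι u)) (anti' cl w (wa ι y w))
  simp only [ι_wa cl sy, sub_mul, b1, b2, smul_mul_assoc, one_mul] at c1
  have c2 := hy.e2
  rw [T, add_mul] at c2
  exact (smul_eq_zero.1 (show Orth.B Q w (wa ι y w) • ((1 : End k V) - ι u) = 0 by
    linear_combination (norm := module) Q w • c2 - c1)).resolve_right a0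

theorem bil (w : W) : Orth.B Q w (wa ι y w) = Orth.B Q u w ^ 2 / 2 := by
  have cl := h.cl
  have h2 := cl.two
  have a := hy.perp h (w := w - (Orth.B Q u w / 2) • u) (by
    simp [Orth.B_self, hy.q, Orth.B_comm Q w]; field_simp; ring)
  have b : Orth.B Q u (wa ι y w) = Orth.B Q u w := by
    nth_rw 1 [← hy.fix h]; rw [b_wa cl (h.sp y hy.mem)]
  simp only [map_sub, map_smul, hy.fix h, LinearMap.sub_apply, LinearMap.smul_apply, smul_eq_mul, b,
    Orth.B_self, hy.q, Orth.B_comm Q w u] at a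
  field_simp at a ⊢
  linear_combination a

theorem nofix (qw : Q w = 1) (e : wa ι y w = w) : w = u ∨ w = -u := by
  have cl := h.cl
  have sy := h.sp y hy.mem
  have a := wa_rt cl ((SpU B).mul_mem sy sy) hy.q (hy.sq h) w
  rw [wa_mul cl sy sy, e, e] at a
  have b : w = (Orth.B Q u w / 2) • u := smul_right_injective _ cl.two (by
    simp only [smul_smul, mul_div_cancel₀ _ cl.two]; linear_combination (norm := module) a)
  generalize Orth.B Q u w / 2 = c at b
  rw [b, Orth.Q_smul, hy.q, mul_one, mul_self_eq_one_iff] at qw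
  rcases qw with rfl | rfl <;> simp [b]

end Y4

variable [IsAlgClosed k] [Fact p.Prime] [CharP k p]

theorem S2.quad0 (h : S2 p B Q ι P π) (hg : g ∈ P) (e : T g = θ • 1) :
    θ = 0 ∨ θ ^ 2 = 4 ∨ θ ^ 2 = 1 ∨ θ ^ 2 = 2 ∨ θ ^ 4 - 3 * θ ^ 2 + 1 = 0 := by
  by_contra! hh
  obtain ⟨n1, n2⟩ := ne_of_T h.cl hh.2.1 e
  refine (h.comm_class (X := {x | x ∈ P ∧ T x = θ • 1}) (fun _ hx => hx.1) (fun _ hg _ => T_conj_mem hg)
    (fun x hx y hy => Or.inl ?_) ⟨hg, e⟩).elim n1 n2
  refine (h.pair_cases hx.1 hy.1 hx.2 hy.2 hh.1).resolve_right ?_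
  rintro ⟨s, r, m, -, -, ⟨-, -, κ, a, -⟩, -⟩
  unfold Ex at a
  tauto

theorem S2.scal_pair (h : S2 p B Q ι P π) (hg : g ∈ P) (hg' : g' ∈ P) (e : T g = θ • 1)
    (e' : T g' = θ • 1) (θ0 : θ ≠ 0) (hx : T (g * g') = ρ • 1) : ρ = 2 ∨ ρ = θ ^ 2 - 2 ∨ Irr θ ρ := by
  by_contra! hh
  obtain ⟨v, hv⟩ := h.cl.exists_ne
  exact hh.2.2 ⟨hh.1, hh.2.1, h.pair_ex hg hg' e e' θ0 (s := ρ) (m := 0) (by simp [hx]) hv (by simp [hx])
    hh.1 hh.2.1⟩

theorem S2.rt_four (h : S2 p B Q ι P π) (hu : Rt Q ι P u) (hv : Rt Q ι P v) (n1 : v ≠ u) (n2 : v ≠ -u)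
    (e : Orth.B Q u v ^ 2 = 4) : p = 3 := by
  have key : ∀ v, Rt Q ι P v → v ≠ u → Orth.B Q u v = 2 → p = 3 := fun v hv n e => by
    obtain ⟨g, hg, a, b⟩ := hu.pair h.toSt hv
    refine h.p3 hg (by rw [b, e]) ?_
    rintro rfl
    have := congrArg (ι u * ·) a
    simp only [nc k V, sqm h.cl, hu.1, one_smul] at this
    exact n (inj' h.cl this).symm
  rcases sq_eq_sq_iff_eq_or_eq_neg.1 (show _ = (2 : k) ^ 2 by rw [e]; norm_num) with e | e
  · exact key v hv n1 e
  · exact key (-v) (hv.neg h.toSt) (fun e => n2 (by simp [← e])) (by simp [e])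

theorem S2.y3 (h : S2 p B Q ι P π) (hp : p = 3) (hy : Y4 Q ι P u y) (hv : Rt Q ι P v)
    (e : Orth.B Q u v = 2) (n1 : v ≠ u) (n2 : v ≠ -u) : False := by
  have cl := h.cl
  have sy := h.sp y hy.mem
  have hu := hy.rt h.toSt
  have hw := hv.wa h.toSt hy.mem
  obtain ⟨x1, m1, a1, b1⟩ := hu.pair h.toSt hv
  obtain ⟨x2, m2, a2, b2⟩ := hu.pair h.toSt hw
  rw [e] at b1
  rw [show Orth.B Q u (wa ι y v) = 2 by nth_rw 1 [← hy.fix h.toSt]; rw [b_wa cl sy, e]] at b2
  have i1 := inv_pair cl a1 (by rw [hu.1, hv.1, one_mul])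
  have b3 : T (x1⁻¹ * x2) = (2 : k) • 1 + ι 0 := by
    rw [T_pair cl (a := v) (b := wa ι y v) (by simp only [nc k V, i1, a2, sqm cl, hu.1, one_smul])
      (by rw [hv.1, hw.1, one_mul]), hy.bil h.toSt, e, map_zero, add_zero]
    congr 1; have := cl.two; field_simp
  have c := h.pair_red (P.inv_mem m1) m2 (by rw [T_inv, b1]) b2 cl.two b3 (r := 0) (by simp) (by simp)
    (by simp)
  have nf : wa ι y v ≠ v := fun e => (hy.nofix h.toSt hv.1 e).elim n1 n2
  have can : ∀ {a b : W}, ι u * ι a = ι u * ι b → a = b := fun e => by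
    have := congrArg (ι u * ·) e
    simp only [sqm cl, hu.1, one_smul] at this
    exact inj' cl this
  rcases h.h9 hp m1 m2 (un_of_T2 b1) (un_of_T2 b2) (fun e => n1 (can (by
    rw [← a1, e, sq' cl, hu.1]; simp))) (show Commute x1 x2 from Commute.inv_left_iff.1 c) with f | f | f
  · have : wa ι y v = u := can (by rw [← a2, f, sq' cl, hu.1]; simp)
    exact n1 (wa_inj cl sy (this.trans (hy.fix h.toSt).symm))
  · exact nf (can (by rw [← a2, f, a1]))
  · have : wa ι y v = wa ι y (wa ι y v) := can (by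
      rw [← a2, f, i1, ← wa_mul cl sy sy, ι_wa cl ((SpU B).mul_mem sy sy), hy.sq h.toSt,
        Units.inv_eq_of_mul_eq_one_right (a := ι u) (by rw [hy.sq h.toSt, sq' cl, hu.1, one_smul])]
      simp only [nc k V, sqm cl, hu.1, one_smul])
    exact nf (wa_inj cl sy this).symm

theorem S2.y7 (h : S2 p B Q ι P π) (h7 : (7 : k) = 0) (hy : Y4 Q ι P u y) (hv : Rt Q ι P v)
    (e : Orth.B Q u v ^ 2 = 1) : False := by
  have cl := h.cl
  have h2 := cl.two
  have sy := h.sp y hy.mem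
  have hu := hy.rt h.toSt
  have hw := hv.wa h.toSt hy.mem
  have b1 := hy.bil h.toSt v
  have b2 : Orth.B Q u (wa ι y v) = Orth.B Q u v := by nth_rw 1 [← hy.fix h.toSt]; rw [b_wa cl sy]
  rw [e, show (1 / 2 : k) = 4 by field_simp; linear_combination -h7] at b1
  generalize wa ι y v = w at *
  obtain ⟨g, m1, a1, t1⟩ := hv.pair h.toSt hw
  obtain ⟨g', m2, a2, t2⟩ := (hu.refl h.toSt hv).pair h.toSt (hu.refl h.toSt hw)
  have b3 : Orth.B Q (Orth.B Q u v • u - v) (Orth.B Q u w • u - w) = 4 := by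
    simp [Orth.B_self, hu.1, b1, b2, Orth.B_comm Q v u]; ring
  rw [b3] at t2
  rw [b1] at t1
  have t3 : T (g * g') = (5 : k) • 1 := by
    have i1 := inv_pair cl a1 (by rw [hv.1, hw.1, one_mul])
    have i2 := inv_pair cl a2 (by rw [(hu.refl h.toSt hv).1, (hu.refl h.toSt hw).1, one_mul])
    simp only [T, nc k V, a1, a2, i1, i2, b2, map_sub, map_smul, anti' cl v u, anti' cl w u, anti' cl w v,
      antim cl v u, antim cl w u, antim cl w v, sq' cl, sqm cl, Orth.B_comm Q v u, Orth.B_comm Q w u,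
      Orth.B_comm Q w v, b1, hu.1, hv.1, hw.1]
    linear_combination (norm := module) (h7 - 2 * e) • (1 : End k V)
  rcases h.scal_pair m1 m2 t1 t2 (four_ne cl) t3 with f | f | f
  · exact one_ne_zero (α := k) (by linear_combination h7 - 2 * f)
  · exact h2 (by linear_combination -f - h7)
  · exact four_ne cl (by linear_combination f.four h2 (by linear_combination 2 * h7))

/-- realised values -/
def NT (Q : QuadraticForm k W) (ι : W →ₗ[k] End k V) (P : Subgroup (End k V)ˣ) (a : k) : Prop :=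
  ∃ u v y z, Y4 Q ι P u y ∧ Y4 Q ι P v z ∧ v ≠ u ∧ v ≠ -u ∧ Orth.B Q u v ^ 2 = a

theorem NT.step (h : St B Q ι P π) (ha : NT Q ι P s) (s0 : s ≠ 0) : NT Q ι P (s ^ 2 / 4) := by
  obtain ⟨u, v, y, z, hy, hz, n1, n2, rfl⟩ := ha
  refine ⟨v, _, z, _, hz, hz.conj h hy.mem, fun e => (hy.nofix h hz.q e).elim n1 n2, fun e => s0 ?_, by
    rw [hy.bil h, div_pow]; norm_num⟩
  have := b_wa h.cl (h.sp y hy.mem) u v
  rw [hy.fix h, e, map_neg] at this
  rw [(mul_eq_zero.1 (show 2 * Orth.B Q u v = 0 by linear_combination -this)).resolve_left h.cl.two]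
  simp

theorem NT.val (h : S2 p B Q ι P π) (ha : NT Q ι P s) :
    (s = 4 → (3 : k) = 0) ∧ (s = 0 ∨ s = 1 ∨ s = 2 ∨ s ^ 2 - 3 * s + 1 = 0) := by
  obtain ⟨u, v, y, z, hy, hz, n1, n2, rfl⟩ := ha
  have a := fun e => three_eq (k := k) (h.rt_four (hy.rt h.toSt) (hz.rt h.toSt) n1 n2 e)
  obtain ⟨g, hg, -, e⟩ := (hy.rt h.toSt).pair h.toSt (hz.rt h.toSt)
  refine ⟨a, ?_⟩
  rcases h.quad0 hg e with f | f | f | f | f
  · simp [f]
  · exact Or.inr (Or.inl (by linear_combination f + a f))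
  · simp [f]
  · simp [f]
  · exact Or.inr (Or.inr (Or.inr (by linear_combination f)))

theorem NT.one (h : S2 p B Q ι P π) (ha : NT Q ι P 1) : False := by
  have h4 := four_ne h.cl
  have a : (3 : k) = 0 ∨ (7 : k) = 0 := by
    obtain ⟨a, b | b | b | b⟩ := (ha.step h.toSt one_ne_zero).val h
    · simp [h4] at b
    · left; field_simp at b; linear_combination -b
    · right; field_simp at b; linear_combination -b
    · left; apply a; field_simp at b ⊢; linear_combination -3 * b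
  obtain ⟨u, v, y, z, hy, hz, n1, n2, e⟩ := ha
  rcases a with a | a
  · have hp := eq_of_cast (k := k) (p := p) (n := 3) (by decide) (by exact_mod_cast a)
    rcases sq_one e with e | e
    · exact h.y3 hp hy ((hz.rt h.toSt).neg h.toSt) (by rw [map_neg, e]; linear_combination -a)
        (fun e => n2 (by simp [← e])) (by simpa using n1)
    · exact h.y3 hp hy (hz.rt h.toSt) (by rw [e]; linear_combination -a) n1 n2
  · exact h.y7 a hy (hz.rt h.toSt) e

theorem NT.zero (h : S2 p B Q ι P π) (ha : NT Q ι P s) : s = 0 := by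
  have h4 := four_ne h.cl
  have two : ¬ NT Q ι P 2 := fun a => NT.one h (by
    have := a.step h.toSt h.cl.two
    rwa [show (2 : k) ^ 2 / 4 = 1 by field_simp; norm_num] at this)
  by_contra s0
  obtain ⟨a, b | rfl | rfl | b⟩ := ha.val h
  · exact s0 b
  · exact ha.one h
  · exact two ha
  have h1 := ha.step h.toSt s0
  have s1 : s ^ 2 / 4 ≠ 0 := div_ne_zero (pow_ne_zero 2 s0) h4
  obtain ⟨-, c | c | c | c⟩ := h1.val h
  · exact s1 c
  · exact NT.one h (c ▸ h1)
  · exact two (c ▸ h1)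
  field_simp at c
  rcases mul_eq_zero.1 (show 5 * (4 - 3 * s) = 0 by
    linear_combination c - (s ^ 2 + 3 * s - 4) * b) with d | d
  · have : s + 1 = 0 := pow_eq_zero_iff two_ne_zero |>.1 (by linear_combination b + s * d)
    exact h.cl.two (by linear_combination d - a (by linear_combination this - d))
  · have e : (11 : k) = 0 := by linear_combination (5 - 3 * s) * d - 9 * b
    have f : s = 5 := by linear_combination -4 * d - (s - 1) * e
    refine NT.one h ?_
    have := h1.step h.toSt s1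
    rwa [show (s ^ 2 / 4) ^ 2 / 4 = 1 by rw [f]; field_simp; linear_combination 51 * e] at this

theorem S2.noY4 (h : S2 p B Q ι P π) (hd : d ∈ P) (hu : Q u = 1) (e : T d = (1 : k) • 1 + ι u) :
    False := by
  have cl := h.cl
  have := nontriv cl
  have p2 : 2 ≤ p := (Fact.out : p.Prime).two_le
  have c := (wa_eq cl (h.sp d hd)).1 (wa_T cl (h.sp d hd) e)
  have hy : Y4 Q ι P u (d ^ p) := by
    refine ⟨P.pow_mem hd p, hu, ?_, ?_, ?_⟩
    · have a := sub_pow_p (p := p) cl d 1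
      have b := congrArg (· * d.1 * (1 + ι u)) (T_sub d)
      rw [pow_one] at a
      have b' : (d.1 - 1) ^ 2 * (1 + ι u) = 0 := by
        rw [sq]
        simp only [e, nc k V, c, sq' cl, sqm cl, hu] at b ⊢
        linear_combination (norm := module) -b
      obtain ⟨n, hn⟩ := Nat.exists_eq_add_of_le' p2
      rw [← sub_eq_zero, ← sub_one_mul, ← a, hn, pow_add, mul_assoc, b', mul_zero]
    · obtain ⟨n, hn⟩ := Nat.exists_eq_add_of_le' (le_trans one_le_two p2)
      rw [T_pow_char, hn, pow_succ, mul_assoc, e]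
      simp only [nc k V, sq' cl, hu, one_smul]; simp
    · rw [Units.val_pow_eq_pow_val]; exact (Commute.pow_left c p)
  obtain ⟨a, b, c⟩ := Rt.inv h.toSt hu (hy.sq h.toSt)
  refine (h.comm_class (X := {x | x ∈ P ∧ ∃ u y, Y4 Q ι P u y ∧ x.1 = ι u}) (fun _ hx => hx.1) ?_ ?_
    ⟨P.mul_mem hy.mem hy.mem, u, _, hy, hy.sq h.toSt⟩).elim b c
  · rintro g hg x ⟨hx, u, y, hy, e⟩
    exact ⟨P.mul_mem (P.mul_mem hg hx) (P.inv_mem hg), _, _, hy.conj h.toSt hg, by
      rw [ι_wa cl (h.sp g hg), ← e]; rfl⟩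
  · rintro x ⟨hx, u, y, hy, e⟩ x' ⟨hx', v, z, hz, e'⟩
    by_cases n1 : v = u
    · exact Or.inl (Units.ext (by simp [e, e', n1]))
    by_cases n2 : v = -u
    · exact Or.inl (Units.ext (by simp [e, e', n2]))
    have := pow_eq_zero_iff two_ne_zero |>.1 (NT.zero h ⟨u, v, y, z, hy, hz, n1, n2, rfl⟩)
    exact Or.inr (Units.ext (by simp [e, e', anti' cl u v, this]))

end Cfsg.Agent.H6.S4
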