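import Cfsg.Agent.H8.M3F

/-! Arithmetic of the class equation: no tori with automizer of order four. -/

set_option autoImplicit false
set_option linter.unusedSectionVars false
set_option linter.unusedVariables false

namespace Cfsg.Agent.H6.S4

open Finset Cfsg.Agent.H8.M3

variable {ι : Type*}

structure Fam4 (R : Finset ι) (a ν : ι → ℕ) (U : ι → Prop) (g k : ℕ) : Prop where
  odd : ∀ i ∈ R, a i % 2 = 1
  three_le : ∀ i ∈ R, 3 ≤ a i
  nu_dvd : ∀ i ∈ R, ν i ∣ a i - 1
  two_le : ∀ i ∈ R, 2 ≤ ν i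
  dvd : ∀ i ∈ R, a i * ν i ∣ g
  cdvd : 4 * k ∣ g
  gpos : 0 < g
  cop : ∀ i ∈ R, ∀ j ∈ R, i ≠ j → (a i).Coprime (a j)
  copc : ∀ i ∈ R, (a i).Coprime (4 * k)
  kind : ∀ i ∈ R, ν i = 2 ∨ (ν i = 4 ∧ ¬ 3 ∣ a i ∧ k % 2 = 0) ∨ U i
  uniq : ∀ i ∈ R, ∀ j ∈ R, U i → U j → i = j
  uodd : ∀ i ∈ R, U i → 4 ≤ ν i → ν i % 2 = 1 → ∃ j ∈ R, a j = ν i ∧ (ν j = 2 ∨ ν j = 4 ∧ a j = 5)
  uev : ∀ i ∈ R, U i → 4 ≤ ν i → ν i % 2 = 0 → ν i = 2 * k
  h3 : 3 ∣ g → ¬ 3 ∣ k → ∃ i ∈ R, 3 ∣ a i
  he : 1 - 1 / (g : ℚ) = (2 * k - 1) / (4 * k) + ∑ i ∈ R, tm (a i) (ν i)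
  ineq : g ≤ 16 * k ^ 2 * (2 * k + ∑ i ∈ R, a i)

theorem dioA {k a u : ℤ} (hk : 2 ≤ k) (k2 : k % 2 = 0) (a4 : a % 4 = 1) (a3 : a % 3 ≠ 0) (ha : 5 ≤ a)
    (u6 : u % 6 = 1) (hu : 7 ≤ u) (e : k * a * u + 1 = a * u + 3 * k * u + 4 * k * a) : False := by
  rcases (show k = 2 ∨ 4 ≤ k by omega) with rfl | hk
  · rcases (show u = 7 ∨ u = 13 ∨ 19 ≤ u by omega) with rfl | rfl | hu
    · omega
    · omega
    · rcases (show a = 5 ∨ 13 ≤ a by omega) with rfl | ha
      · omega
      · nlinarith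
  rcases (show a = 5 ∨ 13 ≤ a by omega) with rfl | ha
  · rcases (show u = 7 ∨ u = 13 ∨ 19 ≤ u by omega) with rfl | rfl | hu
    · omega
    · omega
    · rcases (show k = 4 ∨ 6 ≤ k by omega) with rfl | hk
      · omega
      · nlinarith
  rcases (show u = 7 ∨ 13 ≤ u by omega) with rfl | hu
  · rcases (show k = 4 ∨ 6 ≤ k by omega) with rfl | hk
    · omega
    · nlinarith
  have h1 : 4 * (a * u) ≤ k * (a * u) := by gcongr
  have h2 : 13 * (k * u) ≤ a * (k * u) := by gcongr
  have h3 : 13 * (k * a) ≤ u * (k * a) := by gcongr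
  have h4 : 0 < k * a * u := by positivity
  nlinarith

theorem dioB {k a b : ℤ} (hk : 2 ≤ k) (k2 : k % 2 = 0) (a4 : a % 4 = 1) (a3 : a % 3 ≠ 0) (ha : 5 ≤ a)
    (b2 : b % 2 = 1) (hb : 3 ≤ b) (e : k * a * b + 1 = a * b + 2 * k * a + k * b) : False := by
  rcases (show b = 3 ∨ b = 5 ∨ 7 ≤ b by omega) with rfl | rfl | hb
  · rcases (show k = 2 ∨ 4 ≤ k by omega) with rfl | hk
    · omega
    rcases (show a = 5 ∨ 13 ≤ a by omega) with rfl | ha
    · omega
    · nlinarith
  · rcases (show k = 2 ∨ 4 ≤ k by omega) with rfl | hk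
    · omega
    · nlinarith
  have h1 : 2 * (a * b) ≤ k * (a * b) := by gcongr
  have h2 : 7 * (k * a) ≤ b * (k * a) := by gcongr
  have h3 : 5 * (k * b) ≤ a * (k * b) := by gcongr
  have h4 : 0 < k * a * b := by positivity
  nlinarith

theorem dioC {b u : ℤ} (hb : 13 ≤ b) (u6 : u % 10 = 1) (hu : 11 ≤ u)
    (e : b * u + 1 = 10 * u + 8 * b) : False := by
  rcases (show u = 11 ∨ u = 21 ∨ u = 31 ∨ 41 ≤ u by omega) with rfl | rfl | rfl | hu
  · omega
  · omega
  · omega
  · nlinarith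

theorem dioD {k a b u : ℤ} (hk : 2 ≤ k) (ha : 5 ≤ a) (hb : 5 ≤ b) (hu : 9 ≤ u ∨ u = 5 ∧ k = 2 ∧ 13 ≤ a ∧ 13 ≤ b)
    (e : k * (a + b) < a * b) (f : a * b * u ≤ 4 * k * (2 * k + a + b + u)) : False := by
  rcases hu with hu | ⟨rfl, rfl, ha, hb⟩
  swap
  · nlinarith
  have h1 : 4 * k ^ 2 < a * b := by
    by_contra! h
    have : (a + b) ^ 2 < (2 * k) ^ 2 ∨ (2 * k) ^ 2 ≤ (a + b) ^ 2 := lt_or_ge _ _
    have h2 : a + b < 4 * k := by nlinarith
    nlinarith [sq_nonneg (a - b), mul_pos (show 0 < a * b - k * (a + b) by omega) (show 0 < a * b + k * (a + b) by positivity)]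
  have h2 : u * (a * b - 4 * k) < 6 * (a * b) := by nlinarith
  have h3 : 0 < a * b - 4 * k := by nlinarith
  have h4 : 9 * (a * b - 4 * k) ≤ u * (a * b - 4 * k) := by gcongr
  have h5 : a * b < 12 * k := by linarith
  have h6 : k < 3 := by nlinarith
  nlinarith

theorem cpos {g b c : ℕ} (h : 0 < g) (hc : g = b * c) : (c : ℚ) ≠ 0 := by
  rintro e
  obtain rfl : c = 0 := by exact_mod_cast e
  omega

variable [DecidableEq ι] {R : Finset ι} {a ν : ι → ℕ} {U : ι → Prop} {g k : ℕ}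

theorem Fam4.adv (h : Fam4 R a ν U g k) {i : ι} (hi : i ∈ R) : a i ∣ g :=
  (dvd_mul_right _ _).trans (h.dvd i hi)

theorem Fam4.dvd2 (h : Fam4 R a ν U g k) {i j : ι} (hi : i ∈ R) (hj : j ∈ R) (hij : i ≠ j) :
    4 * k * a i * a j ∣ g :=
  (Nat.Coprime.mul_left (h.copc j hj).symm (h.cop i hi j hj hij)).mul_dvd_of_dvd_of_dvd
    ((h.copc i hi).symm.mul_dvd_of_dvd_of_dvd h.cdvd (h.adv hi)) (h.adv hj)

theorem Fam4.dvd3 (h : Fam4 R a ν U g k) {i j l : ι} (hi : i ∈ R) (hj : j ∈ R) (hl : l ∈ R) (hij : i ≠ j)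
    (hil : i ≠ l) (hjl : j ≠ l) : 4 * k * a i * a j * a l ∣ g :=
  ((Nat.Coprime.mul_left (h.copc l hl).symm (h.cop i hi l hl hil)).mul_left
    (h.cop j hj l hl hjl)).mul_dvd_of_dvd_of_dvd (h.dvd2 hi hj hij) (h.adv hl)

set_option maxHeartbeats 1000000 in
theorem Fam4.no4 (h : Fam4 R a ν U g k) (hk : 1 ≤ k) {i : ι} (hi : i ∈ R) (hu : ¬ U i) : ν i = 2 := by
  classical
  by_contra n2
  obtain ⟨ν4, a3, k2⟩ := ((h.kind i hi).resolve_left n2).resolve_right hu
  have f4 : ∀ j ∈ R, ν j = 4 → ¬ 3 ∣ a j → a j % 4 = 1 ∧ (a j = 5 ∨ 13 ≤ a j) := fun j hj e e' => by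
    have := e ▸ h.nu_dvd j hj
    have := h.three_le j hj
    omega
  have ne5 : ∀ j ∈ R, ∀ l ∈ R, j ≠ l → a j = 5 → a l ≠ 5 := fun j hj l hl n e e' => by
    have := h.cop j hj l hl n
    rw [e, e'] at this; exact absurd this (by decide)
  let x : ι → ℚ := fun j => 1 / (a j : ℚ)
  have xp : ∀ j ∈ R, 0 < x j := fun j hj => inv_pos' (by have := h.three_le j hj; omega)
  have xl : ∀ j (n : ℕ), 0 < n → n ≤ a j → x j ≤ 1 / n := fun j n h1 h2 => inv_le_of h1 h2
  have x5 : ∀ j, a j = 5 → x j = 1 / 5 := fun j e => by simp [x, e]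
  have he := h.he
  rw [sum_congr rfl (fun j hj => tm_eq (by have := h.three_le j hj; omega)
    (by have := h.two_le j hj; omega))] at he
  change _ = _ + ∑ j ∈ R, (1 - x j) / ν j at he
  have k0 : (0 : ℚ) < k := by exact_mod_cast hk
  have e1 : (2 * k - 1) / (4 * k) = 1 / 2 - (1 / (k : ℚ)) / 4 := by field_simp; ring
  have kl : 1 / (k : ℚ) ≤ 1 / (2 : ℕ) := inv_le_of two_pos (by omega)
  have gp := inv_pos' h.gpos
  have gl : 1 / (g : ℚ) ≤ 1 / (k : ℚ) / 4 := by
    have := inv_le_of (by omega) (Nat.le_of_dvd h.gpos h.cdvd)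
    push_cast at this
    rwa [show 1 / (4 * (k : ℚ)) = 1 / k / 4 by field_simp] at this
  rw [e1] at he
  obtain ⟨i4, i5⟩ := f4 i hi ν4 a3
  have xi := xl i 5 (by decide) (by omega)
  have xi0 := xp i hi
  let T := (R.erase i).filter fun j => ¬ (U j ∧ 3 ≤ ν j)
  let S := R.filter fun j => U j ∧ 3 ≤ ν j
  have hT : ∀ j, j ∈ T ↔ j ∈ R ∧ j ≠ i ∧ ¬ (U j ∧ 3 ≤ ν j) := fun j => by simp [T]; tauto
  have hS : ∀ j, j ∈ S ↔ j ∈ R ∧ U j ∧ 3 ≤ ν j := fun j => by simp [S]
  have spl : ∀ {M : Type} [AddCommMonoid M] (f : ι → M),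
      ∑ j ∈ R, f j = f i + ∑ j ∈ T, f j + ∑ j ∈ S, f j := fun f => by
    rw [← add_sum_erase R f hi, ← sum_filter_add_sum_filter_not (R.erase i) (fun j => U j ∧ 3 ≤ ν j),
      add_assoc, add_comm (∑ j ∈ T, f j)]
    congr 3
    ext j; simp only [hS, mem_filter, mem_erase]
    exact ⟨fun e => ⟨e.1.2, e.2⟩, fun e => ⟨⟨by rintro rfl; exact hu e.2.1, e.1⟩, e.2⟩⟩
  have mR : ∀ j ∈ R, j = i ∨ j ∈ T ∨ j ∈ S := fun j hj => by rw [hT, hS]; tauto
  have kT : ∀ j ∈ T, ν j = 2 ∨ ν j = 4 ∧ ¬ 3 ∣ a j := fun j hj => by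
    obtain ⟨j1, -, j3⟩ := (hT j).1 hj
    have := h.two_le j j1
    rcases h.kind j j1 with e | e | e
    · exact Or.inl e
    · exact Or.inr ⟨e.1, e.2.1⟩
    · left; by_contra; exact j3 ⟨e, by omega⟩
  have lT : ∀ j ∈ T, 1 / 5 ≤ (1 - x j) / ν j ∧ (a j ≠ 5 → 3 / 13 ≤ (1 - x j) / ν j) := fun j hj => by
    have j1 := ((hT j).1 hj).1
    rcases kT j hj with e | ⟨e, e'⟩ <;> rw [e]
    · have := xl j 3 (by decide) (h.three_le j j1)
      push_cast at this ⊢; constructor <;> intros <;> linarith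
    · have := xl j 5 (by decide) (by have := f4 j j1 e e'; omega)
      refine ⟨by push_cast at this ⊢; linarith, fun n => ?_⟩
      have := xl j 13 (by decide) (by have := f4 j j1 e e'; omega)
      push_cast at this ⊢; linarith
  have nn : ∀ j ∈ R, 0 ≤ (1 - x j) / ν j := fun j hj => by
    have := xl j 3 (by decide) (h.three_le j hj)
    push_cast at this
    exact div_nonneg (by linarith) (by positivity)
  have ineq := h.ineq
  rw [spl] at ineq he
  rw [ν4] at he
  have nS : 0 ≤ ∑ j ∈ S, (1 - x j) / ν j := sum_nonneg fun j hj => nn j ((hS j).1 hj).1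
  have cT : T = ∅ ∨ ∃ j, T = {j} := by
    rcases Nat.lt_or_ge T.card 2 with c | c
    · obtain e | e : T.card = 0 ∨ T.card = 1 := by omega
      exacts [Or.inl (card_eq_zero.1 e), Or.inr (card_eq_one.1 e)]
    exfalso
    obtain ⟨j, hj, l, hl, jl⟩ := one_lt_card.1 c
    have s := sum_le_sum_of_subset_of_nonneg (s := {j, l}) (t := T) (f := fun j => (1 - x j) / ν j)
      (by simp [insert_subset_iff, hj, hl]) fun j hj _ => nn j ((hT j).1 hj).1
    rw [sum_pair jl] at s
    have j1 := (hT j).1 hj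
    have l1 := (hT l).1 hl
    have b1 := lT j hj
    have b2 := lT l hl
    push_cast at he kl xi
    rcases i5 with e | e
    · have := b1.2 (ne5 i hi j j1.1 j1.2.1.symm e)
      have := b2.2 (ne5 i hi l l1.1 l1.2.1.symm e)
      linarith
    · have := xl i 13 (by decide) e
      push_cast at this
      by_cases e' : a j = 5
      · have := b2.2 (ne5 j j1.1 l l1.1 jl e')
        linarith [b1.1]
      · linarith [b1.2 e', b2.1]
  have cS : S = ∅ ∨ ∃ u, S = {u} := by
    rcases S.eq_empty_or_nonempty with e | ⟨u, hu⟩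
    · exact Or.inl e
    · exact Or.inr ⟨u, eq_singleton_iff_unique_mem.2 ⟨hu, fun j hj =>
        h.uniq j ((hS j).1 hj).1 u ((hS u).1 hu).1 ((hS j).1 hj).2.1 ((hS u).1 hu).2.1⟩⟩
  push_cast at he kl xi
  have ap : ∀ j ∈ R, (a j : ℚ) ≠ 0 := fun j hj => by have := h.three_le j hj; positivity
  rcases cS with eS | ⟨u, eS⟩
  · rw [eS, sum_empty] at he
    rcases cT with eT | ⟨j, eT⟩ <;> rw [eT] at he
    · rw [sum_empty] at he; linarith
    rw [sum_singleton] at he
    have hj : j ∈ T := by simp [eT]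
    obtain ⟨j1, j2, -⟩ := (hT j).1 hj
    have := xp j j1
    rcases kT j hj with e | ⟨e, -⟩ <;> rw [e] at he <;> push_cast at he
    swap
    · linarith
    obtain ⟨c, hc⟩ := h.dvd2 hi j1 j2.symm
    have c0 : (c : ℚ) ≠ 0 := cpos h.gpos hc
    have := ap i hi
    have := ap j j1
    have E : (k * a i * a j - (a i * a j + 2 * k * a i + k * a j) : ℤ) * -1 * c = 0 * c + 1 := by
      rw [hc] at he
      simp only [x] at he
      push_cast at he
      field_simp at he
      have : ((k * a i * a j - (a i * a j + 2 * k * a i + k * a j) : ℚ) * -1 * c = 0 * c + 1) := by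
        linear_combination he / 2
      exact_mod_cast this
    obtain rfl := eq_one_of_mul E
    have := h.odd j j1
    have := h.three_le j j1
    exact dioB (k := k) (a := a i) (b := a j) (by omega) (by omega) (by omega) (by omega) (by omega)
      (by omega) (by omega) (by push_cast at E; linarith)
  have hu' : u ∈ S := by simp [eS]
  obtain ⟨u1, u2, u3⟩ := (hS u).1 hu'
  have ui : i ≠ u := by rintro rfl; exact hu u2
  rw [eS, sum_singleton] at he ineq
  have xu := xp u u1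
  have uo := h.odd u u1
  obtain ⟨v, hv⟩ := h.nu_dvd u u1
  have u4 := h.three_le u u1
  have v0 : 1 ≤ v := Nat.pos_of_ne_zero (by rintro rfl; omega)
  have d0 : (0 : ℚ) < ν u := by positivity
  have lo : ∀ n : ℕ, ν u * n + 1 ≤ a u → (n : ℚ) / (ν u * n + 1) ≤ (1 - x u) / ν u := fun n e => by
    have := xl u (ν u * n + 1) (by omega) e
    push_cast at this
    rw [le_div_iff₀ d0]
    have e : (n : ℚ) / (ν u * n + 1) * ν u = 1 - 1 / (ν u * n + 1) := by field_simp; ring
    linarith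
  have hi' : ∀ n : ℕ, n ≤ ν u → 0 < n → (1 - x u) / ν u < 1 / n := fun n e n0 =>
    lt_of_lt_of_le (div_lt_div_of_pos_right (by linarith) d0) (inv_le_of n0 e)
  have v2 : ν u % 2 = 1 → ν u * 2 + 1 ≤ a u := fun e => by
    have : v ≠ 1 := by rintro rfl; omega
    have : ν u * 2 ≤ ν u * v := by gcongr; omega
    omega
  have v1 : ν u * 1 + 1 ≤ a u := by
    have : ν u * 1 ≤ ν u * v := by gcongr
    omega
  have := ap i hi
  have := ap u u1
  rcases cT with eT | ⟨j, eT⟩ <;> rw [eT] at he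
  · rw [sum_empty] at he
    rcases (show ν u = 3 ∨ 4 ≤ ν u by omega) with e | e
    swap
    · have := hi' 4 e (by decide); push_cast at this; linarith
    rw [e] at hv
    have k3 : 3 ∣ k := by
      by_contra n
      obtain ⟨j, hj, b⟩ := h.h3 ((Dvd.intro_left _ (by rw [e])).trans (h.dvd u u1)) n
      rcases mR j hj with rfl | c | c
      · exact a3 b
      · simp [eT] at c
      · rw [eS, mem_singleton] at c; subst c; omega
    obtain ⟨k, rfl⟩ := k3
    obtain ⟨c, hc⟩ := h.dvd2 hi u1 ui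
    have c0 : (c : ℚ) ≠ 0 := cpos h.gpos hc
    have k1 : (k : ℚ) ≠ 0 := Nat.cast_ne_zero.2 (by omega)
    have E : (k * a i * a u - (a i * a u + 3 * k * a u + 4 * k * a i) : ℤ) * -1 * c = 0 * c + 1 := by
      rw [hc, e] at he
      simp only [x] at he
      push_cast at he
      field_simp at he
      have : ((k * a i * a u - (a i * a u + 3 * k * a u + 4 * k * a i) : ℚ) * -1 * c = 0 * c + 1) := by
        linear_combination he / 2
      exact_mod_cast this
    obtain rfl := eq_one_of_mul E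
    exact dioA (k := k) (a := a i) (u := a u) (by omega) (by omega) (by omega) (by omega) (by omega)
      (by omega) (by have := v2 (by omega); omega) (by push_cast at E; linarith)
  rw [sum_singleton] at he
  rw [eT, sum_singleton] at ineq
  have hj : j ∈ T := by simp [eT]
  obtain ⟨j1, j2, j3⟩ := (hT j).1 hj
  have ju : j ≠ u := by rintro rfl; exact j3 ⟨u2, u3⟩
  have xj := xp j j1
  have sm : 1 / 5 + 3 / 13 ≤ (1 - x i) / 4 + (1 - x j) / ν j := by
    rcases i5 with e | e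
    · have := (lT j hj).2 (ne5 i hi j j1 j2.symm e); linarith
    · have := xl i 13 (by decide) e
      push_cast at this; linarith [(lT j hj).1]
  rcases (show ν u = 3 ∨ 4 ≤ ν u ∧ ν u % 2 = 0 ∨ 4 ≤ ν u ∧ ν u % 2 = 1 by omega) with e | e | e
  · have := lo 2 (v2 (by omega)); rw [e] at this he; push_cast at this he; linarith
  · have e' := h.uev u u1 u2 e.1 e.2
    rcases kT j hj with f | ⟨f, f'⟩ <;> rw [f] at he <;> push_cast at he
    · have b1 := lo 1 v1
      have b2 := xl j 3 (by decide) (h.three_le j j1)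
      have b3 : 1 / (k : ℚ) / 4 ≤ 1 / (2 * k * 1 + 1) := by
        rw [div_div, div_le_div_iff₀ (by positivity) (by positivity)]
        have : (1 : ℚ) ≤ k := by exact_mod_cast hk
        linarith
      rw [e'] at b1 he; push_cast at b1 b2 he; linarith
    obtain ⟨i6, i7⟩ := f4 j j1 f f'
    have := ap j j1
    have c := Nat.le_of_dvd h.gpos (h.dvd3 hi j1 u1 j2.symm ui ju)
    refine dioD (k := k) (a := a i) (b := a j) (u := a u) (by omega) (by omega) (by omega) ?_ ?_ ?_
    · by_cases n : 9 ≤ a u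
      · exact Or.inl (by omega)
      have k4 : k = 2 := by omega
      rw [e', k4] at hv
      have u5 : a u = 5 := by omega
      have := ne5 u u1 i hi ui.symm u5
      have := ne5 u u1 j j1 ju.symm u5
      omega
    · have b1 : 1 / (g : ℚ) ≤ 1 / (4 * k * a u : ℕ) :=
        inv_le_of (by positivity) (Nat.le_of_dvd h.gpos ((h.copc u u1).symm.mul_dvd_of_dvd_of_dvd
          h.cdvd (h.adv u1)))
      rw [e'] at he
      push_cast at b1 he
      have b2 : (1 - x u) / (2 * k) = 1 / k / 2 - 2 * (1 / (4 * k * a u)) := by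
        simp only [x]; field_simp; ring
      have b3 : (0 : ℚ) < 1 / (4 * k * a u) := by positivity
      have b4 : x i + x j < 1 / k := by linarith
      simp only [x] at b4
      rw [div_add_div _ _ (by assumption) (by assumption), div_lt_div_iff₀ (by positivity) k0] at b4
      have : (k : ℚ) * (a i + a j) < a i * a j := by linarith
      exact_mod_cast this
    · have : 4 * k * (a i * a j * a u) ≤ 4 * k * (4 * k * (2 * k + a i + a j + a u)) := by
        nlinarith
      exact_mod_cast Nat.le_of_mul_le_mul_left this (by omega)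
  obtain ⟨l, hl, l1, l2⟩ := h.uodd u u1 u2 e.1 e.2
  have b1 := lo 2 (v2 e.2)
  have lu : l ≠ u := by rintro rfl; omega
  rcases kT j hj with f | ⟨f, f'⟩ <;> rw [f] at he sm <;> push_cast at he sm
  · rcases mR l hl with rfl | c | c
    · have b2 := xl j 3 (by decide) (h.three_le j j1)
      rw [show ν u = 5 by omega] at b1 he
      push_cast at b1 b2 he; linarith
    · rw [eT, mem_singleton] at c; subst c
      have := nn u u1
      rcases (show a l = 5 ∨ 7 ≤ a l by omega) with c | c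
      · have b2 := xl i 13 (by decide) (by have := ne5 l j1 i hi j2 c; omega)
        have := x5 l c
        push_cast at b2; linarith
      · have b2 := xl l 7 (by decide) c
        push_cast at b2; linarith
    · exact lu (by simpa [eS] using c)
  obtain ⟨i6, i7⟩ := f4 j j1 f f'
  have key : ∀ i j, i ∈ R → j ∈ R → i ≠ j → i ≠ u → j ≠ u → a i = 5 → ν u = 5 → 13 ≤ a j →
      1 - 1 / (g : ℚ) = 1 / 2 - 1 / k / 4 + ((1 - x i) / 4 + (1 - x j) / 4 + (1 - x u) / ν u) → False :=
    fun i j hi hj ij iu ju e5 e' e13 he => by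
    rw [e'] at b1 he hv
    have b2 := xl j 13 (by decide) e13
    have b3 := x5 i e5
    push_cast at b1 b2 he
    have k4 : k = 2 := by
      by_contra n
      have : 1 / (k : ℚ) ≤ 1 / (4 : ℕ) := inv_le_of (by decide) (by omega)
      push_cast at this; linarith
    subst k4
    obtain ⟨c, hc⟩ := h.dvd3 hi hj u1 ij iu ju
    have c0 : (c : ℚ) ≠ 0 := cpos h.gpos hc
    have := ap j hj
    have E : (a j * a u - (10 * a u + 8 * a j) : ℤ) * -1 * c = 0 * c + 1 := by
      rw [hc, b3, e5] at he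
      simp only [x] at he
      push_cast at he
      field_simp at he
      have : ((a j * a u - (10 * a u + 8 * a j) : ℚ) * -1 * c = 0 * c + 1) := by
        linear_combination he / 40
      exact_mod_cast this
    obtain rfl := eq_one_of_mul E
    exact dioC (b := a j) (u := a u) (by omega) (by omega) (by omega) (by push_cast at E; linarith)
  rcases mR l hl with rfl | c | c
  · exact key l j hi j1 j2.symm ui ju (by omega) (by omega)
      (by have := ne5 l hi j j1 j2.symm (by omega); omega) he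
  · rw [eT, mem_singleton] at c; subst c
    exact key l i j1 hi j2 ju ui (by omega) (by omega)
      (by have := ne5 l j1 i hi j2 (by omega); omega) (by linarith)
  · exact lu (by simpa [eS] using c)

end Cfsg.Agent.H6.S4
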