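import Cfsg.Agent.H6.S4.B5
import Cfsg.Agent.H6.S4.F3

/-! Centralisers of involutions in the generic case. -/

set_option autoImplicit false
set_option linter.unusedSimpArgs false
set_option linter.unusedSectionVars false
set_option linter.unusedVariables false

namespace Cfsg.Agent.H6.S4

open Module Cfsg.Agent.H9.Sp Cfsg.Agent.H8.M3

universe u

variable {k V W : Type*} [Field k] [AddCommGroup V] [Module k V] [FiniteDimensional k V]
  [AddCommGroup W] [Module k W] [FiniteDimensional k W]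
  {B : V →ₗ[k] V →ₗ[k] k} {Q : QuadraticForm k W} {ι : W →ₗ[k] End k V}
  {G : Type u} [Group G] {P : Subgroup (End k V)ˣ} {π : P →* G} {p : ℕ}
  {g t x : (End k V)ˣ} {a b : W} {i j : k}

theorem Beta.inv (hβ : Beta P) (h : St B Q ι P π) {t : P} (ht : IsInv (π t)) :
    t.1 * t.1 = -1 ∧ T t.1 = (0 : k) • 1 ∧ t.1 ≠ 1 ∧ t.1 ≠ -1 := by
  have n := (h.ker t).not.1 ht.2
  push Not at n
  have e : t.1 * t.1 = -1 := ((h.ker (t * t)).1 (by rw [map_mul, ht.1])).resolve_left fun e =>
    (hβ.1 _ t.2 e).elim n.1 n.2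
  refine ⟨e, ?_, n⟩
  rw [T, show t.1⁻¹ = -t.1 from inv_eq_of_mul_eq_one_right (by rw [mul_neg, e, neg_neg])]; simp

theorem Beta.fix (hβ : Beta P) (h : St B Q ι P π) (ht : t ∈ P) (q : Pr B Q ι t a b 0) (hg : g ∈ P)
    (e1 : wa ι g a = a) (e2 : wa ι g b = b) : g = 1 ∨ g = -1 := by
  have cl := h.cl
  have sg := h.sp g hg
  obtain ⟨s, c, f1⟩ := T_of_comm cl sg q.a0 e1
  obtain ⟨s', c', f2⟩ := T_of_comm cl sg q.b0 e2
  have f3 := (sm_uniq cl (m := c • a) (m' := c' • b) (by simpa using f1.symm.trans f2)).2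
  obtain rfl : c = 0 := (indep2 q.a0 q.ind (c := c) (d := 0) (c' := 0) (d' := c') (by simpa using f3)).1
  rcases hβ.2 g hg s (by simpa using f1) with f | f | rfl
  · exact Or.inl f
  · exact Or.inr f
  have g2 := sq_of_T (g := g) (θ := 0) (by simpa using f1)
  have t2 := sq_of_T q.hT
  have cm : t.1 * g.1 = g.1 * t.1 := by
    rw [q.e, ← mul_assoc, (wa_eq cl sg).1 e1, mul_assoc, mul_assoc, (wa_eq cl sg).1 e2]
  have key : ∀ g, g * t = 1 → wa ι g a = a → False := fun g e e1 => by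
    obtain rfl := eq_inv_of_mul_eq_one_left e
    have := (q.inv.fix.1 e1).2
    simp [Orth.B_self, q.qa, cl.two] at this
  rcases hβ.1 _ (P.mul_mem hg ht) (Units.ext (by
    rw [Units.val_mul, Units.val_mul, mul_assoc, ← mul_assoc t.1, cm, mul_assoc, t2, ← mul_assoc, g2]
    simp)) with f | f
  · exact (key g f e1).elim
  · exact (key (-g) (by simp [f]) (by rw [wa_neg cl sg, e1])).elim

theorem Pr.eig (q : Pr B Q ι t a b 0) (sg : IsSp B g) (hi : i * i = -1) {ε : k} (hε : ε * ε = 1)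
    (e : t.1 * g.1 = ε • (g.1 * t.1)) : ∃ c : k, wa ι g (a + i • b) = c • (a + (ε * i) • b) := by
  have cl := q.cl
  have key : ∀ α β : k, t.1 * ι (α • a + β • b) = ι (β • a + (-α) • b) := fun α β => by
    simp only [q.e, map_add, map_smul, nc k V, sq' cl, ι3 cl, q.qa, q.qb, q.ab, map_sub]; module
  have e1 : t.1 * ι (wa ι g (a + i • b)) = (ε * i) • ι (wa ι g (a + i • b)) := by
    have := key 1 i
    rw [one_smul] at this
    rw [ι_wa cl sg, ← mul_assoc, ← mul_assoc, e, smul_mul_assoc, mul_assoc g.1, this]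
    simp only [map_add, map_smul, nc k V]
    linear_combination (norm := module) (-ε * hi) • (g.1 * (ι b * g⁻¹.1))
  have e2 : wa ι g (a + i • b) ∈ Y ι t := by
    have t1 : t⁻¹.1 = -t.1 := by simpa using inv_of_T q.hT
    generalize wa ι g (a + i • b) = w at e1
    have e3 : ι w * t.1 = -(ε * i) • ι w := LinearMap.ext fun v => sub_eq_zero.1 (cl.symp.nd _ fun u => by
      have := congrArg (fun X : End k V => B (X u) v) e1
      simp only [End.mul_apply, q.sp.left, t1, LinearMap.smul_apply, map_smul, cl.adj, smul_eq_mul,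
        LinearMap.neg_apply, map_neg] at this
      simp only [End.mul_apply, map_sub, LinearMap.smul_apply, map_smul, smul_eq_mul]
      linear_combination -this)
    have e4 : wa ι t w = -w := (wa_eq cl q.sp).2 (by rw [e1, map_neg, neg_mul, e3]; simp)
    have := (Y ι t).smul_mem (-(2 : k)⁻¹) (sub_mem_Y t w)
    rwa [e4, show -(2 : k)⁻¹ • (-w - w) = ((2 : k)⁻¹ * 2) • w by module, inv_mul_cancel₀ cl.two,
      one_smul] at this
  obtain ⟨α, β, f⟩ := q.mem_Y.1 e2
  rw [f, key, ← map_smul, smul_add, smul_smul, smul_smul] at e1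
  refine ⟨α, ?_⟩
  rw [f, (indep2 q.a0 q.ind (inj' cl e1)).1]; module

theorem Pr.bpm (q : Pr B Q ι t a b 0) (hi : i * i = -1) : Orth.B Q (a + i • b) (a + (-i) • b) = 4 := by
  simp [Orth.B_self, q.qa, q.qb, q.ab, q.inv.ab]; linear_combination -2 * hi

theorem Beta.fix' (hβ : Beta P) (h : St B Q ι P π) (ht : t ∈ P) (q : Pr B Q ι t a b 0) (hi : i * i = -1)
    (hg : g ∈ P) (e : t.1 * g.1 = g.1 * t.1) (e1 : wa ι g (a + i • b) = a + i • b) :
    g = 1 ∨ g = -1 := by
  have cl := h.cl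
  have sg := h.sp g hg
  obtain ⟨c, e2⟩ := q.eig sg (i := -i) (by simpa using hi) (ε := 1) (by simp) (by simpa using e)
  have f := b_wa cl sg (a + i • b) (a + (-i) • b)
  rw [one_mul] at e2
  rw [e1, e2, map_smul, q.bpm hi, smul_eq_mul, mul_eq_right₀ (four_ne cl)] at f
  rw [f, one_smul] at e2
  simp only [map_add, map_smul] at e1 e2
  have i0 : i ≠ 0 := by rintro rfl; simp at hi
  exact hβ.fix h ht q hg (smul_right_injective _ cl.two (by
    simp only; linear_combination (norm := module) e1 + e2)) (smul_right_injective _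
      (mul_ne_zero cl.two i0) (by simp only; linear_combination (norm := module) e1 - e2))

theorem S2.dih [IsAlgClosed k] (h : S2 p B Q ι P π) (hβ : Beta P) : Dih G := fun t ht => by
  have cl := h.cl
  have := h.finG
  obtain ⟨t, rfl⟩ := h.surj t
  obtain ⟨t1, t2, t3, t4⟩ := hβ.inv h.toSt ht
  obtain ⟨a, b, q⟩ := h.exists_pr h.tv t.2 t2 t3 t4
  obtain ⟨i, hi⟩ := IsAlgClosed.exists_eq_mul_self (-1 : k)
  replace hi := hi.symm
  have y0 : a + i • b ≠ 0 := fun e => four_ne cl (by rw [← q.bpm hi, e]; simp)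
  let D := (Subgroup.centralizer {t}).map π
  have hD : ∀ g : P, π g ∈ D ↔ t.1.1 * g.1.1 = g.1.1 * t.1.1 := fun g => by
    constructor
    · rintro ⟨g', e, e'⟩
      have := congrArg (fun x : P => x.1.1) (mem_Cen.1 e)
      rcases h.eq_iff.1 e' with f | f <;> simpa [f] using this
    · exact fun e => ⟨g, mem_Cen.2 (Subtype.ext (Units.ext e)), rfl⟩
  have hC : ∀ g : P, π g ∈ Cen (π t) → π g ∉ D → t.1.1 * g.1.1 = (-1 : k) • (g.1.1 * t.1.1) :=
    fun g e n => by
      rw [mem_Cen, ← map_mul, ← map_mul, h.eq_iff] at e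
      rcases e with e | e
      · exact absurd ((hD g).2 (congrArg Units.val e)) n
      · simpa using congrArg Units.val e
  have ex : ∀ x : D, ∃ c : k, ∀ g : P, π g = x → wa ι g.1 (a + i • b) = c • (a + i • b) := fun x => by
    obtain ⟨g, hg⟩ := h.surj x
    obtain ⟨c, hc⟩ := q.eig (h.sp g g.2) hi (ε := 1) (by simp) (by simpa using (hD g).1 (hg ▸ x.2))
    refine ⟨c, fun g' e => ?_⟩
    rcases h.eq_iff.1 (e.trans hg.symm) with f | f <;> simpa [f, wa_neg cl (h.sp g g.2)] using hc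
  choose c hc using ex
  let f : D →* k := ⟨⟨c, smul_left_injective k y0 (by
      simp only; rw [← hc 1 1 (map_one π), one_smul]; exact wa_one cl _)⟩, fun x y => by
    obtain ⟨g, hg⟩ := h.surj x
    obtain ⟨g', hg'⟩ := h.surj y
    refine smul_left_injective k y0 ?_
    simp only
    rw [← hc (x * y) (g * g') (by rw [map_mul, hg, hg']; rfl), Subgroup.coe_mul,
      wa_mul cl (h.sp g g.2) (h.sp g' g'.2), hc y g' hg', map_smul, hc x g hg, smul_smul, mul_comm]⟩
  have cyc : IsCyclic D := isCyclic_of_injective_ringHom f ((injective_iff_map_eq_one f).2 fun x e => by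
    obtain ⟨g, hg⟩ := h.surj x
    refine Subtype.ext (hg ▸ (h.ker g).2 (hβ.fix' h.toSt t.2 q hi g.2 ((hD g).1 (hg ▸ x.2)) ?_))
    rw [hc x g hg, show c x = 1 from e, one_smul])
  obtain ⟨m, hm⟩ := (Subgroup.isCyclic_iff_exists_zpowers_eq_top D).1 cyc
  refine ⟨m, ?_, fun y hy n => ?_, fun y hy z hz n n' => ?_⟩
  · obtain ⟨g, e, rfl⟩ := hm.le (Subgroup.mem_zpowers m)
    rw [mem_Cen, ← map_mul, ← map_mul, mem_Cen.1 e]
  · obtain ⟨g, rfl⟩ := h.surj y
    have sg := h.sp g g.2
    have e := hC g hy (hm ▸ n)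
    obtain ⟨c1, e1⟩ := q.eig sg hi (ε := -1) (by simp) e
    obtain ⟨c2, e2⟩ := q.eig sg (i := -i) (by simpa using hi) (ε := -1) (by simp) e
    rw [neg_one_mul] at e1 e2
    rw [neg_neg] at e2
    have f := b_wa cl sg (a + i • b) (a + (-i) • b)
    rw [e1, e2, map_smul, map_smul, LinearMap.smul_apply, Orth.B_comm, q.bpm hi, smul_smul, smul_eq_mul,
      mul_eq_right₀ (four_ne cl)] at f
    rw [← map_mul, h.ker]
    refine hβ.fix' h.toSt t.2 q hi (g * g).2 ?_ ?_
    · simp only [Subgroup.coe_mul, Units.val_mul, ← mul_assoc, e]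
      simp only [nc k V, e]; simp
    · rw [Subgroup.coe_mul, wa_mul cl sg sg, e1, map_smul, e2, smul_smul, mul_comm, f, one_smul]
  · obtain ⟨g, rfl⟩ := h.surj y
    obtain ⟨g', rfl⟩ := h.surj z
    have e := hC g hy (hm ▸ n)
    have e' := hC g' hz (hm ▸ n')
    rw [hm, ← map_mul, hD]
    simp only [Subgroup.coe_mul, Units.val_mul, ← mul_assoc, e]
    simp only [nc k V, e']; simp

end Cfsg.Agent.H6.S4
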