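import Cfsg.Agent.H6.S4.G1

/-! The decomposition attached to a non-singular vector. -/

set_option autoImplicit false
set_option linter.unusedSimpArgs false
set_option linter.unusedSectionVars false
set_option linter.unusedVariables false

namespace Cfsg.Agent.H6.S4

open Module Cfsg.Agent.H9.Sp Cfsg.Agent.H8.M3 Matrix

universe u

variable {k V W : Type*} [Field k] [AddCommGroup V] [Module k V] [FiniteDimensional k V]
  [AddCommGroup W] [Module k W] [FiniteDimensional k W]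
  {B : V →ₗ[k] V →ₗ[k] k} {Q : QuadraticForm k W} {ι : W →ₗ[k] End k V}
  {G : Type u} [Group G] {P : Subgroup (End k V)ˣ} {π : P →* G} {p : ℕ}
  {g g' t x y d : (End k V)ˣ} {u m : W} {c s : k} {U : Submodule k V} {v : V}

theorem scal_or (hU : finrank k U = 2) (N : End k V) :
    (∃ c : k, ∀ v ∈ U, N v = c • v) ∨ ∃ v ∈ U, v ≠ 0 ∧ ∀ c : k, N v ≠ c • v := by
  by_contra! hh
  obtain ⟨a, ha, a0⟩ := ne2 hU
  obtain ⟨c, hc⟩ := hh.2 a ha a0
  obtain ⟨w, hw, e⟩ := hh.1 c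
  have n : ∀ t : k, w ≠ t • a := by rintro t rfl; exact e (by rw [map_smul, hc, smul_comm])
  obtain ⟨c1, h1⟩ := hh.2 w hw (by simpa using n 0)
  obtain ⟨c2, h2⟩ := hh.2 _ (U.add_mem ha hw) fun e => n (-1) (by simpa using eq_neg_of_add_eq_zero_right e)
  rw [map_add, hc, h1, smul_add] at h2
  obtain ⟨f1, f2⟩ := indep2 a0 n h2
  exact e (by rw [h1, f1, f2])

theorem comm2 (hU : finrank k U = 2) {N A A' : End k V} (hN : ∀ v ∈ U, N v ∈ U) (hA : ∀ v ∈ U, A v ∈ U)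
    (hA' : ∀ v ∈ U, A' v ∈ U) (c1 : A * N = N * A) (c2 : A' * N = N * A')
    (hn : ¬ ∃ c : k, ∀ v ∈ U, N v = c • v) : ∀ w ∈ U, A (A' w) = A' (A w) := fun w hw => by
  obtain ⟨v, hv, v0, n⟩ := (scal_or hU N).resolve_left hn
  have d1 : ∀ v, A (N v) = N (A v) := LinearMap.congr_fun c1
  have d2 : ∀ v, A' (N v) = N (A' v) := LinearMap.congr_fun c2
  obtain ⟨a, b, e1⟩ := span2 hU hv (hN v hv) v0 n (hA v hv)
  obtain ⟨c, d, e2⟩ := span2 hU hv (hN v hv) v0 n (hA' v hv)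
  obtain ⟨α, β, rfl⟩ := span2 hU hv (hN v hv) v0 n hw
  simp only [map_add, map_smul, d1, d2, e1, e2]
  module

/-- the fixed space of `ι u` -/
def Vu (ι : W →ₗ[k] End k V) (u : W) : Submodule k V := LinearMap.ker (ι u - 1)

theorem mem_Vu : v ∈ Vu ι u ↔ ι u v = v := by simp [Vu, sub_eq_zero]

section Cl

variable (h : Cl B Q ι) (hu : Q u = 1)
include h hu

theorem Vu_dec (v : V) : ∃ a ∈ Vu ι u, ∃ b ∈ Vu ι (-u), v = a + b :=
  ⟨(2 : k)⁻¹ • (v + ι u v), by simp [mem_Vu, h.sq, hu, add_comm], (2 : k)⁻¹ • (v - ι u v),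
    by simp [mem_Vu, h.sq, hu], by
      linear_combination (norm := module) -(inv_mul_cancel₀ h.two) • v⟩

theorem Vu_ext {X X' : End k V} (h1 : ∀ v ∈ Vu ι u, X v = X' v) (h2 : ∀ v ∈ Vu ι (-u), X v = X' v) :
    X = X' := LinearMap.ext fun v => by
  obtain ⟨a, ha, b, hb, rfl⟩ := Vu_dec h hu v
  rw [map_add, map_add, h1 a ha, h2 b hb]

theorem Vu_partner (hv : v ∈ Vu ι u) (v0 : v ≠ 0) : ∃ w ∈ Vu ι u, B v w = 1 := by
  obtain ⟨x, hx⟩ := h.symp.exists_one v0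
  obtain ⟨a, ha, b, hb, rfl⟩ := Vu_dec h hu x
  have e := h.adj u v b
  rw [mem_Vu] at hv hb
  rw [hv, show ι u b = -b by simpa [neg_eq_iff_eq_neg] using hb, map_neg] at e
  have : B v b = 0 := mul_left_cancel₀ h.two (by linear_combination e)
  exact ⟨a, ha, by simpa [this] using hx⟩

theorem Vu_scal (sg : IsSp B g) (e : ∀ v ∈ Vu ι u, g.1 v = c • v) : c * c = 1 := by
  obtain ⟨v, hv, v0⟩ := ne2 (finrank_eig h hu)
  obtain ⟨w, hw, b⟩ := Vu_partner h hu hv v0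
  have := sg v w
  simpa [e v hv, e w hw, b] using this

theorem sp2u : Sp2 Q ι (Vu ι u) (Vu ι (-u)) := ⟨u, hu, fun d t t' h1 h2 =>
  Vu_ext h hu (fun v hv => by
      have e : t = (t + t') / 2 + (t - t') / 2 := by have := h.two; field_simp; ring
      simp only [h1 v hv, LinearMap.add_apply, LinearMap.smul_apply, End.one_apply, mem_Vu.1 hv]
      linear_combination (norm := module) e • v) fun v hv => by
    have e : t' = (t + t') / 2 - (t - t') / 2 := by have := h.two; field_simp; ring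
    have e' : ι u v = -v := by simpa [neg_eq_iff_eq_neg] using mem_Vu.1 hv
    simp only [h2 v hv, LinearMap.add_apply, LinearMap.smul_apply, End.one_apply, e']
    linear_combination (norm := module) e • v⟩

theorem Vu_T (sg : IsSp B g) (e : wa ι g u = u) : ∃ t, Tr (Vu ι u) g t := by
  obtain ⟨s, c, f⟩ := T_of_comm h sg (by rintro rfl; simp at hu) e
  exact ⟨s + c, fun v hv => by simp [f, mem_Vu.1 hv, add_smul]⟩

theorem T_of_Tr (h1 : Tr (Vu ι u) g c) (h2 : Tr (Vu ι (-u)) g c) : T g = c • 1 := Vu_ext h hu h1 h2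

omit hu in
theorem Vu_stab (sg : IsSp B g) (e : wa ι g u = u) (hv : v ∈ Vu ι u) : g.1 v ∈ Vu ι u := by
  rw [mem_Vu] at hv ⊢
  rw [← e, ← app_ι h sg, hv]

end Cl

theorem Tr.of_fix (e : ∀ v ∈ U, g.1 v = v) : Tr U g 2 := fun v hv => by
  have : g⁻¹.1 v = v := by nth_rw 1 [← e v hv]; rw [ui]
  simp [T, e v hv, this, two_smul]

theorem Beta.ns (hβ : Beta P) (h : Cl B Q ι) (g : (End k V)ˣ) (hg : g ∈ P) (e : T g = (2 : k) • 1) :
    g = 1 := by
  rcases hβ.2 g hg _ e with f | rfl | f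
  · exact f
  · rw [T_neg, T_one, ← neg_smul] at e
    exact absurd (by linear_combination -sc' h e) (four_ne h)
  · exact absurd f h.two

/-- the elements acting trivially on the second plane -/
def K1 (ι : W →ₗ[k] End k V) (P : Subgroup (End k V)ˣ) (u : W) (g : (End k V)ˣ) : Prop :=
  g ∈ P ∧ wa ι g u = u ∧ ∀ v ∈ Vu ι (-u), g.1 v = v

theorem K1.mul (h : St B Q ι P π) (h1 : K1 ι P u x) (h2 : K1 ι P u y) : K1 ι P u (x * y) :=
  ⟨P.mul_mem h1.1 h2.1, by rw [wa_mul h.cl (h.sp x h1.1) (h.sp y h2.1), h2.2.1, h1.2.1],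
    fun v hv => by rw [um, h2.2.2 v hv, h1.2.2 v hv]⟩

theorem K1.one (h : St B Q ι P π) : K1 ι P u 1 := ⟨P.one_mem, wa_one h.cl u, fun _ _ => rfl⟩

theorem K1.pow (h : St B Q ι P π) (h1 : K1 ι P u x) (n : ℕ) : K1 ι P u (x ^ n) := by
  induction n with
  | zero => simpa using K1.one h
  | succ n ih => rw [pow_succ]; exact ih.mul h h1

theorem wa_inv_fix (h : Cl B Q ι) (sg : IsSp B g) (e : wa ι g u = u) : wa ι g⁻¹ u = u := by
  nth_rw 1 [← e]; rw [wa_ui h sg]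

theorem K1.inv (h : St B Q ι P π) (h1 : K1 ι P u x) : K1 ι P u x⁻¹ :=
  ⟨P.inv_mem h1.1, wa_inv_fix h.cl (h.sp x h1.1) h1.2.1, fun v hv => by
    nth_rw 1 [← h1.2.2 v hv]; rw [ui]⟩

theorem K1.conj (h : St B Q ι P π) (h1 : K1 ι P u x) (hg : g ∈ P) (e : wa ι g u = u) :
    K1 ι P u (g * x * g⁻¹) := by
  have sg := h.sp g hg
  have sx := h.sp x h1.1
  have si := (SpU B).inv_mem sg
  have e' := wa_inv_fix h.cl sg e
  refine ⟨P.mul_mem (P.mul_mem hg h1.1) (P.inv_mem hg), by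
    rw [wa_mul h.cl ((SpU B).mul_mem sg sx) si, wa_mul h.cl sg sx, e', h1.2.1, e], fun v hv => ?_⟩
  rw [um, um, h1.2.2 _ (Vu_stab h.cl si (by rw [map_neg, e']) hv), iu]

theorem K1.fix (h : St B Q ι P π) (hβ : Beta P) (hu : Q u = 1) (h1 : K1 ι P u x) (hv : v ∈ Vu ι u)
    (v0 : v ≠ 0) (e : x.1 v = v) : x = 1 := by
  obtain ⟨t, ht⟩ := Vu_T h.cl hu (h.sp x h1.1) h1.2.1
  obtain rfl : t = 2 := smul_left_injective k v0 (by
    simp only; rw [← ht v hv, T_eig v0 (c := 1) (by simpa using e)]; norm_num)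
  exact hβ.ns h.cl x h1.1 (T_of_Tr h.cl hu ht (Tr.of_fix h1.2.2))

variable [IsAlgClosed k] [Fact p.Prime] [CharP k p]

theorem S2.K1_eig (h : S2 p B Q ι P π) (hβ : Beta P) (hu : Q u = 1) :
    ∃ v ∈ Vu ι u, v ≠ 0 ∧ ∀ x, K1 ι P u x → ∃ c : k, x.1 v = c • v := by
  have cl := h.cl
  have := h.fin
  have d2 : finrank k (Vu ι u) = 2 := finrank_eig cl hu
  obtain ⟨v, hv, v0⟩ := ne2 d2
  obtain ⟨w, hw, b⟩ := Vu_partner cl hu hv v0
  have vw : ∀ c : k, w ≠ c • v := by rintro c rfl; simp [cl.symp.alt] at b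
  let D : Subgroup (End k V)ˣ := ⟨⟨⟨{x | K1 ι P u x}, K1.mul h.toSt⟩, K1.one h.toSt⟩, K1.inv h.toSt⟩
  have hDP : D ≤ P := fun d hd => hd.1
  have : Finite D := Finite.of_injective _ (Subgroup.inclusion_injective hDP)
  obtain ⟨φ, hdet, hφ⟩ := exists_phi ((Units.coeHom _).comp D.subtype) v0 vw fun d => by
    have sd := h.sp _ d.2.1
    obtain ⟨a1, a2, e1⟩ := span2 d2 hv hw v0 vw (Vu_stab cl sd d.2.2.1 hv)
    obtain ⟨a3, a4, e2⟩ := span2 d2 hv hw v0 vw (Vu_stab cl sd d.2.2.1 hw)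
    refine act_of e1 e2 ?_
    have := sd v w
    simp only [e1, e2, map_add, map_smul, LinearMap.add_apply, LinearMap.smul_apply, cl.symp.alt, b,
      cl.symp.skew w v, smul_eq_mul] at this
    linear_combination this
  replace hφ : ∀ (d : D) c, d.1.1 (co v w c) = co v w ((φ d : M2 k) *ᵥ c) := hφ
  have coU : ∀ c, co v w c ∈ Vu ι u := fun c => add_mem ((Vu ι u).smul_mem _ hv) ((Vu ι u).smul_mem _ hw)
  have co0 : ∀ c : Fin 2 → k, c ≠ 0 → co v w c ≠ 0 := fun c h0 e => h0 (co_inj v0 vw (by simpa using e))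
  have eig : ∀ (d : D) (x y : Fin 2 → k) (α : k), (φ d : M2 k) *ᵥ x = α • y →
      d.1.1 (co v w x) = α • co v w y := fun d x y α e => by rw [hφ, e, map_smul]
  have no0 : ∀ d : D, (φ d : M2 k).trace ≠ 0 := fun d e => by
    obtain ⟨t, ht⟩ := Vu_T cl hu (h.sp _ d.2.1) d.2.2.1
    have a := ht _ (coU ![1, 0])
    have b := congrArg (fun M : M2 k => co v w (M *ᵥ ![1, 0])) (inv_add (hdet d))
    simp only [add_mulVec, map_add, ← map_inv, ← hφ, smul_mulVec, one_mulVec, map_smul, e] at b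
    obtain rfl : 0 = t := smul_left_injective k (co0 ![1, 0] (by simp)) (b.symm.trans a)
    exact h.noY (sp2u cl hu) d.2.1 ht (Tr.of_fix d.2.2.2)
  rcases dickM p cl.two φ hdet with ⟨x, x0, hx⟩ | ⟨x, y, x0, xy, hx⟩ | ⟨-, ⟨d, e⟩, -⟩ | ⟨k0, R, N, N', H⟩
  · exact ⟨_, coU x, co0 x x0, fun d hd => (hx ⟨d, hd⟩).imp fun c => eig ⟨d, hd⟩ x x c⟩
  · refine ⟨_, coU x, co0 x x0, fun d hd => ?_⟩
    rcases hx ⟨d, hd⟩ with ⟨a1, -⟩ | ⟨⟨α, a1⟩, β, a2⟩
    · exact a1.imp fun c => eig ⟨d, hd⟩ x x c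
    · exfalso
      have b := congrArg (fun M : M2 k => M *ᵥ x) (ch2 (hdet ⟨d, hd⟩))
      simp only [← mulVec_mulVec, a1, a2, mulVec_smul, sub_mulVec, smul_mulVec, one_mulVec] at b
      have := (indep2 x0 xy (c := α * β) (d := 0) (c' := -1) (d' := (φ ⟨d, hd⟩ : M2 k).trace * α)
        (by linear_combination (norm := module) b))
      rw [(mul_eq_zero.1 this.2.symm).resolve_left (no0 _)] at this
      simp at this
  · exact absurd e (no0 d)
  exfalso
  have := H.fin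
  have := Fintype.ofFinite k0
  obtain ⟨n, -, hn⟩ := FiniteField.card k0 p
  obtain ⟨d, hd⟩ := exists_prime_orderOf_dvd_card' (G := D) p ((dvd_pow_self p n.ne_zero).trans
    (by rw [← hn, ← Nat.card_eq_fintype_card]; exact H.dvd))
  have un : Un d.1 := un_of_pow cl (a := 1) (by
    rw [pow_one, ← Subgroup.coe_pow, ← hd, pow_orderOf_eq_one]; rfl)
  obtain ⟨s, c, f⟩ := T_of_comm cl (h.sp _ d.2.1) (by rintro rfl; simp at hu) d.2.2.1
  obtain ⟨rfl, a⟩ := un_T cl un (s := s) (m := c • u) (by simp [f])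
  rw [Orth.Q_smul, hu, mul_one, mul_self_eq_zero] at a
  obtain rfl : d = 1 := Subtype.ext (hβ.ns cl _ d.2.1 (by simp [f, a]))
  exact (Fact.out : p.Prime).one_lt.ne (by simpa using hd)

theorem S2.K1_conj (h : S2 p B Q ι P π) (hβ : Beta P) (hu : Q u = 1) (hx : K1 ι P u x) (hg : g ∈ P)
    (e : wa ι g u = u) : g * x * g⁻¹ = x ∨ g * x * g⁻¹ = x⁻¹ := by
  have cl := h.cl
  obtain ⟨v, hv, v0, H⟩ := h.K1_eig hβ hu
  have hy := hx.conj h.toSt hg e
  obtain ⟨a, ha⟩ := H x hx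
  obtain ⟨b, hb⟩ := H _ hy
  obtain ⟨s, c, f⟩ := T_of_comm cl (h.sp _ hx.1) (by rintro rfl; simp at hu) hx.2.1
  have f' := T_conj' cl (h.sp g hg) (x := x) (s := s) (m := c • u) (by simp [f])
  rw [map_smul, e, map_smul, ← f] at f'
  have e1 := smul_left_injective k v0 ((T_eig v0 ha).symm.trans (f' ▸ T_eig v0 hb))
  obtain ⟨a0, ha'⟩ := inv_eig v0 ha
  have b0 := (inv_eig v0 hb).1
  generalize g * x * g⁻¹ = y at *
  rcases mul_eq_zero.1 (show (a - b) * (a * b - 1) = 0 by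
    field_simp at e1; linear_combination e1) with f | f
  · left
    refine (inv_mul_eq_one.1 (((hx.inv h.toSt).mul h.toSt hy).fix h.toSt hβ hu hv v0 ?_)).symm
    rw [um, hb, map_smul, ha', smul_smul, ← sub_eq_zero.1 f, mul_inv_cancel₀ a0, one_smul]
  · right
    refine eq_inv_of_mul_eq_one_right ((hx.mul h.toSt hy).fix h.toSt hβ hu hv v0 ?_)
    rw [um, hb, map_smul, ha, smul_smul, mul_comm, sub_eq_zero.1 f, one_smul]

theorem K1.eig (h : St B Q ι P π) (hu : Q u = 1) (hx : K1 ι P u x) :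
    ∃ (l : k) (w : V), w ∈ Vu ι u ∧ w ≠ 0 ∧ x.1 w = l • w := by
  have sx := h.sp x hx.1
  obtain ⟨t, ht⟩ := Vu_T h.cl hu sx hx.2.1
  obtain ⟨v, hv, v0⟩ := ne2 (finrank_eig h.cl hu)
  exact exists_eigv (fun v hv => ⟨Vu_stab h.cl sx hx.2.1 hv,
    Vu_stab h.cl ((SpU B).inv_mem sx) (wa_inv_fix h.cl sx hx.2.1) hv⟩) ht hv v0

theorem noYY (h : St B Q ι P π) (hβ : Beta P) (hu : Q u = 1) (hx : K1 ι P u x) (hy : K1 ι P (-u) y)
    {r : ℕ} (hr : r.Prime) (ho : Odd r) (xr : x ^ r = 1) (yr : y ^ r = 1) (x1 : x ≠ 1) (y1 : y ≠ 1) :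
    False := by
  have cl := h.cl
  have hu' : Q (-u) = 1 := by simpa using hu
  obtain ⟨l, v, hv, v0, e1⟩ := hx.eig h hu
  obtain ⟨μ, w, hw, w0, e2⟩ := hy.eig h hu'
  have l1 : l ≠ 1 := by rintro rfl; exact x1 (hx.fix h hβ hu hv v0 (by simpa using e1))
  have μ1 : μ ≠ 1 := by rintro rfl; exact y1 (hy.fix h hβ hu' hw w0 (by simpa using e2))
  have lr : l ^ r = 1 := smul_left_injective k v0 (by simp only; rw [← eig_pow e1, xr]; simp)
  have μr : μ ^ r = 1 := smul_left_injective k w0 (by simp only; rw [← eig_pow e2, yr]; simp)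
  have := Fact.mk hr
  have : NeZero r := ⟨hr.ne_zero⟩
  have pr : IsPrimitiveRoot μ r := orderOf_eq_prime μr μ1 ▸ IsPrimitiveRoot.orderOf μ
  obtain ⟨j, -, rfl⟩ := pr.eq_pow_of_pow_eq_one lr
  have hz := hy.pow h j
  have zP := P.mul_mem hx.1 hz.1
  have zu : wa ι (x * y ^ j) u = u := by
    rw [wa_mul cl (h.sp x hx.1) (h.sp _ hz.1), show wa ι (y ^ j) u = u by simpa using hz.2.1, hx.2.1]
  have z1 : (x * y ^ j).1 v = μ ^ j • v := by rw [um, hz.2.2 v (by simpa using hv), e1]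
  have z2 : (x * y ^ j).1 w = μ ^ j • w := by rw [um, eig_pow e2, map_smul, hx.2.2 w hw]
  obtain ⟨t1, a1⟩ := Vu_T cl hu (h.sp _ zP) zu
  obtain ⟨t2, a2⟩ := Vu_T cl hu' (h.sp _ zP) (by rw [map_neg, zu])
  obtain rfl := smul_left_injective k v0 ((a1 v hv).symm.trans (T_eig v0 z1))
  obtain rfl := smul_left_injective k w0 ((a2 w hw).symm.trans (T_eig w0 z2))
  generalize μ ^ j = l at *
  obtain ⟨n, rfl⟩ := ho
  rcases hβ.2 _ zP _ (T_of_Tr cl hu a1 a2) with f | f | f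
  · rw [f] at z1; exact l1 (smul_left_injective k v0 (by simpa using z1.symm))
  · rw [f] at z1
    obtain rfl : -1 = l := smul_left_injective k v0 (by simpa using z1)
    exact cl.two (by rw [pow_succ, pow_mul] at lr; simp at lr; linear_combination -lr)
  · have l0 := (inv_eig v0 z1).1
    have a : l ^ 2 = -1 := by field_simp at f; linear_combination f
    rw [pow_succ, pow_mul, a] at lr
    rcases neg_one_pow_eq_or k n with b | b <;> rw [b] at lr
    · exact l1 (by simpa using lr)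
    · exact cl.two (by linear_combination a + (l - 1) * lr)

end Cfsg.Agent.H6.S4
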