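import Cfsg.Agent.H6.S4.G3
import Cfsg.Agent.H3.S4B4
import Cfsg.Agent.H9.A67.E5
import Cfsg.Agent.H5.S4.F1

/-! Subgroups of `Sp_4`: the main theorem. -/

set_option autoImplicit false
set_option linter.unusedSectionVars false

namespace Cfsg.Agent.H6.S4

open Module Cfsg.Agent.H9.Sp Cfsg.Agent.H8.M3

universe u

variable {k V W : Type*} [Field k] [AddCommGroup V] [Module k V] [FiniteDimensional k V]
  [AddCommGroup W] [Module k W] [FiniteDimensional k W]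
  {B : V →ₗ[k] V →ₗ[k] k} {Q : QuadraticForm k W} {ι : W →ₗ[k] End k V}
  {G : Type u} [Group G] {P : Subgroup (End k V)ˣ} {π : P →* G} {p : ℕ}
  [IsAlgClosed k] [Fact p.Prime] [CharP k p]

theorem S2.main' (h : S2 p B Q ι P π) (ss : Beta P → OddAb G → SsNu p G) :
    (5 ≤ p ∧ (∀ g ∈ P, LinearMap.trace k V g.1 ^ p = LinearMap.trace k V g.1) ∧
      (Nonempty (G ≃* alternatingGroup (Fin 6)) ∨
        p = 7 ∧ Nonempty (G ≃* alternatingGroup (Fin 7)))) ∨
    (Beta P ∧ (Nonempty (G ≃* alternatingGroup (Fin 5)) ∨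
      (p ∣ Nat.card G ∧ ∀ S : Sylow p G, Nat.card (Sylow p G) ≤ Nat.card S + 1))) := by
  have n := H3.S4.bcore h h.rt_val
  have := h.finG
  by_cases e : ∃ g, X3 P g
  · obtain ⟨g, hg⟩ := e
    exact Or.inl (H9.A67.alt h (h.pair3 n) (h.exists_nat (h.pair3 n) hg))
  have β := h.beta n (not_exists.1 e)
  exact Or.inr ⟨β, FD.main ⟨h.sn, h.dih β, h.oddAb β, ss β (h.oddAb β), H5.S4.unNu h.toSt β (h.dih β)⟩
    (p_ne_two h.cl)⟩

end Cfsg.Agent.H6.S4
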